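import Mathlib
import Cfsg.Agent.Lib.Helper93.S64Stmt
import Cfsg.Agent.Lib.Helper55.SolvCore

set_option autoImplicit false

namespace Cfsg.Agent.Lib.Helper17.S64FHHALL

open Cfsg.Agent.Lib.Helper93.S64Stmt

universe u

theorem main : FHHall.{u} := by
  intro M _ _
  by_contra hnc
  obtain ⟨p, hp, hpa, hpb⟩ := Nat.Prime.not_coprime_iff_dvd.1 hnc
  by_cases hex : ∃ N : Subgroup M, N.Normal ∧ Group.IsNilpotent N ∧
      (Nat.card N).Coprime N.index ∧ p ∣ Nat.card N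
  · obtain ⟨N, hNn, hNnil, hNc, hpN⟩ := hex
    have hle : N ≤ Cfsg.fittingHall M := le_sSup ⟨hNn, hNnil, hNc⟩
    have hidx : (Cfsg.fittingHall M).index ∣ N.index := Subgroup.index_dvd_of_le hle
    have hpidx : p ∣ N.index := dvd_trans hpb hidx
    have h1 : p ∣ Nat.gcd (Nat.card N) N.index := Nat.dvd_gcd hpN hpidx
    rw [hNc.gcd_eq_one] at h1
    exact hp.one_lt.ne' (Nat.dvd_one.1 h1)
  · push Not at hex
    have hle : Cfsg.fittingHall M ≤ Cfsg.pPrimeCore p M := by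
      apply sSup_le
      rintro N ⟨hNn, hNnil, hNc⟩
      apply le_sSup
      exact ⟨hNn, Nat.Coprime.symm ((Nat.Prime.coprime_iff_not_dvd hp).2 (hex N hNn hNnil hNc))⟩
    have h1 : Nat.card (Cfsg.fittingHall M) ∣ Nat.card (Cfsg.pPrimeCore p M) :=
      Subgroup.card_dvd_of_le hle
    have h2 := Cfsg.Agent.Lib.Helper55.SolvCore.card_pPrimeCore_coprime (G := M) p
    have h3 : p ∣ Nat.card (Cfsg.pPrimeCore p M) := dvd_trans hpa h1
    exact (Nat.Prime.coprime_iff_not_dvd hp).1 h2.symm h3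

end Cfsg.Agent.Lib.Helper17.S64FHHALL
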