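import Mathlib
import Cfsg.Agent.Lib.Helper17.ExcTwo
import Cfsg.Agent.Lib.CT.NormOne
import Cfsg.Agent.Lib.CT.Ops
import Cfsg.Agent.S0157
import Cfsg.Agent.S0154

/-!
A perfect group `G` acting transitively on `p ≥ 7` points (`p` prime), with a self-centralizing
subgroup `P` of order `p` acting without fixed points and `|N(P)| = 2p`: the permutation
character is `1 + χ` with `χ` irreducible, and `⟨χ², χ⟩ = 1`; in terms of the numbers `f g` of
fixed points: `∑ f = |G|`, `∑ f² = 2|G|`, `∑ f³ = 5|G|`.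
-/

set_option autoImplicit false
set_option linter.style.haveILetI false

namespace Cfsg.Agent.Lib.Helper17.PrimeDegA

open Cfsg Subgroup MulAction
open Cfsg.Agent.Lib.CT.Orth Cfsg.Agent.Lib.CT.Wedderburn Cfsg.Agent.Lib.CT.NormOne
open Cfsg.Agent.Lib.Helper17.ExcOrb Cfsg.Agent.Lib.Helper17.ExcMain
open Cfsg.Agent.Lib.Helper17.ExcCor Cfsg.Agent.Lib.Helper17.ExcTwo
open Cfsg.Agent.S0157
open scoped ComplexConjugate

universe u w
variable {G : Type u} [Group G]

/-- In a perfect group the only linear character is the trivial one. -/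
theorem charDegree_ne_one_of_perfect [Finite G] (hG : _root_.commutator G = ⊤)
    (χ : IrrCharacter G) (hχ : χ ≠ trivIrr G) : charDegree (χ : G → ℂ) ≠ 1 := by
  intro h
  have h1 := Cfsg.Agent.S0154.result (G := G)
  rw [hG, index_top] at h1
  have hsub : Subsingleton {χ : Cfsg.IrrCharacter G // (χ : G → ℂ) 1 = 1} :=
    (Nat.card_eq_one_iff_unique.mp h1).1
  have e1 : (χ : G → ℂ) 1 = 1 := by rw [deg_eq, h]; norm_num
  have e2 : ((trivIrr G : IrrCharacter G) : G → ℂ) 1 = 1 := trivIrr_apply G 1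
  have := hsub.elim ⟨χ, e1⟩ ⟨trivIrr G, e2⟩
  exact hχ (congrArg Subtype.val this)

theorem cube_ineq (k : ℕ) : 3 * k ^ 2 ≤ k ^ 3 + 2 * k := by
  obtain h | h : k ≤ 2 ∨ 3 ≤ k := by omega
  · interval_cases k <;> norm_num
  · have h1 : 3 * k ^ 2 ≤ k * k ^ 2 := Nat.mul_le_mul_right _ h
    have h2 : k * k ^ 2 = k ^ 3 := by ring
    omega

theorem cube_ineq_strict (k : ℕ) (hk : 3 ≤ k) : 3 * k ^ 2 < k ^ 3 + 2 * k := by
  have h1 : 3 * k ^ 2 ≤ k * k ^ 2 := Nat.mul_le_mul_right _ hk
  have h2 : k * k ^ 2 = k ^ 3 := by ring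
  omega

/-- The power sums of the fixed point numbers. -/
theorem power_sums [Fintype G] {X : Type w} [MulAction G X] [Finite X]
    (hperf : _root_.commutator G = ⊤)
    (P : Subgroup G) {p : ℕ} (hp : p.Prime) (hP : Nat.card P = p)
    (hC : centralizer (P : Set G) ≤ P) (hN : Nat.card (normalizer (P : Set G)) = p * 2)
    (hp7 : 7 ≤ p) (hX : Nat.card X = p) (htrans : IsPretransitive G X)
    (hfpf : ∀ y ∈ P, y ≠ 1 → Nat.card (fixedBy X y) = 0) :
    ∑ g : G, Nat.card (fixedBy X g) = Nat.card G ∧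
      ∑ g : G, Nat.card (fixedBy X g) ^ 2 = 2 * Nat.card G ∧
      ∑ g : G, Nat.card (fixedBy X g) ^ 3 = 5 * Nat.card G := by
  classical
  haveI : Finite (IrrCharacter G) := finite_irrCharacter G
  haveI : Fintype (IrrCharacter G) := Fintype.ofFinite _
  obtain ⟨n, ε, δ, θ, χ, i₀, hn, hθinj, hother, hε, hδ, hχT, hθχ, hθT, ⟨a, ha⟩, heq, hθvan,
    hθone, hform⟩ := exceptional_two' P hp hP hC hN hp7
  obtain ⟨y, hyP, hy1⟩ := exists_mem_ne_one P hp hP
  have hGne : (Nat.card G : ℂ) ≠ 0 := Nat.cast_ne_zero.mpr Nat.card_pos.ne'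
  -- the permutation character
  have hπ : IsCharacter G (permChar G X) := permChar_isCharacter
  have hπcl := char_isClassFunction hπ
  have hπ0 : ∀ g u : G, u⁻¹ * g * u ∈ P → g ≠ 1 → permChar G X g = 0 := by
    intro g u hu hg1
    have h1 : permChar G X (u⁻¹ * g * u) = permChar G X g := by
      have := hπcl g u⁻¹
      rwa [inv_inv] at this
    rw [← h1]
    unfold permChar
    rw [hfpf _ hu (fun h => hg1 (by
      have h2 : g = u * (u⁻¹ * g * u) * u⁻¹ := by group
      rw [h2, h]; group))]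
    simp
  have hconst : ∀ F : G → ℂ, (∀ g u : G, u⁻¹ * g * u ∈ P → g ≠ 1 → F g = 0) →
      ∀ i j, classInner F (θ i : G → ℂ) = classInner F (θ j : G → ℂ) := by
    intro F hF i j
    unfold classInner
    congr 1
    apply Finset.sum_congr rfl
    intro g _
    by_cases hg : ∀ u : G, u⁻¹ * g * u ∉ P
    · rw [hθvan i j g hg]
    · push Not at hg
      obtain ⟨u, hu⟩ := hg
      by_cases hg1 : g = 1
      · rw [hg1, hθone i j]
      · rw [hF g u hu hg1, zero_mul, zero_mul]
  -- degrees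
  have hdθ : ∀ i, charDegree ((θ i : IrrCharacter G) : G → ℂ)
      = charDegree ((θ i₀ : IrrCharacter G) : G → ℂ) := by
    intro i
    unfold charDegree
    rw [hθone i i₀]
  have hdT : charDegree ((trivIrr G : IrrCharacter G) : G → ℂ) = 1 := by
    have h1 := deg_eq (trivIrr G)
    rw [trivIrr_apply] at h1
    exact_mod_cast h1.symm
  -- a general analysis of a character vanishing on the conjugates of `P ∖ 1`
  have hgen : ∀ Φ : G → ℂ, IsCharacter G Φ →
      (∀ g u : G, u⁻¹ * g * u ∈ P → g ≠ 1 → Φ g = 0) →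
      ∃ m : IrrCharacter G → ℕ, (∀ ψ : IrrCharacter G, classInner Φ (ψ : G → ℂ) = m ψ) ∧
        (∀ g, Φ g = ∑ ψ : IrrCharacter G, (m ψ : ℂ) * (ψ : G → ℂ) g) ∧
        ((m (trivIrr G) : ℤ) + δ * m χ - ε * m (θ i₀) = 0) ∧
        (∀ i, m (θ i) = m (θ i₀)) := by
    intro Φ hΦ hΦ0
    obtain ⟨m, hm, hexp⟩ := exists_mult_sum hΦ
    have hmθ : ∀ i j, m (θ i) = m (θ j) := by
      intro i j
      have h1 := hconst Φ hΦ0 i j
      rw [hm, hm] at h1
      exact_mod_cast h1
    have hexp' : ∀ g, Φ g = ∑ ψ : IrrCharacter G, (m ψ : ℂ) * (ψ : G → ℂ) g := by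
      intro g
      have h1 := congrFun hexp g
      rw [Finset.sum_apply] at h1
      simpa using h1
    refine ⟨m, hm, hexp', ?_, fun i => hmθ i i₀⟩
    have h1 := hform y hyP hy1 (fun ψ => (m ψ : ℂ)) (fun i j => by rw [hmθ i j])
    have h2 : ∑ ψ : IrrCharacter G, (m ψ : ℂ) * conj ((ψ : G → ℂ) y) = conj (Φ y) := by
      rw [hexp' y, map_sum]
      apply Finset.sum_congr rfl
      intro ψ _
      rw [map_mul, Complex.conj_natCast]
    rw [h2, hΦ0 y 1 (by simpa using hyP) hy1, map_zero] at h1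
    have h3 : ((m (trivIrr G) : ℤ) : ℂ) + (δ : ℂ) * ((m χ : ℤ) : ℂ)
        - (ε : ℂ) * ((m (θ i₀) : ℤ) : ℂ) = 0 := by
      push_cast
      rw [← h1]
    exact_mod_cast h3
  have hdeg : ∀ (Φ : G → ℂ) (m : IrrCharacter G → ℕ) (D : ℕ),
      (∀ g, Φ g = ∑ ψ : IrrCharacter G, (m ψ : ℂ) * (ψ : G → ℂ) g) → Φ 1 = D →
      ∑ ψ : IrrCharacter G, m ψ * charDegree (ψ : G → ℂ) = D := by
    intro Φ m D hexp hD
    have h1 := hexp 1
    rw [hD] at h1
    have h2 : ((∑ ψ : IrrCharacter G, m ψ * charDegree (ψ : G → ℂ) : ℕ) : ℂ) = D := by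
      rw [h1]
      push_cast
      apply Finset.sum_congr rfl
      intro ψ _
      rw [deg_eq]
    exact_mod_cast h2
  have hlow : ∀ m : IrrCharacter G → ℕ, (∀ i, m (θ i) = m (θ i₀)) →
      m (trivIrr G) + m χ * charDegree (χ : G → ℂ)
        + n * (m (θ i₀) * charDegree ((θ i₀ : IrrCharacter G) : G → ℂ))
        ≤ ∑ ψ : IrrCharacter G, m ψ * charDegree (ψ : G → ℂ) := by
    intro m hmθ
    rw [sum_split θ hθinj (fun ψ => m ψ * charDegree (ψ : G → ℂ))]
    have h1 : ∑ i, m (θ i) * charDegree ((θ i : IrrCharacter G) : G → ℂ)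
        = n * (m (θ i₀) * charDegree ((θ i₀ : IrrCharacter G) : G → ℂ)) := by
      rw [Finset.sum_congr rfl (fun i _ => by rw [hmθ i, hdθ i])]
      simp
    rw [h1]
    have h2 : m (trivIrr G) + m χ * charDegree (χ : G → ℂ)
        ≤ ∑ ψ : IrrCharacter G,
          (if ∃ i, θ i = ψ then 0 else m ψ * charDegree (ψ : G → ℂ)) := by
      calc m (trivIrr G) + m χ * charDegree (χ : G → ℂ)
          = ∑ ψ ∈ ({trivIrr G, χ} : Finset (IrrCharacter G)),
              (if ∃ i, θ i = ψ then 0 else m ψ * charDegree (ψ : G → ℂ)) := by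
            rw [Finset.sum_pair hχT.symm, if_neg (fun ⟨i, hi⟩ => hθT i hi),
              if_neg (fun ⟨i, hi⟩ => hθχ i hi), hdT, mul_one]
        _ ≤ _ := Finset.sum_le_sum_of_subset (Finset.subset_univ _)
    omega
  have hsumform : ∀ φ ψ : G → ℂ, ∑ g, φ g * conj (ψ g) = (Nat.card G : ℂ) * classInner φ ψ := by
    intro φ ψ
    unfold classInner
    rw [← mul_assoc, mul_inv_cancel₀ hGne, one_mul]
  -- Step A: the permutation character
  obtain ⟨m, hm, hexp, hrel, hmθ⟩ := hgen (permChar G X) hπ hπ0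
  have hπ1 : permChar G X 1 = (p : ℂ) := by
    unfold permChar
    rw [← hX]
    congr 1
    apply Nat.card_congr
    exact Equiv.subtypeUnivEquiv (fun x => by simp [MulAction.mem_fixedBy])
  have hsum := hdeg _ m p hexp hπ1
  have hl := hlow m hmθ
  have hmT : m (trivIrr G) = 1 := by
    have h1 := hm (trivIrr G)
    have h2 : classInner (permChar G X) ((trivIrr G : IrrCharacter G) : G → ℂ) = 1 := by
      unfold classInner
      simp only [trivIrr_apply, map_one, mul_one]
      rw [sum_permChar]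
      have horb1 : Nat.card (Quotient (MulAction.orbitRel G X)) = 1 := by
        have hsub : Subsingleton (Quotient (MulAction.orbitRel G X)) :=
          (MulAction.pretransitive_iff_subsingleton_quotient G X).1 htrans
        haveI : Nonempty X := (Nat.card_pos_iff.mp (by rw [hX]; exact hp.pos)).1
        have hne : Nonempty (Quotient (MulAction.orbitRel G X)) :=
          (inferInstance : Nonempty X).map (Quotient.mk _)
        exact Nat.card_unique
      rw [horb1]
      simp [hGne]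
    rw [h2] at h1
    exact_mod_cast h1.symm
  have hdχ1 := charDegree_ne_one_of_perfect hperf χ hχT
  have hdθ1 := charDegree_ne_one_of_perfect hperf (θ i₀) (hθT i₀)
  have hdχ0 := irr_charDegree_pos χ.2
  have hdθ0 := irr_charDegree_pos (θ i₀).2
  obtain ⟨dχ, hdχ⟩ : ∃ d : ℕ, d = charDegree (χ : G → ℂ) := ⟨_, rfl⟩
  obtain ⟨dθ, hdθ'⟩ : ∃ d : ℕ, d = charDegree ((θ i₀ : IrrCharacter G) : G → ℂ) := ⟨_, rfl⟩
  rw [← hdχ] at ha heq hdχ1 hdχ0 hl
  rw [← hdθ'] at heq hdθ1 hdθ0 hl
  rw [hsum] at hl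
  have hn3 : 3 ≤ n := by omega
  have hmθ0 : m (θ i₀) = 0 := by
    by_contra hne
    have h1 : 1 ≤ m (θ i₀) := Nat.one_le_iff_ne_zero.mpr hne
    have h2 : n * dθ ≤ n * (m (θ i₀) * dθ) :=
      Nat.mul_le_mul_left _ (Nat.le_mul_of_pos_left _ h1)
    have h3 : n * dθ ≤ 2 * n := by omega
    have h4 : dθ ≤ 2 := by
      by_contra h
      push Not at h
      have h5 : n * 3 ≤ n * dθ := Nat.mul_le_mul_left _ h
      omega
    have h5 : dθ = 2 := by omega
    rw [h5] at heq
    rcases hδ with rfl | rfl <;> rcases hε with rfl | rfl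
    · push_cast at heq; omega
    · push_cast at heq; omega
    · push_cast at heq; omega
    · push_cast at heq
      have h6 : (dχ : ℤ) = 3 := by omega
      rw [h6] at ha
      have h7 : (p : ℤ) ∣ 4 := ⟨a, by omega⟩
      have h8 := Int.le_of_dvd (by norm_num) h7
      omega
  obtain ⟨rfl, hmχ⟩ : δ = -1 ∧ m χ = 1 := by
    rw [hmT, hmθ0] at hrel
    push_cast at hrel
    rcases hδ with rfl | rfl
    · exfalso; omega
    · exact ⟨rfl, by omega⟩
  have hdχp : dχ = p - 1 := by
    rw [hmT, hmχ, hmθ0] at hl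
    have ha1 : a = 1 := by
      have h2 : (1 : ℤ) ≤ a := by
        by_contra h
        push Not at h
        have h3 : (p : ℤ) * a ≤ 0 := by
          have hp0 : (0 : ℤ) ≤ p := by positivity
          nlinarith
        omega
      have h3 : a ≤ 1 := by
        by_contra h
        push Not at h
        have h4 : (p : ℤ) * 2 ≤ p * a := by
          have hp0 : (0 : ℤ) ≤ p := by positivity
          nlinarith
        omega
      omega
    rw [ha1] at ha
    omega
  obtain ⟨rfl, hdθp⟩ : ε = -1 ∧ dθ = p - 2 := by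
    rw [hdχp] at heq
    rcases hε with rfl | rfl
    · exfalso
      push_cast [Nat.cast_sub hp.one_lt.le] at heq
      omega
    · refine ⟨rfl, ?_⟩
      push_cast [Nat.cast_sub hp.one_lt.le] at heq
      omega
  have hmzero : ∀ ψ, ψ ≠ trivIrr G → ψ ≠ χ → m ψ = 0 := by
    intro ψ h1 h2
    have h3 : ∑ ψ : IrrCharacter G, m ψ * charDegree (ψ : G → ℂ)
        = m (trivIrr G) * charDegree ((trivIrr G : IrrCharacter G) : G → ℂ)
          + (m χ * charDegree (χ : G → ℂ)
            + ∑ ψ ∈ (Finset.univ.erase (trivIrr G)).erase χ, m ψ * charDegree (ψ : G → ℂ)) := by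
      rw [← Finset.add_sum_erase Finset.univ _ (Finset.mem_univ (trivIrr G)),
        ← Finset.add_sum_erase (Finset.univ.erase (trivIrr G)) _
          (Finset.mem_erase.mpr ⟨hχT, Finset.mem_univ _⟩)]
    rw [hsum, hmT, hdT, hmχ, ← hdχ, hdχp] at h3
    have h4 : ∑ ψ ∈ (Finset.univ.erase (trivIrr G)).erase χ, m ψ * charDegree (ψ : G → ℂ)
        = 0 := by omega
    have h5 := (Finset.sum_eq_zero_iff.mp h4) ψ
      (Finset.mem_erase.mpr ⟨h2, Finset.mem_erase.mpr ⟨h1, Finset.mem_univ _⟩⟩)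
    rcases Nat.mul_eq_zero.mp h5 with h | h
    · exact h
    · exact absurd h (irr_charDegree_pos ψ.2).ne'
  have hπχ : ∀ g, permChar G X g = 1 + (χ : G → ℂ) g := by
    intro g
    rw [hexp g, sum_two (trivIrr G) χ hχT _ (fun ψ h1 h2 => by rw [hmzero ψ h1 h2]; simp),
      hmT, hmχ, trivIrr_apply]
    simp
  -- Step B: the character `χ² + χ`
  have hχc := isCharacter_of_irr χ.2
  have hΦ : IsCharacter G ((χ : G → ℂ) * (χ : G → ℂ) + (χ : G → ℂ)) :=
    Cfsg.Agent.Lib.CT.Ops.isCharacter_add (Cfsg.Agent.Lib.CT.Ops.isCharacter_mul hχc hχc) hχc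
  have hΦπ : ∀ g, ((χ : G → ℂ) * (χ : G → ℂ) + (χ : G → ℂ)) g
      = (χ : G → ℂ) g * permChar G X g := by
    intro g
    rw [hπχ g]
    simp only [Pi.add_apply, Pi.mul_apply]
    ring
  have hΦ0 : ∀ g u : G, u⁻¹ * g * u ∈ P → g ≠ 1 →
      ((χ : G → ℂ) * (χ : G → ℂ) + (χ : G → ℂ)) g = 0 := by
    intro g u hu hg1
    rw [hΦπ g, hπ0 g u hu hg1, mul_zero]
  obtain ⟨m', hm', hexp', hrel', hmθ'⟩ := hgen _ hΦ hΦ0
  have hΦ1 : ((χ : G → ℂ) * (χ : G → ℂ) + (χ : G → ℂ)) 1 = ((p * (p - 1) : ℕ) : ℂ) := by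
    rw [hΦπ 1, hπ1, deg_eq, ← hdχ, hdχp]
    push_cast
    ring
  have hsum' := hdeg _ m' (p * (p - 1)) hexp' hΦ1
  have hl' := hlow m' hmθ'
  rw [hsum', ← hdχ, ← hdθ', hdχp, hdθp] at hl'
  have hm'T : m' (trivIrr G) = 1 := by
    have h1 := hm' (trivIrr G)
    have h2 : classInner ((χ : G → ℂ) * (χ : G → ℂ) + (χ : G → ℂ))
        ((trivIrr G : IrrCharacter G) : G → ℂ) = conj (classInner (permChar G X) (χ : G → ℂ)) := by
      unfold classInner
      rw [map_mul, map_inv₀, Complex.conj_natCast, map_sum]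
      congr 1
      apply Finset.sum_congr rfl
      intro g _
      rw [hΦπ g, trivIrr_apply, map_one, mul_one, map_mul, Complex.conj_conj]
      unfold permChar
      rw [Complex.conj_natCast]
      ring
    rw [h2, hm χ, hmχ] at h1
    simp at h1
    exact_mod_cast h1.symm
  rw [hm'T] at hrel' hl'
  have hm'χ : m' χ = 1 + m' (θ i₀) := by
    push_cast at hrel'
    omega
  rw [hm'χ] at hl'
  obtain ⟨s, hs⟩ : ∃ s : ℕ, s = m' (θ i₀) := ⟨_, rfl⟩
  rw [← hs] at hl' hm'χ
  have hs1 : s ≤ 1 := by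
    by_contra hcon
    push Not at hcon
    obtain rfl : p = n * 2 + 1 := hn.symm
    have e1 : n * 2 + 1 - 1 = 2 * n := by omega
    have e2 : n * 2 + 1 - 2 = 2 * n - 1 := by omega
    rw [e1, e2] at hl'
    have h1 : 3 * (2 * n) ≤ (1 + s) * (2 * n) := Nat.mul_le_mul_right _ (by omega)
    have h2 : 2 * (2 * n - 1) ≤ s * (2 * n - 1) := Nat.mul_le_mul_right _ hcon
    have h3 : n * (2 * (2 * n - 1)) ≤ n * (s * (2 * n - 1)) := Nat.mul_le_mul_left _ h2
    have h4 : n * (2 * (2 * n - 1)) = 4 * (n * n) - 2 * n := by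
      have : 2 * n - 1 + 1 = 2 * n := by omega
      have h5 : n * (2 * (2 * n - 1)) + 2 * n = 4 * (n * n) := by
        calc n * (2 * (2 * n - 1)) + 2 * n = 2 * n * (2 * n - 1 + 1) := by ring
          _ = 2 * n * (2 * n) := by rw [this]
          _ = 4 * (n * n) := by ring
      omega
    have h6 : (n * 2 + 1) * (2 * n) = 4 * (n * n) + 2 * n := by ring
    have h7 : 2 * n ≤ 4 * (n * n) := by nlinarith
    omega
  -- the power sums
  have hS1 : ∑ g : G, Nat.card (fixedBy X g) = Nat.card G := by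
    have h1 := hsumform (permChar G X) ((trivIrr G : IrrCharacter G) : G → ℂ)
    rw [hm, hmT] at h1
    have h2 : ((∑ g : G, Nat.card (fixedBy X g) : ℕ) : ℂ) = (Nat.card G : ℂ) := by
      push_cast
      rw [← mul_one (Nat.card G : ℂ)]
      rw [show ((1 : ℕ) : ℂ) = 1 by norm_num] at h1
      rw [← h1]
      apply Finset.sum_congr rfl
      intro g _
      rw [trivIrr_apply, map_one, mul_one]
      rfl
    exact_mod_cast h2
  have hA : ∑ g : G, permChar G X g * conj (((trivIrr G : IrrCharacter G) : G → ℂ) g)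
      = (Nat.card G : ℂ) := by
    rw [hsumform, hm, hmT]
    simp
  have hB : ∑ g : G, permChar G X g * conj ((χ : G → ℂ) g) = (Nat.card G : ℂ) := by
    rw [hsumform, hm, hmχ]
    simp
  have hA' : ∑ g : G, ((χ : G → ℂ) * (χ : G → ℂ) + (χ : G → ℂ)) g
      * conj (((trivIrr G : IrrCharacter G) : G → ℂ) g) = (Nat.card G : ℂ) := by
    rw [hsumform, hm', hm'T]
    simp
  have hB' : ∑ g : G, ((χ : G → ℂ) * (χ : G → ℂ) + (χ : G → ℂ)) g * conj ((χ : G → ℂ) g)
      = (Nat.card G : ℂ) * (1 + s) := by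
    rw [hsumform, hm', hm'χ]
    push_cast
    ring
  have hconjπ : ∀ g, (1 : ℂ) + conj ((χ : G → ℂ) g) = permChar G X g := by
    intro g
    have h4 : (1 : ℂ) + conj ((χ : G → ℂ) g) = conj (permChar G X g) := by
      rw [hπχ g, map_add, map_one]
    rw [h4]
    unfold permChar
    rw [Complex.conj_natCast]
  have hS2C : ∑ g : G, permChar G X g * permChar G X g = 2 * (Nat.card G : ℂ) := by
    calc ∑ g : G, permChar G X g * permChar G X g
        = ∑ g : G, (permChar G X g * conj (((trivIrr G : IrrCharacter G) : G → ℂ) g)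
            + permChar G X g * conj ((χ : G → ℂ) g)) := by
          apply Finset.sum_congr rfl
          intro g _
          rw [trivIrr_apply, map_one, ← mul_add, hconjπ g]
      _ = (Nat.card G : ℂ) + (Nat.card G : ℂ) := by rw [Finset.sum_add_distrib, hA, hB]
      _ = 2 * (Nat.card G : ℂ) := by ring
  have hS2 : ∑ g : G, Nat.card (fixedBy X g) ^ 2 = 2 * Nat.card G := by
    have h2 : ((∑ g : G, Nat.card (fixedBy X g) ^ 2 : ℕ) : ℂ) = ((2 * Nat.card G : ℕ) : ℂ) := by
      push_cast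
      rw [← hS2C]
      apply Finset.sum_congr rfl
      intro g _
      unfold permChar
      ring
    exact_mod_cast h2
  have hS3C : ∑ g : G, permChar G X g * permChar G X g * permChar G X g
      = (4 + (s : ℂ)) * (Nat.card G : ℂ) := by
    calc ∑ g : G, permChar G X g * permChar G X g * permChar G X g
        = ∑ g : G, (permChar G X g * permChar G X g
            + (((χ : G → ℂ) * (χ : G → ℂ) + (χ : G → ℂ)) g
                * conj (((trivIrr G : IrrCharacter G) : G → ℂ) g)
              + ((χ : G → ℂ) * (χ : G → ℂ) + (χ : G → ℂ)) g * conj ((χ : G → ℂ) g))) := by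
          apply Finset.sum_congr rfl
          intro g _
          rw [trivIrr_apply, map_one, ← mul_add, hconjπ g, hΦπ g]
          have h6 : (χ : G → ℂ) g = permChar G X g - 1 := by rw [hπχ g]; ring
          rw [h6]
          ring
      _ = 2 * (Nat.card G : ℂ) + ((Nat.card G : ℂ) + (Nat.card G : ℂ) * (1 + s)) := by
          rw [Finset.sum_add_distrib, Finset.sum_add_distrib, hS2C, hA', hB']
      _ = (4 + (s : ℂ)) * (Nat.card G : ℂ) := by ring
  have hS3 : ∑ g : G, Nat.card (fixedBy X g) ^ 3 = (4 + s) * Nat.card G := by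
    have h2 : ((∑ g : G, Nat.card (fixedBy X g) ^ 3 : ℕ) : ℂ)
        = (((4 + s) * Nat.card G : ℕ) : ℂ) := by
      push_cast
      rw [← hS3C]
      apply Finset.sum_congr rfl
      intro g _
      unfold permChar
      ring
    exact_mod_cast h2
  have hspos : 1 ≤ s := by
    by_contra hcon
    have hs0 : s = 0 := by omega
    rw [hs0] at hS3
    have hlt : ∑ g : G, 3 * Nat.card (fixedBy X g) ^ 2
        < ∑ g : G, (Nat.card (fixedBy X g) ^ 3 + 2 * Nat.card (fixedBy X g)) := by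
      apply Finset.sum_lt_sum (fun g _ => cube_ineq _)
      refine ⟨1, Finset.mem_univ _, cube_ineq_strict _ ?_⟩
      have h1 : Nat.card (fixedBy X (1 : G)) = p := by
        rw [← hX]
        apply Nat.card_congr
        exact Equiv.subtypeUnivEquiv (fun x => by simp [MulAction.mem_fixedBy])
      rw [h1]
      omega
    rw [Finset.sum_add_distrib, ← Finset.mul_sum, ← Finset.mul_sum, hS1, hS2, hS3] at hlt
    omega
  have hs_eq : s = 1 := by omega
  refine ⟨hS1, hS2, ?_⟩
  rw [hS3, hs_eq]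

end Cfsg.Agent.Lib.Helper17.PrimeDegA
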