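import Mathlib
import Cfsg.Agent.Lib.Helper80.BTStmt
import Cfsg.Agent.S4729

set_option autoImplicit false

/-! S0997 piece [SC] (second seat, helper17). -/

namespace Cfsg.Agent.Lib.Helper17.BTSC

open Cfsg Cfsg.Agent.Lib.Helper80.BTStmt
open scoped ComplexConjugate commutatorElement

universe u

/-- A noncyclic simple group is perfect. -/
theorem perfect_of_simple' {G : Type u} [Group G] [IsSimpleGroup G] (hnc : ¬ IsCyclic G) :
    commutator G = ⊤ := by
  have hn : (commutator G).Normal := by
    rw [commutator_def]; infer_instance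
  rcases hn.eq_bot_or_eq_top with h | h
  · exfalso
    apply hnc
    have hc : ∀ a b : G, a * b = b * a := by
      intro a b
      have h1 : ⁅a, b⁆ ∈ commutator G := by
        rw [commutator_def]
        exact Subgroup.commutator_mem_commutator (Subgroup.mem_top a) (Subgroup.mem_top b)
      rw [h, Subgroup.mem_bot, commutatorElement_eq_one_iff_mul_comm] at h1
      exact h1
    obtain ⟨g, hg⟩ := exists_ne (1 : G)
    have hn' : (Subgroup.zpowers g).Normal := by
      refine ⟨fun n hn x => ?_⟩
      rw [hc x n, mul_inv_cancel_right]; exact hn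
    rcases hn'.eq_bot_or_eq_top with h' | h'
    · exact absurd (Subgroup.zpowers_eq_bot.mp h') hg
    · exact isCyclic_iff_exists_zpowers_eq_top.mpr ⟨g, h'⟩
  · exact h

theorem main : SC.{u} := by
  intro G _ _ p q b g₀ hH c hY hT
  classical
  obtain ⟨hsimple, hnc, hp, hq, hpq, hcard, hg0⟩ := hH
  have := hsimple
  have : Fact p.Prime := ⟨hp⟩
  have hperf : commutator G = ⊤ := perfect_of_simple' hnc
  obtain ⟨⟨θ, hθY⟩, hYf⟩ := hY
  obtain ⟨hqf, hfg, hf2, hfaith⟩ := hYf θ hθY
  have hfe := hT.2 θ hθY
  have hθB : θ ∈ principalBlock c.M G := by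
    rw [c.hXY]
    exact Or.inr hθY
  have hdeg : charDegree (θ : G → ℂ) < 2 * p := by omega
  have hcardS : ∀ Q : Sylow p G, Nat.card Q = p := by
    intro Q
    rw [Q.card_eq_multiplicity, ← c.P.card_eq_multiplicity, c.hP]
  have hcent : ∀ Q : Sylow p G,
      Subgroup.centralizer ((Q : Subgroup G) : Set G) = (Q : Subgroup G) := by
    intro Q
    have hpg := Cfsg.Agent.S4729.result p c.M c.hM hperf Q θ hθB hfaith hdeg
    have hle : (Q : Subgroup G) ≤ Subgroup.centralizer ((Q : Subgroup G) : Set G) := by
      have : IsCyclic Q := isCyclic_of_prime_card (hcardS Q)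
      intro x hx
      rw [Subgroup.mem_centralizer_iff]
      intro y hy
      have : IsMulCommutative Q := IsCyclic.isMulCommutative
      have hc := mul_comm' (⟨y, hy⟩ : Q) ⟨x, hx⟩
      exact congrArg Subtype.val hc
    exact Q.is_maximal' hpg hle
  refine ⟨?_, ?_⟩
  · intro g hg
    have hpos : 0 < orderOf g := orderOf_pos g
    have hu : orderOf (g ^ (orderOf g / p)) = p := orderOf_pow_orderOf_div hpos.ne' hg
    have hpgu : IsPGroup p (Subgroup.zpowers (g ^ (orderOf g / p))) := by
      apply IsPGroup.of_card (n := 1)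
      rw [Nat.card_zpowers, hu, pow_one]
    obtain ⟨Q, hQ⟩ := hpgu.exists_le_sylow
    have hgQ : g ∈ Subgroup.centralizer ((Q : Subgroup G) : Set G) := by
      have heq : Subgroup.zpowers (g ^ (orderOf g / p)) = (Q : Subgroup G) := by
        apply Subgroup.eq_of_le_of_card_ge hQ
        rw [hcardS Q, Nat.card_zpowers, hu]
      rw [← heq, Subgroup.mem_centralizer_iff]
      intro y hy
      obtain ⟨k, rfl⟩ := Subgroup.mem_zpowers_iff.mp hy
      exact (((Commute.refl g).pow_right (orderOf g / p)).zpow_right k).symm.eq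
    rw [hcent Q] at hgQ
    have h1 : orderOf g ∣ p := by
      have h2 := orderOf_dvd_natCard (⟨g, hgQ⟩ : (Q : Subgroup G))
      rw [hcardS Q, ← Subgroup.orderOf_coe] at h2
      exact h2
    exact Nat.dvd_antisymm h1 hg
  · have hCN : Subgroup.centralizer ((c.P : Subgroup G) : Set G)
        ≤ Subgroup.normalizer ((c.P : Subgroup G) : Set G) :=
      Subgroup.centralizer_le_normalizer _
    have h1 := Subgroup.card_mul_index ((Subgroup.centralizer ((c.P : Subgroup G) : Set G)).subgroupOf
      (Subgroup.normalizer ((c.P : Subgroup G) : Set G)))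
    have h2 : Nat.card ↥((Subgroup.centralizer ((c.P : Subgroup G) : Set G)).subgroupOf
        (Subgroup.normalizer ((c.P : Subgroup G) : Set G)))
        = Nat.card ↥(Subgroup.centralizer ((c.P : Subgroup G) : Set G)) :=
      Nat.card_congr (Subgroup.subgroupOfEquivOfLe hCN).toEquiv
    have h3 : ((Subgroup.centralizer ((c.P : Subgroup G) : Set G)).subgroupOf
        (Subgroup.normalizer ((c.P : Subgroup G) : Set G))).index = c.e := c.he
    rw [h2, h3, hcent c.P, c.hP] at h1
    rw [Sylow.card_eq_index_normalizer c.P, h1]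
    exact Subgroup.index_mul_card _

end Cfsg.Agent.Lib.Helper17.BTSC
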