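import Mathlib
import Cfsg.Agent.Lib.Helper17.BrTrace

/-!
# The core lemma for idempotent weights

A generalisation of `BrCore` from one-dimensional weights of a complement `H` of `⟨x⟩` in its
normalizer to *idempotent weights*: idempotents `ε` of the group algebra commuting with the
complement `H` (in applications, central idempotents of `k[H]`).  A module `S` is good for `ε`
if `ε (ker N_P / (x - 1) S) ≠ 0`.  A simple module is good for at most one member of a family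
of pairwise orthogonal idempotent weights.
-/

set_option autoImplicit false
set_option linter.unusedSectionVars false
set_option linter.style.haveILetI false
set_option maxHeartbeats 1000000

namespace Cfsg.Agent.Lib.Helper17.BqCore

open Cfsg.Agent.Lib.Helper17.BrAlg Cfsg.Agent.Lib.Helper17.BrOrb Cfsg.Agent.Lib.Helper17.BrGood
  Cfsg.Agent.Lib.Helper17.BrCore Cfsg.Agent.Lib.Helper17.BrTrace

variable {k : Type*} [Field k] {G : Type*} [Group G] [Fintype G]

/-- An idempotent weight. -/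
structure IsWtE (p : ℕ) (x : G) (H : Subgroup G) (ε : MonoidAlgebra k G) : Prop where
  idem : ε * ε = ε
  comm : ∀ h ∈ H, MonoidAlgebra.of k G h * ε = ε * MonoidAlgebra.of k G h
  uel_left : ∃ b, ε * uel k x = uel k x * b
  pow_right : ∀ r : ℕ, ∃ b, uel k x ^ r * ε = b * uel k x ^ r
  npel : ε * NPel k x p = NPel k x p * ε

section Good

variable {X : Type*} [AddCommGroup X] [Module (MonoidAlgebra k G) X] [Module k X]
  [IsScalarTower k (MonoidAlgebra k G) X]

/-- A good pair of submodules for an idempotent weight. -/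
def GoodPairE (p : ℕ) (x : G) (ε : MonoidAlgebra k G)
    (N₂ N₁ : Submodule (MonoidAlgebra k G) X) : Prop :=
  N₂ ≤ N₁ ∧ ∃ w ∈ N₁, NPel k x p • w ∈ N₂ ∧ ε • w - w ∈ N₂ ∧
    ∀ y ∈ N₁, w - uel k x • y ∉ N₂

/-- A good module for an idempotent weight. -/
def GoodModE (p : ℕ) (x : G) (ε : MonoidAlgebra k G) (S : Type*) [AddCommGroup S]
    [Module (MonoidAlgebra k G) S] : Prop :=
  ∃ w : S, NPel k x p • w = 0 ∧ ε • w = w ∧ ∀ y : S, w ≠ uel k x • y

variable {p : ℕ} {x : G} {H : Subgroup G} {ε : MonoidAlgebra k G}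

theorem GoodPairE.split (hε : IsWtE p x H ε) (hxp : x ^ p = 1)
    {N₂ N₁ c : Submodule (MonoidAlgebra k G) X}
    (h : GoodPairE p x ε N₂ N₁) (h2c : N₂ ≤ c) (hc1 : c ≤ N₁) :
    GoodPairE p x ε N₂ c ∨ GoodPairE p x ε c N₁ := by
  obtain ⟨h21, w, hw1, hwN, hwε, hwu⟩ := h
  by_cases hex : ∃ y ∈ N₁, w - uel k x • y ∈ c
  · left
    obtain ⟨y, hy, hyc⟩ := hex
    obtain ⟨b, hb⟩ := hε.uel_left
    refine ⟨h2c, ε • (w - uel k x • y), c.smul_mem _ hyc, ?_, ?_, ?_⟩
    · rw [smul_smul, ← hε.npel, mul_smul, smul_sub, smul_smul (NPel k x p),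
        NPel_mul_uel_eq_zero p hxp, zero_smul, sub_zero]
      exact N₂.smul_mem _ hwN
    · rw [smul_smul, hε.idem, sub_self]
      exact N₂.zero_mem
    · intro y' hy' hcon
      apply hwu (b • y + y') (N₁.add_mem (N₁.smul_mem _ hy) (hc1 hy'))
      have e : w - uel k x • (b • y + y') =
          (ε • (w - uel k x • y) - uel k x • y') - (ε • w - w) := by
        rw [smul_sub, smul_smul ε, hb, mul_smul, smul_add]
        abel
      rw [e]
      exact N₂.sub_mem hcon hwε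
  · right
    push Not at hex
    exact ⟨hc1, w, hw1, h2c hwN, h2c hwε, hex⟩

theorem exists_covByE [Module.Finite k X] (hε : IsWtE p x H ε) (hxp : x ^ p = 1)
    {X₀ : Submodule (MonoidAlgebra k G) X} (h : GoodPairE p x ε ⊥ X₀) :
    ∃ N₂ N₁ : Submodule (MonoidAlgebra k G) X, N₁ ≤ X₀ ∧ N₂ ⋖ N₁ ∧ GoodPairE p x ε N₂ N₁ := by
  classical
  let Q : ℕ → Prop := fun n => ∃ N₂ N₁ : Submodule (MonoidAlgebra k G) X,
    N₁ ≤ X₀ ∧ GoodPairE p x ε N₂ N₁ ∧ rk N₁ - rk N₂ = n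
  have hQ : ∃ n, Q n := ⟨_, ⊥, X₀, le_rfl, h, rfl⟩
  obtain ⟨N₂, N₁, h1, hg, hn⟩ := Nat.find_spec hQ
  refine ⟨N₂, N₁, h1, ?_, hg⟩
  have hlt : N₂ < N₁ := by
    refine lt_of_le_of_ne hg.1 ?_
    rintro rfl
    obtain ⟨_, w, hw1, _, _, hwu⟩ := hg
    have := hwu 0 (Submodule.zero_mem _)
    rw [smul_zero, sub_zero] at this
    exact this hw1
  refine ⟨hlt, fun c h2c hc1 => ?_⟩
  rcases hg.split hε hxp h2c.le hc1.le with h' | h'
  · have hlt' : rk c - rk N₂ < Nat.find hQ := by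
      rw [← hn]
      have := rk_strictMono (k := k) hc1
      have := rk_mono (k := k) h2c.le
      omega
    exact Nat.find_min hQ hlt' ⟨N₂, c, hc1.le.trans h1, h', rfl⟩
  · have hlt' : rk N₁ - rk c < Nat.find hQ := by
      rw [← hn]
      have := rk_strictMono (k := k) h2c
      have := rk_mono (k := k) hc1.le
      omega
    exact Nat.find_min hQ hlt' ⟨c, N₁, h1, h', rfl⟩

theorem GoodPairE.goodMod {N₂ N₁ : Submodule (MonoidAlgebra k G) X}
    (h : GoodPairE p x ε N₂ N₁) :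
    GoodModE p x ε (↥N₁ ⧸ N₂.comap N₁.subtype) := by
  obtain ⟨h21, w, hw1, hwN, hwε, hwu⟩ := h
  refine ⟨Submodule.Quotient.mk ⟨w, hw1⟩, ?_, ?_, ?_⟩
  · rw [← Submodule.Quotient.mk_smul, Submodule.Quotient.mk_eq_zero]
    exact hwN
  · rw [← Submodule.Quotient.mk_smul, Submodule.Quotient.eq]
    exact hwε
  · intro y hy
    obtain ⟨⟨y', hy'⟩, rfl⟩ := Submodule.Quotient.mk_surjective _ y
    rw [← Submodule.Quotient.mk_smul, Submodule.Quotient.eq] at hy
    exact hwu y' hy' hy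

end Good


section Core

variable {S : Type*} [AddCommGroup S] [Module (MonoidAlgebra k G) S] [Module k S]
  [IsScalarTower k (MonoidAlgebra k G) S]
variable {p : ℕ} {x : G} {H : Subgroup G} {ε : MonoidAlgebra k G}

local notation "𝔲" => uel k x
local notation "𝔬" => MonoidAlgebra.of k G

theorem coreE [IsSimpleModule (MonoidAlgebra k G) S] [Module.Finite k S]
    (hS : Setup k p x H) (hε : IsWtE p x H ε) (hgood : GoodModE p x ε S) :
    ∃ (π : S →ₗ[k] S) (c : S →ₗ[MonoidAlgebra k G] S), Function.Bijective c ∧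
      (∀ v, π (ε • v) = π v) ∧
      (∀ v, NPel k x p • v = 0 → ∃ y, c v = π v + 𝔲 • y) := by
  classical
  haveI : Fact p.Prime := ⟨hS.prime⟩
  haveI := hS.charP
  -- Step 1: the minimal exponent
  let Q : ℕ → Prop := fun r => ∃ s : S, 𝔲 ^ r • s = 0 ∧ ε • s = s ∧ ∀ y : S, s ≠ 𝔲 • y
  have hQp : Q (p - 1) := by
    obtain ⟨w, hw1, hw2, hw3⟩ := hgood
    exact ⟨w, by rw [← NPel_eq]; exact hw1, hw2, hw3⟩
  have hQ : ∃ r, Q r := ⟨_, hQp⟩
  obtain ⟨s, hs1, hs2, hs3⟩ := Nat.find_spec hQ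
  have hrle : Nat.find hQ ≤ p - 1 := Nat.find_min' hQ hQp
  have hr0 : Nat.find hQ ≠ 0 := by
    intro h0
    rw [h0, pow_zero, one_smul] at hs1
    exact hs3 0 (by rw [hs1, smul_zero])
  obtain ⟨r', hr'⟩ : ∃ r', Nat.find hQ = r' + 1 := Nat.exists_eq_succ_of_ne_zero hr0
  rw [hr'] at hs1
  obtain ⟨bπ, hbπ⟩ := hε.uel_left
  -- Step 2
  have hD : ∀ y z : S, 𝔲 ^ r' • z = 0 → s ≠ 𝔲 • y + z := by
    intro y z hz hs
    obtain ⟨b', hb'⟩ := hε.pow_right r'
    have hz' : Q r' := by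
      refine ⟨ε • z, ?_, ?_, ?_⟩
      · rw [smul_smul, hb', mul_smul, hz, smul_zero]
      · rw [smul_smul, hε.idem]
      · intro y' hy'
        apply hs3 (bπ • y + y')
        have h2 : ε • s = ε • (𝔲 • y) + ε • z := by
          rw [← smul_add, ← hs]
        rw [hs2, hy', smul_smul, hbπ, mul_smul] at h2
        rw [smul_add]
        exact h2
    exact Nat.find_min hQ (by rw [hr']; exact Nat.lt_succ_self r') hz'
  -- Step 3: a functional killing `D = 𝔲 S + ker 𝔲^r'`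
  let D : Submodule k S := LinearMap.range (L (S := S) 𝔲) ⊔ LinearMap.ker (L (S := S) (𝔲 ^ r'))
  have hsD : s ∉ D := by
    intro hmem
    obtain ⟨a, ha, z, hz, hsum⟩ := Submodule.mem_sup.mp hmem
    obtain ⟨y, rfl⟩ := LinearMap.mem_range.mp ha
    exact hD y z (LinearMap.mem_ker.mp hz) hsum.symm
  obtain ⟨ℓ₀, hℓ₀s, hℓ₀D⟩ : ∃ ℓ₀ : S →ₗ[k] k, ℓ₀ s ≠ 0 ∧ ∀ d ∈ D, ℓ₀ d = 0 := by
    obtain ⟨f, hf1, hf2⟩ := Submodule.exists_dual_map_eq_bot_of_notMem hsD inferInstance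
    refine ⟨f, hf1, fun d hd => ?_⟩
    have : f d ∈ D.map f := Submodule.mem_map_of_mem hd
    rw [hf2] at this
    exact (Submodule.mem_bot k).mp this
  -- Step 4: the functional composed with the idempotent
  let ℓ : S →ₗ[k] k := (ℓ₀ s)⁻¹ • (ℓ₀ ∘ₗ L ε)
  have hℓ : ∀ v, ℓ v = (ℓ₀ s)⁻¹ * ℓ₀ (ε • v) := fun v => rfl
  have hℓs : ℓ s = 1 := by
    rw [hℓ, hs2, inv_mul_cancel₀ hℓ₀s]
  have hℓε : ∀ v, ℓ (ε • v) = ℓ v := by
    intro v
    rw [hℓ, hℓ, smul_smul, hε.idem]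
  have hℓu : ∀ y, ℓ (𝔲 • y) = 0 := by
    intro y
    have hmem : 𝔲 • bπ • y ∈ D := Submodule.mem_sup_left (LinearMap.mem_range.mpr ⟨bπ • y, rfl⟩)
    rw [hℓ, smul_smul, hbπ, mul_smul, hℓ₀D _ hmem, mul_zero]
  have hℓker : ∀ z, 𝔲 ^ r' • z = 0 → ℓ z = 0 := by
    intro z hz
    obtain ⟨b', hb'⟩ := hε.pow_right r'
    have hmem : ε • z ∈ D := by
      refine Submodule.mem_sup_right (LinearMap.mem_ker.mpr ?_)
      show 𝔲 ^ r' • (ε • z) = 0
      rw [smul_smul, hb', mul_smul, hz, smul_zero]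
    rw [hℓ, hℓ₀D _ hmem, mul_zero]
  -- Step 5: factor through 𝔲^r'
  obtain ⟨ℓ', hℓ'⟩ : ∃ ℓ' : S →ₗ[k] k, ∀ v, ℓ' (𝔲 ^ r' • v) = ℓ v := by
    have hmem : ℓ ∈ LinearMap.range (L (S := S) (𝔲 ^ r')).dualMap := by
      rw [LinearMap.range_dualMap_eq_dualAnnihilator_ker]
      exact (Submodule.mem_dualAnnihilator _).mpr fun z hz => hℓker z (LinearMap.mem_ker.mp hz)
    obtain ⟨ℓ', h⟩ := hmem
    exact ⟨ℓ', fun v => LinearMap.congr_fun h v⟩
  -- Step 6: a map commuting with `x`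
  let φ : S →ₗ[k] S := ∑ j ∈ Finset.range (r' + 1),
    (ℓ' ∘ₗ L (𝔲 ^ (r' - j))).smulRight (𝔲 ^ j • s)
  have hφ : ∀ v, φ v = ∑ j ∈ Finset.range (r' + 1), ℓ' (𝔲 ^ (r' - j) • v) • (𝔲 ^ j • s) := by
    intro v
    simp only [φ, LinearMap.sum_apply, LinearMap.smulRight_apply, LinearMap.comp_apply, BrCore.L_apply]
  have hφmod : ∀ v, ∃ y, φ v = ℓ v • s + 𝔲 • y := by
    intro v
    refine ⟨∑ i ∈ Finset.range r', ℓ' (𝔲 ^ (r' - (i + 1)) • v) • (𝔲 ^ i • s), ?_⟩
    rw [hφ, Finset.sum_range_succ', Nat.sub_zero, pow_zero, one_smul, hℓ', Finset.smul_sum,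
      add_comm (ℓ v • s)]
    congr 1
    refine Finset.sum_congr rfl fun i _ => ?_
    rw [pow_succ', mul_smul]
    exact smul_comm _ _ _
  have hφu : ∀ v, φ (𝔲 • v) = 𝔲 • φ v := by
    intro v
    rw [hφ, hφ, Finset.smul_sum, Finset.sum_range_succ', Finset.sum_range_succ]
    have e0 : ℓ' (𝔲 ^ (r' - 0) • 𝔲 • v) • (𝔲 ^ 0 • s) = 0 := by
      rw [Nat.sub_zero, hℓ', hℓu, zero_smul]
    have e1 : 𝔲 • (ℓ' (𝔲 ^ (r' - r') • v) • (𝔲 ^ r' • s)) = 0 := by
      rw [smul_comm, smul_smul, ← pow_succ', hs1, smul_zero]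
    rw [e0, e1, add_zero, add_zero]
    refine Finset.sum_congr rfl fun i hi => ?_
    have hi' : i < r' := Finset.mem_range.mp hi
    have e2 : 𝔲 ^ (r' - (i + 1)) • 𝔲 • v = 𝔲 ^ (r' - i) • v := by
      rw [smul_smul, ← pow_succ]
      congr 2
      omega
    rw [e2, pow_succ', mul_smul]
    exact (smul_comm _ _ _).symm
  have hφx : ∀ v, φ (𝔬 x • v) = 𝔬 x • φ v := by
    intro v
    have e : ∀ z : S, 𝔬 x • z = 𝔲 • z + z := by
      intro z
      unfold uel
      rw [sub_smul, one_smul, sub_add_cancel]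
    rw [e, map_add, hφu, e]
  have hφpow : ∀ (j : ℕ) (v : S), φ (𝔬 (x ^ j) • v) = 𝔬 (x ^ j) • φ v := by
    intro j
    induction j with
    | zero => intro v; rw [pow_zero, map_one, one_smul, one_smul]
    | succ j ih =>
      intro v
      rw [pow_succ, map_mul, mul_smul, ih, hφx, ← mul_smul]
  have hφP : ∀ w ∈ Subgroup.zpowers x, ∀ v, φ (𝔬 w • v) = 𝔬 w • φ v := by
    intro w hw v
    obtain ⟨j, rfl⟩ := exists_pow_of_mem_zpowers hw
    exact hφpow j v
  -- Step 7: average over `H`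
  let cH : k := (Nat.card H : k)⁻¹
  let φb : S →ₗ[k] S := cH • ∑ h : G, if h ∈ H then L (𝔬 h) ∘ₗ φ ∘ₗ L (𝔬 h⁻¹) else 0
  have hφb : ∀ v, φb v = cH • ∑ h : G, if h ∈ H then 𝔬 h • φ (𝔬 h⁻¹ • v) else 0 := by
    intro v
    simp only [φb, LinearMap.smul_apply, LinearMap.sum_apply]
    congr 1
    refine Finset.sum_congr rfl fun h _ => ?_
    split_ifs <;> rfl
  have hφbH : ∀ h' ∈ H, ∀ v, φb (𝔬 h' • v) = 𝔬 h' • φb v := by
    intro h' hh' v
    rw [hφb, hφb, smul_comm (𝔬 h') cH]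
    congr 1
    rw [Finset.smul_sum]
    refine (Fintype.sum_equiv (Equiv.mulLeft h') _ _ (fun h => ?_)).symm
    show 𝔬 h' • (if h ∈ H then 𝔬 h • φ (𝔬 h⁻¹ • v) else 0) =
      if h' * h ∈ H then 𝔬 (h' * h) • φ (𝔬 (h' * h)⁻¹ • 𝔬 h' • v) else 0
    by_cases hh : h ∈ H
    · rw [if_pos hh, if_pos (H.mul_mem hh' hh), map_mul, mul_smul, smul_smul (𝔬 (h' * h)⁻¹),
        ← map_mul]
      congr 4
      group
    · have hh2 : h' * h ∉ H := fun hc => hh (by
        have := H.mul_mem (H.inv_mem hh') hc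
        simpa using this)
      rw [if_neg hh, if_neg hh2, smul_zero]
  have hφbP : ∀ w ∈ Subgroup.zpowers x, ∀ v, φb (𝔬 w • v) = 𝔬 w • φb v := by
    intro w hw v
    rw [hφb, hφb, smul_comm (𝔬 w) cH]
    congr 1
    rw [Finset.smul_sum]
    refine Finset.sum_congr rfl fun h _ => ?_
    by_cases hh : h ∈ H
    · rw [if_pos hh, if_pos hh]
      have hN : h⁻¹ ∈ Nx x := Subgroup.inv_mem _ (hS.hHN hh)
      have hw' : h⁻¹ * w * h ∈ Subgroup.zpowers x := by
        have := (Subgroup.mem_normalizer_iff.mp hN w).mp hw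
        simpa using this
      have e1 : 𝔬 h⁻¹ • 𝔬 w • v = 𝔬 (h⁻¹ * w * h) • 𝔬 h⁻¹ • v := by
        rw [smul_smul, smul_smul, ← map_mul, ← map_mul]
        congr 2
        group
      rw [e1, hφP _ hw', smul_smul, smul_smul, ← map_mul, ← map_mul]
      congr 2
      group
    · rw [if_neg hh, if_neg hh, smul_zero]
  have hφbN : ∀ n ∈ Nx x, ∀ v, φb (𝔬 n • v) = 𝔬 n • φb v := by
    intro n hn v
    obtain ⟨j, h, hh, rfl⟩ := hS.hPH n hn
    rw [map_mul, mul_smul, hφbP _ (Subgroup.pow_mem _ (Subgroup.mem_zpowers x) j), hφbH h hh,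
      mul_smul]
  -- the projection `π`
  let π : S →ₗ[k] S := cH • ∑ h : G, if h ∈ H then L (𝔬 h) ∘ₗ ℓ.smulRight s ∘ₗ L (𝔬 h⁻¹) else 0
  have hπ : ∀ v, π v = cH • ∑ h : G, if h ∈ H then 𝔬 h • (ℓ (𝔬 h⁻¹ • v) • s) else 0 := by
    intro v
    simp only [π, LinearMap.smul_apply, LinearMap.sum_apply]
    congr 1
    refine Finset.sum_congr rfl fun h _ => ?_
    split_ifs <;> rfl
  have hφbmod : ∀ v, ∃ y, φb v = π v + 𝔲 • y := by
    intro v
    have hterm : ∀ h : G, ∃ y, (if h ∈ H then 𝔬 h • φ (𝔬 h⁻¹ • v) else 0) =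
        (if h ∈ H then 𝔬 h • (ℓ (𝔬 h⁻¹ • v) • s) else 0) + 𝔲 • y := by
      intro h
      by_cases hh : h ∈ H
      · obtain ⟨y, hy⟩ := hφmod (𝔬 h⁻¹ • v)
        obtain ⟨b, hb⟩ := of_mul_uel (k := k) (hS.hHN hh)
        refine ⟨b • y, ?_⟩
        rw [if_pos hh, if_pos hh, hy, smul_add]
        congr 1
        rw [smul_smul, hb, mul_smul]
      · exact ⟨0, by rw [if_neg hh, if_neg hh, smul_zero, add_zero]⟩
    choose Y hY using hterm
    refine ⟨cH • ∑ h, Y h, ?_⟩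
    rw [hφb, hπ, Finset.sum_congr rfl (fun h _ => hY h), Finset.sum_add_distrib, smul_add,
      ← Finset.smul_sum, smul_comm cH]
  have hπε : ∀ v, π (ε • v) = π v := by
    intro v
    rw [hπ, hπ]
    congr 1
    refine Finset.sum_congr rfl fun h _ => ?_
    by_cases hh : h ∈ H
    · rw [if_pos hh, if_pos hh, smul_smul, hε.comm _ (H.inv_mem hh), mul_smul, hℓε]
    · rw [if_neg hh, if_neg hh]
  have hπu : ∀ y, π (𝔲 • y) = 0 := by
    intro y
    rw [hπ]
    have : ∀ h : G, (if h ∈ H then 𝔬 h • (ℓ (𝔬 h⁻¹ • 𝔲 • y) • s) else 0) = 0 := by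
      intro h
      by_cases hh : h ∈ H
      · obtain ⟨b, hb⟩ := of_mul_uel (k := k) (hS.hHN (H.inv_mem hh))
        rw [if_pos hh, smul_smul, hb, mul_smul, hℓu, zero_smul, smul_zero]
      · rw [if_neg hh]
    rw [Finset.sum_congr rfl (fun h _ => this h), Finset.sum_const_zero, smul_zero]
  have hπpow : ∀ v, 𝔲 ^ (r' + 1) • π v = 0 := by
    intro v
    rw [hπ, smul_comm, Finset.smul_sum]
    have : ∀ h : G, 𝔲 ^ (r' + 1) • (if h ∈ H then 𝔬 h • (ℓ (𝔬 h⁻¹ • v) • s) else 0) = 0 := by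
      intro h
      by_cases hh : h ∈ H
      · obtain ⟨b, hb⟩ := uel_pow_mul_of (k := k) (hS.hHN hh) (r' + 1)
        rw [if_pos hh, smul_smul, hb, mul_smul, smul_comm (𝔲 ^ (r' + 1)), hs1, smul_zero,
          smul_zero]
      · rw [if_neg hh, smul_zero]
    rw [Finset.sum_congr rfl (fun h _ => this h), Finset.sum_const_zero, smul_zero]
  have hπtr : LinearMap.trace k S π = 1 := by
    have h1 : ∀ h : G, LinearMap.trace k S
        (if h ∈ H then L (𝔬 h) ∘ₗ ℓ.smulRight s ∘ₗ L (𝔬 h⁻¹) else 0) =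
        if h ∈ H then (1 : k) else 0 := by
      intro h
      by_cases hh : h ∈ H
      · rw [if_pos hh, if_pos hh]
        have e1 : L (S := S) (𝔬 h) ∘ₗ ℓ.smulRight s ∘ₗ L (𝔬 h⁻¹) =
            L (𝔬 h) * (ℓ.smulRight s * L (𝔬 h⁻¹)) := rfl
        rw [e1, LinearMap.trace_mul_comm, mul_assoc, ← BrTrace.L_mul, ← map_mul, inv_mul_cancel,
          map_one, BrTrace.L_one, mul_one]
        have e2 : ℓ.smulRight s = (LinearMap.id : k →ₗ[k] k).smulRight s ∘ₗ ℓ := by
          ext v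
          simp
        rw [e2, LinearMap.trace_comp_comm']
        have e3 : ℓ ∘ₗ (LinearMap.id : k →ₗ[k] k).smulRight s = ℓ s • LinearMap.id := by
          ext
          simp
        rw [e3, map_smul, hℓs, one_smul]
        simp
      · rw [if_neg hh, if_neg hh, map_zero]
    show LinearMap.trace k S (cH • ∑ h : G,
      if h ∈ H then L (𝔬 h) ∘ₗ ℓ.smulRight s ∘ₗ L (𝔬 h⁻¹) else 0) = 1
    rw [map_smul, map_sum, Finset.sum_congr rfl (fun h _ => h1 h)]
    have h2 := sum_indicator (k := k) H (1 : k)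
    rw [h2, smul_eq_mul, smul_eq_mul, mul_one, inv_mul_cancel₀ hS.hcard]
  -- Step 8: the relative trace
  let Fc : G → (S →ₗ[k] S) := fun g => L (𝔬 g) ∘ₗ φb ∘ₗ L (𝔬 g⁻¹)
  have hFc : ∀ g v, Fc g v = 𝔬 g • φb (𝔬 g⁻¹ • v) := fun g v => rfl
  have hFcN : ∀ g, ∀ n ∈ Nx x, Fc (g * n) = Fc g := by
    intro g n hn
    ext v
    rw [hFc, hFc, mul_inv_rev, map_mul, map_mul, mul_smul, mul_smul,
      hφbN _ (Subgroup.inv_mem _ hn), smul_smul (𝔬 n), ← map_mul, mul_inv_cancel, map_one,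
      one_smul]
  have hFcmul : ∀ g' g v, Fc (g' * g) v = 𝔬 g' • Fc g (𝔬 g'⁻¹ • v) := by
    intro g' g v
    rw [hFc, hFc, mul_inv_rev, map_mul, map_mul, mul_smul, mul_smul]
  let Fq : G ⧸ Nx x → (S →ₗ[k] S) := fun κ => Fc κ.out
  have hFq : ∀ g : G, Fq (QuotientGroup.mk g) = Fc g := by
    intro g
    obtain ⟨n, hn⟩ := QuotientGroup.mk_out_eq_mul (Nx x) g
    show Fc (QuotientGroup.mk g : G ⧸ Nx x).out = Fc g
    rw [hn, hFcN g n n.2]
  let cT : S →ₗ[k] S := ∑ κ : G ⧸ Nx x, Fq κ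
  have hcT : ∀ v, cT v = ∑ κ : G ⧸ Nx x, Fq κ v := by
    intro v
    simp only [cT, LinearMap.sum_apply]
  have hcTg : ∀ (g : G) (v : S), cT (𝔬 g • v) = 𝔬 g • cT v := by
    intro g v
    rw [hcT, hcT, Finset.smul_sum]
    refine Fintype.sum_equiv (MulAction.toPerm (g⁻¹ : G)) _ _ (fun κ => ?_)
    induction κ using QuotientGroup.induction_on with
    | H a =>
      show Fq (QuotientGroup.mk a) (𝔬 g • v) = 𝔬 g • Fq (QuotientGroup.mk (g⁻¹ * a)) v
      rw [hFq, hFq, hFcmul g⁻¹ a, inv_inv, smul_smul, ← map_mul, mul_inv_cancel, map_one,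
        one_smul]
  have hcTmod : ∀ v, NPel k x p • v = 0 → ∃ y, cT v = φb v + 𝔲 • y := by
    intro v hv
    let U : Submodule k S := LinearMap.range (L (S := S) 𝔲)
    let τ : Equiv.Perm (G ⧸ Nx x) := MulAction.toPerm (x⁻¹ : G)
    have hτp : τ ^ p = 1 := by
      show (MulAction.toPermHom G (G ⧸ Nx x) x⁻¹) ^ p = 1
      rw [← map_pow, inv_pow, hS.pow_eq_one, inv_one, map_one]
    let F : G ⧸ Nx x → S ⧸ U := fun κ => U.mkQ (Fq κ v)
    have hUx : ∀ (j : ℕ) (z : S), U.mkQ (𝔬 (x⁻¹ ^ j) • z) = U.mkQ z := by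
      intro j z
      obtain ⟨b, hb⟩ := of_sub_one_of_mem (k := k) (x := x) (w := x⁻¹ ^ j)
        (Subgroup.pow_mem _ (Subgroup.inv_mem _ (Subgroup.mem_zpowers x)) j)
      have hmem : 𝔬 (x⁻¹ ^ j) • z - z ∈ U := by
        refine LinearMap.mem_range.mpr ⟨b • z, ?_⟩
        show 𝔲 • b • z = _
        rw [smul_smul, ← hb, sub_smul, one_smul]
      exact (Submodule.Quotient.eq U).mpr hmem
    have hpow : ∀ (j : ℕ) (a : G), (τ ^ j) (QuotientGroup.mk a) =
        (QuotientGroup.mk (x⁻¹ ^ j * a) : G ⧸ Nx x) := by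
      intro j a
      have e : τ ^ j = MulAction.toPerm ((x⁻¹ : G) ^ j) := by
        show (MulAction.toPermHom G (G ⧸ Nx x) x⁻¹) ^ j = MulAction.toPermHom G (G ⧸ Nx x) (x⁻¹ ^ j)
        rw [map_pow]
      rw [e]
      rfl
    have horb : ∀ κ, τ κ ≠ κ → ∑ j ∈ Finset.range p, F ((τ ^ j) κ) = 0 := by
      intro κ _
      induction κ using QuotientGroup.induction_on with
      | H a =>
        have e : ∀ j : ℕ, F ((τ ^ j) (QuotientGroup.mk a)) =
            U.mkQ (Fq (QuotientGroup.mk a) (𝔬 x ^ j • v)) := by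
          intro j
          rw [hpow]
          show U.mkQ (Fq _ v) = _
          rw [hFq, hFq, hFcmul, hUx, inv_pow, inv_inv, map_pow]
        rw [Finset.sum_congr rfl (fun j _ => e j), ← map_sum, ← map_sum]
        have e' : ∑ j ∈ Finset.range p, 𝔬 x ^ j • v = NPel k x p • v := by
          unfold NPel
          rw [Finset.sum_smul]
        rw [e', hv, map_zero, map_zero]
    have hsum := orbit_sum τ p hS.prime hτp F horb
    have hfix : Finset.univ.filter (fun κ => τ κ = κ) = {(QuotientGroup.mk 1 : G ⧸ Nx x)} := by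
      ext κ
      simp only [Finset.mem_filter, Finset.mem_univ, true_and, Finset.mem_singleton]
      induction κ using QuotientGroup.induction_on with
      | H a =>
        have e : τ (QuotientGroup.mk a) = (QuotientGroup.mk (x⁻¹ * a) : G ⧸ Nx x) := rfl
        rw [e, QuotientGroup.eq, QuotientGroup.eq]
        constructor
        · intro h
          have h' : a⁻¹ * x * a ∈ Nx x := by simpa [mul_assoc] using h
          have := hS.hTI a h'
          simpa using Subgroup.inv_mem _ this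
        · intro h
          have ha : a ∈ Nx x := by
            have := Subgroup.inv_mem _ h
            simpa using this
          have e' : (x⁻¹ * a)⁻¹ * a = a⁻¹ * x * a := by group
          rw [e']
          exact Subgroup.mul_mem _ (Subgroup.mul_mem _ (Subgroup.inv_mem _ ha) (mem_Nx_self x)) ha
    rw [hfix, Finset.sum_singleton] at hsum
    have e1 : ∑ κ, F κ = U.mkQ (cT v) := by
      rw [hcT, map_sum]
    have e2 : F (QuotientGroup.mk 1) = U.mkQ (φb v) := by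
      show U.mkQ (Fq (QuotientGroup.mk 1) v) = _
      rw [hFq, hFc, inv_one, map_one, one_smul, one_smul]
    rw [e1, e2] at hsum
    have hmem : cT v - φb v ∈ U := (Submodule.Quotient.eq U).mp hsum
    obtain ⟨y, hy⟩ := LinearMap.mem_range.mp hmem
    refine ⟨y, ?_⟩
    have hy' : 𝔲 • y = cT v - φb v := hy
    rw [hy']
    abel
  -- assembly
  let c : S →ₗ[MonoidAlgebra k G] S := linOfComm cT hcTg
  have hc : ∀ v, c v = cT v := fun v => rfl
  have hcmod : ∀ v, NPel k x p • v = 0 → ∃ y, c v = π v + 𝔲 • y := by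
    intro v hv
    obtain ⟨y1, h1⟩ := hcTmod v hv
    obtain ⟨y2, h2⟩ := hφbmod v
    exact ⟨y2 + y1, by rw [hc, h1, h2, smul_add, add_assoc]⟩
  have hNPπ : ∀ v, NPel k x p • π v = 0 := by
    intro v
    rw [NPel_eq]
    have e : p - 1 = (p - 1 - (r' + 1)) + (r' + 1) := by omega
    rw [e, pow_add, mul_smul, hπpow, smul_zero]
  have hex : ∃ v₀, ∀ y, π (π v₀) ≠ 𝔲 • y := by
    by_contra hcon
    push Not at hcon
    have hnil : IsNilpotent π := by
      refine ⟨3, ?_⟩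
      ext v
      obtain ⟨y, hy⟩ := hcon v
      show (π ^ 3) v = 0
      rw [pow_succ, pow_two, Module.End.mul_apply, Module.End.mul_apply, hy, hπu]
    have h0 : LinearMap.trace k S π = 0 :=
      (LinearMap.isNilpotent_trace_of_isNilpotent hnil).eq_zero
    rw [hπtr] at h0
    exact one_ne_zero h0
  obtain ⟨v₀, hv₀⟩ := hex
  have hc0 : c ≠ 0 := by
    intro h0
    obtain ⟨y, hy⟩ := hcmod (π v₀) (hNPπ v₀)
    rw [h0, LinearMap.zero_apply] at hy
    exact hv₀ (-y) (by rw [smul_neg]; exact eq_neg_of_add_eq_zero_left hy.symm)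
  have hbij : Function.Bijective c := (LinearMap.bijective_or_eq_zero c).resolve_right hc0
  exact ⟨π, c, hbij, hπε, hcmod⟩

theorem GoodModE.of_equiv {T : Type*} [AddCommGroup T] [Module (MonoidAlgebra k G) T]
    (e : S ≃ₗ[MonoidAlgebra k G] T) (h : GoodModE p x ε S) : GoodModE p x ε T := by
  obtain ⟨w, hw1, hw2, hw3⟩ := h
  refine ⟨e w, ?_, ?_, ?_⟩
  · rw [← map_smul, hw1, map_zero]
  · rw [← map_smul, hw2]
  · intro y hy
    apply hw3 (e.symm y)
    apply e.injective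
    rw [hy, map_smul, LinearEquiv.apply_symm_apply]

/-- A simple module is good for at most one of two orthogonal idempotent weights. -/
theorem uniqueE [IsSimpleModule (MonoidAlgebra k G) S] [Module.Finite k S]
    {ε' : MonoidAlgebra k G} (hS : Setup k p x H) (hε : IsWtE p x H ε) (horth : ε * ε' = 0)
    (h1 : GoodModE p x ε S) (h2 : GoodModE p x ε' S) : False := by
  obtain ⟨π, c, hbij, hπε, hcmod⟩ := coreE hS hε h1
  obtain ⟨w, hw1, hw2, hw3⟩ := h2
  obtain ⟨y, hy⟩ := hcmod w hw1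
  have h0 : π w = 0 := by
    rw [← hπε, ← hw2, smul_smul, horth, zero_smul, map_zero]
  rw [h0, zero_add] at hy
  obtain ⟨y', rfl⟩ := hbij.2 y
  rw [← map_smul] at hy
  exact hw3 y' (hbij.1 hy)

theorem hom_zeroE {T : Type*} [AddCommGroup T] [Module (MonoidAlgebra k G) T] [Module k T]
    [IsScalarTower k (MonoidAlgebra k G) T] [IsSimpleModule (MonoidAlgebra k G) S]
    [IsSimpleModule (MonoidAlgebra k G) T] [Module.Finite k T] {ε' : MonoidAlgebra k G}
    (hS : Setup k p x H) (hε : IsWtE p x H ε) (horth : ε * ε' = 0)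
    (h1 : GoodModE p x ε T) (h2 : GoodModE p x ε' S) (f : S →ₗ[MonoidAlgebra k G] T) :
    f = 0 := by
  by_contra hf
  have hb := (LinearMap.bijective_or_eq_zero f).resolve_right hf
  exact uniqueE hS hε horth h1 (GoodModE.of_equiv (LinearEquiv.ofBijective f hb) h2)

end Core

end Cfsg.Agent.Lib.Helper17.BqCore
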