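import Mathlib
import Cfsg.Agent.Lib.Helper17.BqCore

/-!
# Idempotent weights from the group algebra of a complement

The group algebra of a subgroup `H` of the normalizer of `⟨x⟩` embeds into the group algebra of
`G`; central idempotents of `k[H]` become idempotent weights.  We also record coefficient
formulas for products with the norm element of `⟨x⟩`.
-/

set_option autoImplicit false
set_option linter.unusedSectionVars false
set_option linter.style.haveILetI false
set_option maxHeartbeats 1000000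

namespace Cfsg.Agent.Lib.Helper17.BqEmb

open Cfsg.Agent.Lib.Helper17.BrAlg Cfsg.Agent.Lib.Helper17.BqCore

variable {k : Type*} [Field k] {G : Type*} [Group G] [Fintype G]

open Classical in
/-- The finite set of powers of `x`. -/
noncomputable def Pset (x : G) (p : ℕ) : Finset G := (Finset.range p).image (fun j => x ^ j)

theorem mem_Pset {x : G} {p : ℕ} (hord : orderOf x = p) (hp : 0 < p) {w : G} :
    w ∈ Pset x p ↔ w ∈ Subgroup.zpowers x := by
  classical
  unfold Pset
  rw [Finset.mem_image]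
  constructor
  · rintro ⟨j, -, rfl⟩
    exact Subgroup.pow_mem _ (Subgroup.mem_zpowers x) j
  · intro hw
    obtain ⟨j, rfl⟩ := exists_pow_of_mem_zpowers hw
    refine ⟨j % p, Finset.mem_range.mpr (Nat.mod_lt _ hp), ?_⟩
    rw [← hord, pow_mod_orderOf]

theorem sum_range_pow {A : Type*} [AddCommMonoid A] {x : G} {p : ℕ} (hord : orderOf x = p)
    (f : G → A) : ∑ j ∈ Finset.range p, f (x ^ j) = ∑ w ∈ Pset x p, f w := by
  classical
  unfold Pset
  rw [Finset.sum_image]
  intro i hi j hj hij
  have hi' : i ∈ Set.Iio (orderOf x) := by rw [hord]; exact Finset.mem_range.mp hi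
  have hj' : j ∈ Set.Iio (orderOf x) := by rw [hord]; exact Finset.mem_range.mp hj
  exact pow_injOn_Iio_orderOf hi' hj' hij

theorem card_Pset {x : G} {p : ℕ} (hord : orderOf x = p) : (Pset x p).card = p := by
  have h := sum_range_pow hord (fun _ : G => (1 : ℕ))
  simpa using h.symm

theorem NPel_eq_sum {x : G} {p : ℕ} (hord : orderOf x = p) :
    NPel k x p = ∑ w ∈ Pset x p, MonoidAlgebra.of k G w := by
  unfold NPel
  rw [← sum_range_pow hord (fun w => MonoidAlgebra.of k G w)]
  exact Finset.sum_congr rfl fun j _ => (map_pow _ _ _).symm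

theorem of_mul_NPel {x n : G} {p : ℕ} (hord : orderOf x = p) (hp : 0 < p) (hn : n ∈ Nx x) :
    MonoidAlgebra.of k G n * NPel k x p = NPel k x p * MonoidAlgebra.of k G n := by
  rw [NPel_eq_sum hord, Finset.mul_sum, Finset.sum_mul]
  symm
  refine Finset.sum_bij (fun w _ => n⁻¹ * w * n) ?_ ?_ ?_ ?_
  · intro w hw
    rw [mem_Pset hord hp] at hw ⊢
    have := (Subgroup.mem_normalizer_iff.mp (Subgroup.inv_mem _ hn) w).mp hw
    simpa using this
  · intro a _ b _ h
    simpa using h
  · intro b hb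
    refine ⟨n * b * n⁻¹, ?_, by group⟩
    rw [mem_Pset hord hp] at hb ⊢
    exact (Subgroup.mem_normalizer_iff.mp hn b).mp hb
  · intro w _
    rw [← map_mul, ← map_mul]
    congr 1
    group

/-- The embedding of the group algebra of a subgroup. -/
noncomputable abbrev emb (H : Subgroup G) : MonoidAlgebra k ↥H →+* MonoidAlgebra k G :=
  MonoidAlgebra.mapDomainRingHom k H.subtype

theorem emb_of (H : Subgroup G) (h : ↥H) :
    emb (k := k) H (MonoidAlgebra.of k ↥H h) = MonoidAlgebra.of k G (h : G) := by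
  simp [emb]

theorem emb_smul (H : Subgroup G) (c : k) (z : MonoidAlgebra k ↥H) :
    emb H (c • z) = c • emb H z := by
  simp [emb, MonoidAlgebra.mapDomain_smul]

theorem emb_props {x : G} {p : ℕ} {H : Subgroup G} (hord : orderOf x = p) (hp : 0 < p)
    (hHN : H ≤ Nx x) (z : MonoidAlgebra k ↥H) :
    (∃ b, emb H z * uel k x = uel k x * b) ∧
      (∀ r : ℕ, ∃ b, uel k x ^ r * emb H z = b * uel k x ^ r) ∧
      emb H z * NPel k x p = NPel k x p * emb H z := by
  induction z using MonoidAlgebra.induction_on with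
  | of h =>
    rw [emb_of]
    exact ⟨of_mul_uel (hHN h.2), fun r => uel_pow_mul_of (hHN h.2) r,
      of_mul_NPel hord hp (hHN h.2)⟩
  | add a b ha hb =>
    obtain ⟨⟨b1, h1⟩, h2, h3⟩ := ha
    obtain ⟨⟨b1', h1'⟩, h2', h3'⟩ := hb
    refine ⟨⟨b1 + b1', by rw [map_add, add_mul, h1, h1', mul_add]⟩, fun r => ?_,
      by rw [map_add, add_mul, mul_add, h3, h3']⟩
    obtain ⟨c, hc⟩ := h2 r
    obtain ⟨c', hc'⟩ := h2' r
    exact ⟨c + c', by rw [map_add, mul_add, hc, hc', add_mul]⟩
  | smul r a ha =>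
    obtain ⟨⟨b1, h1⟩, h2, h3⟩ := ha
    refine ⟨⟨r • b1, by rw [emb_smul, smul_mul_assoc, h1, mul_smul_comm]⟩, fun r' => ?_,
      by rw [emb_smul, smul_mul_assoc, mul_smul_comm, h3]⟩
    obtain ⟨c, hc⟩ := h2 r'
    exact ⟨r • c, by rw [emb_smul, mul_smul_comm, hc, smul_mul_assoc]⟩

/-- Central idempotents of `k[H]` are idempotent weights. -/
theorem isWtE_emb {x : G} {p : ℕ} {H : Subgroup G} (hord : orderOf x = p) (hp : 0 < p)
    (hHN : H ≤ Nx x) (E : MonoidAlgebra k ↥H) (hidem : E * E = E)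
    (hcen : ∀ z, E * z = z * E) : IsWtE p x H (emb H E) where
  idem := by rw [← map_mul, hidem]
  comm := fun h hh => by
    have := congrArg (emb H) (hcen (MonoidAlgebra.of k ↥H ⟨h, hh⟩))
    rw [map_mul, map_mul, emb_of] at this
    exact this.symm
  uel_left := (emb_props hord hp hHN E).1
  pow_right := (emb_props hord hp hHN E).2.1
  npel := (emb_props hord hp hHN E).2.2

theorem wsum_mul_wsum (a b : G → k) :
    wsum a * wsum b = wsum (fun g => ∑ y, a y * b (y⁻¹ * g)) := by
  ext g
  rw [MonoidAlgebra.coeff_mul_apply_left, coeff_wsum,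
    Finsupp.sum_fintype _ _ (fun _ => zero_mul _)]
  simp_rw [coeff_wsum]

theorem coeff_sum' {ι : Type*} (s : Finset ι) (f : ι → MonoidAlgebra k G) (g : G) :
    (∑ i ∈ s, f i).coeff g = ∑ i ∈ s, (f i).coeff g := by
  rw [MonoidAlgebra.coeff_sum, Finsupp.finsetSum_apply]

theorem coeff_one_mul_emb {H : Subgroup G} [Fintype ↥H] (z' : MonoidAlgebra k G) (a : ↥H → k) :
    (z' * emb H (wsum a)).coeff 1 = ∑ h : ↥H, a h * z'.coeff ((h : G)⁻¹) := by
  unfold wsum
  rw [map_sum, Finset.mul_sum, coeff_sum']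
  refine Finset.sum_congr rfl fun h _ => ?_
  rw [emb_smul, emb_of, mul_smul_comm, MonoidAlgebra.coeff_smul, Finsupp.smul_apply,
    MonoidAlgebra.of_apply, MonoidAlgebra.coeff_mul_single_apply, one_mul, mul_one, smul_eq_mul]

theorem coeff_wsum_mul_NPel (cb : G → k) {x : G} {p : ℕ} (hord : orderOf x = p) (g : G) :
    (wsum cb * NPel k x p).coeff g = ∑ w ∈ Pset x p, cb (g * w⁻¹) := by
  rw [NPel_eq_sum hord, Finset.mul_sum, coeff_sum']
  refine Finset.sum_congr rfl fun w _ => ?_
  rw [wsum_mul_of, coeff_wsum]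

end Cfsg.Agent.Lib.Helper17.BqEmb
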