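import Mathlib

/-!
# Automorphisms of `ℂ` with prescribed action on roots of unity

* `exists_extend`: an automorphism of a field `L` embedded in `ℂ` extends to `ℂ`.
* `exists_aut`: for `a` coprime to `n ≠ 0` there is an automorphism of `ℂ` raising every
  `n`-th root of unity to its `a`-th power.
-/

set_option autoImplicit false
set_option linter.style.haveILetI false

namespace Cfsg.Agent.Lib.Helper17.BqGal

/-- An automorphism `τ` of a field `L` embedded in `ℂ` by `φ` extends to an automorphism of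
`ℂ`. -/
theorem exists_extend {L : Type} [Field L] (φ : L →+* ℂ) (τ : L ≃+* L) :
    ∃ σ : ℂ ≃+* ℂ, ∀ c : L, σ (φ c) = φ (τ c) := by
  letI : Algebra L ℂ := φ.toAlgebra
  obtain ⟨ι, v, hv⟩ := exists_isTranscendenceBasis' L ℂ
  haveI : IsAlgClosure (Algebra.adjoin L (Set.range v)) ℂ :=
    IsAlgClosed.isAlgClosure_of_transcendence_basis v hv
  let a : MvPolynomial ι L ≃ₐ[L] Algebra.adjoin L (Set.range v) := hv.1.aevalEquiv
  let e : Algebra.adjoin L (Set.range v) ≃+* Algebra.adjoin L (Set.range v) :=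
    a.symm.toRingEquiv.trans ((MvPolynomial.mapEquiv ι τ).trans a.toRingEquiv)
  refine ⟨IsAlgClosure.equivOfEquiv ℂ ℂ e, fun c => ?_⟩
  have h1 : φ c = algebraMap (Algebra.adjoin L (Set.range v)) ℂ
      (algebraMap L (Algebra.adjoin L (Set.range v)) c) := rfl
  have h2 : φ (τ c) = algebraMap (Algebra.adjoin L (Set.range v)) ℂ
      (algebraMap L (Algebra.adjoin L (Set.range v)) (τ c)) := rfl
  rw [h1, IsAlgClosure.equivOfEquiv_algebraMap, h2]
  congr 1
  show a ((MvPolynomial.mapEquiv ι τ) (a.symm (algebraMap L _ c))) = algebraMap L _ (τ c)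
  rw [AlgEquiv.commutes a.symm, MvPolynomial.algebraMap_eq, MvPolynomial.mapEquiv_apply,
    MvPolynomial.map_C, ← MvPolynomial.algebraMap_eq, AlgEquiv.commutes]
  rfl

/-- For `a` coprime to `n ≠ 0` there is an automorphism of `ℂ` raising every `n`-th root of
unity to its `a`-th power. -/
theorem exists_aut (n : ℕ) (hn : n ≠ 0) (a : ℕ) (ha : a.Coprime n) :
    ∃ σ : ℂ ≃+* ℂ, ∀ μ : ℂ, μ ^ n = 1 → σ μ = μ ^ a := by
  haveI : NeZero n := ⟨hn⟩
  have hζ := Complex.isPrimitiveRoot_exp n hn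
  have halg : IsAlgebraic ℚ (Complex.exp (2 * Real.pi * Complex.I / (n : ℂ))) :=
    (hζ.isIntegral (NeZero.pos n)).tower_top.isAlgebraic
  obtain ⟨L, hL⟩ : ∃ L : IntermediateField ℚ ℂ,
      L = IntermediateField.adjoin ℚ {Complex.exp (2 * Real.pi * Complex.I / (n : ℂ))} :=
    ⟨_, rfl⟩
  haveI : IsCyclotomicExtension {n} ℚ L := by
    subst hL
    change IsCyclotomicExtension {n} ℚ (IntermediateField.adjoin ℚ
      {Complex.exp (2 * Real.pi * Complex.I / (n : ℂ))}).toSubalgebra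
    rw [IntermediateField.adjoin_simple_toSubalgebra_of_isAlgebraic halg]
    exact hζ.adjoin_isCyclotomicExtension ℚ
  have hz := IsCyclotomicExtension.zeta_spec n ℚ L
  have hμ : IsPrimitiveRoot (IsCyclotomicExtension.zeta n ℚ L ^ a) n :=
    hz.pow_of_coprime a ha
  have hirr : Irreducible (Polynomial.cyclotomic n ℚ) :=
    Polynomial.cyclotomic.irreducible_rat (NeZero.pos n)
  obtain ⟨τ, hτ⟩ : ∃ τ : L ≃ₐ[ℚ] L, τ (IsCyclotomicExtension.zeta n ℚ L) =
      IsCyclotomicExtension.zeta n ℚ L ^ a :=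
    ⟨IsCyclotomicExtension.fromZetaAut hμ hirr, IsCyclotomicExtension.fromZetaAut_spec hμ hirr⟩
  obtain ⟨σ, hσ⟩ := exists_extend (algebraMap L ℂ) τ.toRingEquiv
  refine ⟨σ, fun μ hμ1 => ?_⟩
  have hz' : IsPrimitiveRoot (algebraMap L ℂ (IsCyclotomicExtension.zeta n ℚ L)) n :=
    hz.map_of_injective (algebraMap L ℂ).injective
  obtain ⟨i, -, rfl⟩ := hz'.eq_pow_of_pow_eq_one hμ1
  rw [← map_pow (algebraMap L ℂ), hσ]
  show algebraMap L ℂ (τ _) = _
  rw [map_pow τ, hτ, map_pow, map_pow, map_pow]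
  ring

end Cfsg.Agent.Lib.Helper17.BqGal
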