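import Mathlib
import Cfsg.Agent.Lib.Helper77.LocalRing

/-!
# Reduction of local integers modulo the maximal ideal

A map `red : ℂ → k` extending a surjection `ρ` from the algebraic integers onto the residue
field `k` to the local ring at the kernel of `ρ` (and sending everything else to `0`).  It is
additive and multiplicative on the local ring, so identities between local integers can be
transported to the residue field.
-/

set_option autoImplicit false
set_option linter.unusedSectionVars false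

namespace Cfsg.Agent.Lib.Helper17.BqRed

open Cfsg Cfsg.Agent.Lib.Helper77.LocalRing

variable {k : Type*} [Field k] (ρ : AlgInt →+* k) (M : Ideal AlgInt)

open Classical in
/-- Reduction modulo the maximal ideal of a local integer. -/
noncomputable def red (z : ℂ) : k :=
  if h : MemLocalRing M z then ρ h.choose / ρ h.choose_spec.choose else 0

variable {ρ M}

theorem red_eq (hker : ∀ a, ρ a = 0 ↔ a ∈ M) {z : ℂ} {a b : AlgInt} (hb : b ∉ M)
    (h : (a : ℂ) / (b : ℂ) = z) : red ρ M z = ρ a / ρ b := by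
  have hloc : MemLocalRing M z := ⟨a, b, hb, h⟩
  unfold red
  rw [dif_pos hloc]
  obtain ⟨hb', h'⟩ := hloc.choose_spec.choose_spec
  have hbne : (b : ℂ) ≠ 0 := coe_ne_zero_of_not_mem hb
  have hb'ne : ((hloc.choose_spec.choose : AlgInt) : ℂ) ≠ 0 := coe_ne_zero_of_not_mem hb'
  have e : hloc.choose * b = a * hloc.choose_spec.choose := by
    apply Subtype.ext
    push_cast
    have h2 := h'.trans h.symm
    rw [div_eq_div_iff hb'ne hbne] at h2
    exact h2
  have hρb : ρ b ≠ 0 := fun h0 => hb ((hker b).mp h0)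
  have hρb' : ρ hloc.choose_spec.choose ≠ 0 := fun h0 => hb' ((hker _).mp h0)
  rw [div_eq_div_iff hρb' hρb, ← map_mul, ← map_mul, e]

theorem one_not_mem' (hker : ∀ a, ρ a = 0 ↔ a ∈ M) : (1 : AlgInt) ∉ M := by
  intro h
  have := (hker 1).mpr h
  rw [map_one] at this
  exact one_ne_zero this

theorem isPrime (hker : ∀ a, ρ a = 0 ↔ a ∈ M) : M.IsPrime := by
  have e : M = RingHom.ker ρ := by
    ext a
    rw [RingHom.mem_ker, hker]
  rw [e]
  exact RingHom.ker_isPrime ρ

theorem red_coe (hker : ∀ a, ρ a = 0 ↔ a ∈ M) (a : AlgInt) : red ρ M (a : ℂ) = ρ a := by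
  rw [red_eq hker (one_not_mem' hker) (a := a) (by simp), map_one, div_one]

theorem red_zero (hker : ∀ a, ρ a = 0 ↔ a ∈ M) : red ρ M 0 = 0 := by
  have := red_coe hker 0
  simpa using this

theorem red_one (hker : ∀ a, ρ a = 0 ↔ a ∈ M) : red ρ M 1 = 1 := by
  have := red_coe hker 1
  simpa using this

theorem red_natCast (hker : ∀ a, ρ a = 0 ↔ a ∈ M) (n : ℕ) : red ρ M (n : ℂ) = (n : k) := by
  have := red_coe hker (n : AlgInt)
  simpa using this

theorem red_add (hker : ∀ a, ρ a = 0 ↔ a ∈ M) {z w : ℂ} (hz : MemLocalRing M z)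
    (hw : MemLocalRing M w) : red ρ M (z + w) = red ρ M z + red ρ M w := by
  obtain ⟨a, b, hb, rfl⟩ := hz
  obtain ⟨c, d, hd, rfl⟩ := hw
  have hρb : ρ b ≠ 0 := fun h0 => hb ((hker b).mp h0)
  have hρd : ρ d ≠ 0 := fun h0 => hd ((hker d).mp h0)
  have hbd : b * d ∉ M := fun h => by
    have := (hker _).mpr h
    rw [map_mul] at this
    exact mul_ne_zero hρb hρd this
  have hb0 := coe_ne_zero_of_not_mem hb
  have hd0 := coe_ne_zero_of_not_mem hd
  rw [red_eq hker hb rfl, red_eq hker hd rfl,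
    red_eq hker hbd (a := a * d + c * b) (by push_cast; field_simp)]
  simp only [map_add, map_mul]
  field_simp

theorem red_mul (hker : ∀ a, ρ a = 0 ↔ a ∈ M) {z w : ℂ} (hz : MemLocalRing M z)
    (hw : MemLocalRing M w) : red ρ M (z * w) = red ρ M z * red ρ M w := by
  obtain ⟨a, b, hb, rfl⟩ := hz
  obtain ⟨c, d, hd, rfl⟩ := hw
  have hρb : ρ b ≠ 0 := fun h0 => hb ((hker b).mp h0)
  have hρd : ρ d ≠ 0 := fun h0 => hd ((hker d).mp h0)
  have hbd : b * d ∉ M := fun h => by
    have := (hker _).mpr h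
    rw [map_mul] at this
    exact mul_ne_zero hρb hρd this
  have hb0 := coe_ne_zero_of_not_mem hb
  have hd0 := coe_ne_zero_of_not_mem hd
  rw [red_eq hker hb rfl, red_eq hker hd rfl,
    red_eq hker hbd (a := a * c) (by push_cast; field_simp)]
  simp only [map_mul]
  field_simp

theorem red_neg (hker : ∀ a, ρ a = 0 ↔ a ∈ M) {z : ℂ} (hz : MemLocalRing M z) :
    red ρ M (-z) = -red ρ M z := by
  obtain ⟨a, b, hb, rfl⟩ := hz
  rw [red_eq hker hb rfl, red_eq hker hb (a := -a) (by push_cast; ring), map_neg, neg_div]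

theorem red_sub (hker : ∀ a, ρ a = 0 ↔ a ∈ M) {z w : ℂ} (hz : MemLocalRing M z)
    (hw : MemLocalRing M w) : red ρ M (z - w) = red ρ M z - red ρ M w := by
  rw [sub_eq_add_neg, red_add hker hz (memLocalRing_neg hw), red_neg hker hw, sub_eq_add_neg]

theorem red_sum (hker : ∀ a, ρ a = 0 ↔ a ∈ M) {ι : Type*} (s : Finset ι) (f : ι → ℂ)
    (hf : ∀ i ∈ s, MemLocalRing M (f i)) :
    red ρ M (∑ i ∈ s, f i) = ∑ i ∈ s, red ρ M (f i) := by
  classical
  have hMp := isPrime hker
  induction s using Finset.induction_on with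
  | empty => simp [red_zero hker]
  | insert i s hi ih =>
    rw [Finset.sum_insert hi, Finset.sum_insert hi,
      red_add hker (hf i (Finset.mem_insert_self i s))
        (memLocalRing_sum hMp s f fun j hj => hf j (Finset.mem_insert_of_mem hj)),
      ih fun j hj => hf j (Finset.mem_insert_of_mem hj)]

theorem red_of_memLocalIdeal (hker : ∀ a, ρ a = 0 ↔ a ∈ M) {z : ℂ} (hz : MemLocalIdeal M z) :
    red ρ M z = 0 := by
  obtain ⟨a, b, ha, hb, rfl⟩ := hz
  rw [red_eq hker hb rfl, (hker a).mpr ha, zero_div]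

theorem red_eq_one (hker : ∀ a, ρ a = 0 ↔ a ∈ M) {z : ℂ} (hz : MemLocalIdeal M (z - 1)) :
    red ρ M z = 1 := by
  have hMp := isPrime hker
  have h1 : z = (z - 1) + 1 := by ring
  rw [h1, red_add hker (memLocalRing_of_memLocalIdeal hz) (memLocalRing_one hMp),
    red_of_memLocalIdeal hker hz, red_one hker, zero_add]

theorem red_inv_natCast (hker : ∀ a, ρ a = 0 ↔ a ∈ M) {n : ℕ} (hn : (n : k) ≠ 0) :
    MemLocalRing M ((n : ℂ)⁻¹) ∧ red ρ M ((n : ℂ)⁻¹) = (n : k)⁻¹ := by
  have hnM : (n : AlgInt) ∉ M := fun h => by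
    have := (hker _).mpr h
    rw [map_natCast] at this
    exact hn this
  have hloc : MemLocalRing M ((n : ℂ)⁻¹) := ⟨1, (n : AlgInt), hnM, by push_cast; simp⟩
  refine ⟨hloc, ?_⟩
  rw [red_eq hker hnM (a := 1) (by push_cast; simp), map_one, map_natCast, one_div]

end Cfsg.Agent.Lib.Helper17.BqRed
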