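import Mathlib
import Cfsg.Agent.Lib.Helper77.BlockIdem
import Cfsg.Agent.Lib.Helper80.Integrality
import Cfsg.Agent.Lib.CT.ColumnId
import Cfsg.Agent.Lib.Helper17.BrBridge
import Cfsg.Agent.Lib.Helper17.BqRed
import Cfsg.Agent.Lib.Helper17.BqEmb

/-!
# Idempotents of ordinary characters of a complement, reduced modulo the maximal ideal

The central idempotents of irreducible characters of a `p'`-group have local coefficients; their
reductions are pairwise orthogonal central idempotents.  The main result computes the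
coefficient at `1` of `e N_P ε` for such an idempotent `ε` and a reduced class function `e`, in
terms of the central character of the Brauer image.
-/

set_option autoImplicit false
set_option linter.unusedSectionVars false
set_option linter.style.haveILetI false
set_option maxHeartbeats 1000000

namespace Cfsg.Agent.Lib.Helper17.BqIdem

open Cfsg Cfsg.Agent.Lib.Helper77.BlockIdem Cfsg.Agent.Lib.Helper77.CentralChar
  Cfsg.Agent.Lib.Helper77.ClassSum Cfsg.Agent.Lib.Helper77.LocalRing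
  Cfsg.Agent.Lib.CT.Wedderburn Cfsg.Agent.Lib.Helper80.Integrality
  Cfsg.Agent.Lib.Helper17.BrAlg Cfsg.Agent.Lib.Helper17.BrBridge
  Cfsg.Agent.Lib.Helper17.BqRed Cfsg.Agent.Lib.Helper17.BqEmb
open scoped ComplexConjugate

universe u

section Ord

variable {H₀ : Type u} [Group H₀] [Fintype H₀]

theorem blockIdem_mul_of_ne (χ χ' : IrrCharacter H₀) (hne : χ ≠ χ') :
    blockIdem ({χ} : Set (IrrCharacter H₀)) * blockIdem ({χ'} : Set (IrrCharacter H₀)) = 0 := by
  classical
  apply eq_of_omega_eq _ _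
    (Subalgebra.mul_mem _ (blockIdem_mem_center _) (blockIdem_mem_center _))
    (Subalgebra.zero_mem _)
  intro ψ
  rw [omega_mul ψ.2 _ _ (blockIdem_mem_center _), omega_blockIdem, omega_blockIdem]
  have h0 : omega (ψ : H₀ → ℂ) 0 = 0 := by
    unfold omega
    rw [pair_zero, zero_div]
  rw [h0]
  by_cases h1 : ψ ∈ ({χ} : Set (IrrCharacter H₀))
  · have : ψ ∉ ({χ'} : Set (IrrCharacter H₀)) := by
      rw [Set.mem_singleton_iff] at h1 ⊢
      rw [h1]
      exact hne
    rw [if_neg this, mul_zero]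
  · rw [if_neg h1, zero_mul]

theorem blockCoeff_orth (χ χ' : IrrCharacter H₀) (hne : χ ≠ χ') (g : H₀) :
    ∑ y, blockCoeff ({χ} : Set (IrrCharacter H₀)) y *
      blockCoeff ({χ'} : Set (IrrCharacter H₀)) (y⁻¹ * g) = 0 := by
  have h : (blockIdem ({χ} : Set (IrrCharacter H₀)) *
      blockIdem ({χ'} : Set (IrrCharacter H₀))).coeff g = 0 := by
    rw [blockIdem_mul_of_ne χ χ' hne]
    rfl
  rw [MonoidAlgebra.coeff_mul_apply_left, Finsupp.sum_fintype _ _ (fun _ => zero_mul _)] at h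
  simpa [coeff_blockIdem] using h

theorem blockCoeff_singleton (χ : IrrCharacter H₀) (h : H₀) :
    blockCoeff ({χ} : Set (IrrCharacter H₀)) h =
      (Nat.card H₀ : ℂ)⁻¹ * ((χ : H₀ → ℂ) 1 * (χ : H₀ → ℂ) h⁻¹) := by
  unfold blockCoeff
  rw [finsum_mem_singleton, char_apply_inv (isCharacter_of_irr χ.2)]

theorem memLocalRing_singleton {k : Type*} [Field k] {ρ : AlgInt →+* k} {M : Ideal AlgInt}
    (hker : ∀ a, ρ a = 0 ↔ a ∈ M) (hcard : (Nat.card H₀ : k) ≠ 0) (χ : IrrCharacter H₀)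
    (h : H₀) : MemLocalRing M (blockCoeff ({χ} : Set (IrrCharacter H₀)) h) := by
  have hMp := isPrime hker
  rw [blockCoeff_singleton]
  exact memLocalRing_mul hMp (red_inv_natCast hker hcard).1
    (memLocalRing_mul hMp (memLocalRing_of_isIntegral hMp (isIntegral_irrCharacter χ 1))
      (memLocalRing_of_isIntegral hMp (isIntegral_irrCharacter χ h⁻¹)))

end Ord

theorem conj_of_not_comm {G : Type*} [Group G] [Finite G] {x n w : G} {p : ℕ} [Fact p.Prime]
    (hord : orderOf x = p) (hn : n ∈ Nx x) (hnc : n * x ≠ x * n)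
    (hw : w ∈ Subgroup.zpowers x) : ∃ v : G, v * n * v⁻¹ = n * w := by
  classical
  have hp : p.Prime := Fact.out
  let f : ↥(Subgroup.zpowers x) → ↥(Subgroup.zpowers x) := fun v =>
    ⟨n⁻¹ * (v : G) * n * (v : G)⁻¹, by
      refine Subgroup.mul_mem _ ?_ (Subgroup.inv_mem _ v.2)
      have := (Subgroup.mem_normalizer_iff.mp (Subgroup.inv_mem _ hn) (v : G)).mp v.2
      simpa using this⟩
  have hinj : Function.Injective f := by
    intro v v' hvv
    have h1 : n⁻¹ * (v : G) * n * (v : G)⁻¹ = n⁻¹ * (v' : G) * n * (v' : G)⁻¹ :=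
      congrArg Subtype.val hvv
    have h2 : (v : G) * n * (v : G)⁻¹ = (v' : G) * n * (v' : G)⁻¹ := by
      have := congrArg (fun z => n * z) h1
      simpa [mul_assoc] using this
    have hun : ((v' : G)⁻¹ * (v : G)) * n = n * ((v' : G)⁻¹ * (v : G)) := by
      calc ((v' : G)⁻¹ * (v : G)) * n
          = (v' : G)⁻¹ * ((v : G) * n * (v : G)⁻¹) * (v : G) := by group
        _ = (v' : G)⁻¹ * ((v' : G) * n * (v' : G)⁻¹) * (v : G) := by rw [h2]
        _ = n * ((v' : G)⁻¹ * (v : G)) := by group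
    have huz : (v' : G)⁻¹ * (v : G) ∈ Subgroup.zpowers x :=
      Subgroup.mul_mem _ (Subgroup.inv_mem _ v'.2) v.2
    by_contra hne
    have hu1 : (v' : G)⁻¹ * (v : G) ≠ 1 := by
      intro h1'
      apply hne
      apply Subtype.ext
      have := congrArg (fun z => (v' : G) * z) h1'
      simpa using this
    have hou : orderOf ((v' : G)⁻¹ * (v : G)) = p := by
      have hdvd : orderOf ((v' : G)⁻¹ * (v : G)) ∣ p := by
        rw [← hord]
        exact orderOf_dvd_of_mem_zpowers huz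
      rcases (Nat.dvd_prime hp).mp hdvd with h | h
      · exact absurd (orderOf_eq_one_iff.mp h) hu1
      · exact h
    have hle : Subgroup.zpowers ((v' : G)⁻¹ * (v : G)) ≤ Subgroup.zpowers x :=
      (Subgroup.zpowers_le).mpr huz
    have hcard : Nat.card (Subgroup.zpowers x) ≤
        Nat.card (Subgroup.zpowers ((v' : G)⁻¹ * (v : G))) := by
      rw [Nat.card_zpowers, Nat.card_zpowers, hord, hou]
    have heq := Subgroup.eq_of_le_of_card_ge hle hcard
    have hxu : x ∈ Subgroup.zpowers ((v' : G)⁻¹ * (v : G)) := by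
      rw [heq]
      exact Subgroup.mem_zpowers x
    obtain ⟨i, hi⟩ := Subgroup.mem_zpowers_iff.mp hxu
    apply hnc
    rw [← hi]
    exact ((show Commute ((v' : G)⁻¹ * (v : G)) n from hun).zpow_left i).eq.symm
  have hsurj := Finite.injective_iff_surjective.mp hinj
  obtain ⟨v, hv⟩ := hsurj ⟨w, hw⟩
  refine ⟨(v : G), ?_⟩
  have h1 : n⁻¹ * (v : G) * n * (v : G)⁻¹ = w := congrArg Subtype.val hv
  rw [← h1]
  group

/-- The coefficient at `1` of the witness element is non-zero when the central character of the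
Brauer image of the class function is `1` modulo the maximal ideal. -/
theorem wit_ne_zero {G : Type u} [Group G] [Fintype G] {k : Type*} [Field k]
    {ρ : AlgInt →+* k} {M : Ideal AlgInt} (hker : ∀ a, ρ a = 0 ↔ a ∈ M)
    (p : ℕ) [Fact p.Prime] [CharP k p] {x : G} (hord : orderOf x = p)
    (H : Subgroup G) [Fintype ↥H] (hHN : H ≤ Nx x) (hHp : ¬ p ∣ Nat.card H)
    (C : Subgroup G) (hC : ∀ g, g ∈ C ↔ g * x = x * g)
    (β : G → ℂ) (hβloc : ∀ g, MemLocalRing M (β g))
    (hβconj : ∀ g h, β (h * g * h⁻¹) = β g) (χ : IrrCharacter ↥H)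
    (hω : MemLocalIdeal M (∑ᶠ h ∈ {h : ↥H | (h : G) ∈ C},
      (∑ i ∈ Finset.range p, β (x ^ i * (h : G))) * (χ : ↥H → ℂ) h / (χ : ↥H → ℂ) 1 - 1)) :
    (wsum (fun g => red ρ M (β g)) * NPel k x p *
      emb H (wsum (fun h : ↥H =>
        red ρ M (blockCoeff ({χ} : Set (IrrCharacter ↥H)) h)))).coeff 1 ≠ 0 := by
  classical
  have hp : p.Prime := Fact.out
  have hMp := isPrime hker
  have hpM : MemLocalIdeal M (p : ℂ) := by
    have h1 : ((p : ℕ) : AlgInt) ∈ M :=
      (hker _).mp (by rw [map_natCast]; exact CharP.cast_eq_zero k p)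
    have h2 := memLocalIdeal_algInt hMp h1
    simpa using h2
  have hcardk : (Nat.card ↥H : k) ≠ 0 := by
    rw [Ne, CharP.cast_eq_zero_iff k p]
    exact hHp
  set bc : ↥H → ℂ := fun h => blockCoeff ({χ} : Set (IrrCharacter ↥H)) h with hbc
  have hbcloc : ∀ h, MemLocalRing M (bc h) := fun h => memLocalRing_singleton hker hcardk χ h
  set T : ↥H → ℂ := fun h => ∑ w ∈ Pset x p, β ((h : G)⁻¹ * w⁻¹) with hT
  have hTloc : ∀ h, MemLocalRing M (T h) :=
    fun h => memLocalRing_sum hMp _ _ fun w _ => hβloc _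
  have hA : (wsum (fun g => red ρ M (β g)) * NPel k x p *
      emb H (wsum (fun h : ↥H => red ρ M (bc h)))).coeff 1 =
      red ρ M (∑ h : ↥H, bc h * T h) := by
    rw [coeff_one_mul_emb, red_sum hker _ _ (fun h _ => memLocalRing_mul hMp (hbcloc h) (hTloc h))]
    refine Finset.sum_congr rfl fun h _ => ?_
    rw [red_mul hker (hbcloc h) (hTloc h), coeff_wsum_mul_NPel _ hord]
    congr 1
    exact (red_sum hker _ _ (fun w _ => hβloc _)).symm
  rw [hA]
  set d : ℕ := charDegree (χ : ↥H → ℂ) with hd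
  have hχ1 : (χ : ↥H → ℂ) 1 = (d : ℂ) := apply_one_eq_charDegree (isCharacter_of_irr χ.2)
  have hd0 : (d : ℂ) ≠ 0 := by
    rw [← hχ1]
    exact irr_one_ne_zero χ.2
  have hcardC : (Nat.card ↥H : ℂ) ≠ 0 := Nat.cast_ne_zero.mpr Nat.card_pos.ne'
  set c₀ : ℂ := (Nat.card ↥H : ℂ)⁻¹ * ((d : ℂ) * (d : ℂ)) with hc₀
  set Fω : ↥H → ℂ := fun h => if h ∈ {h : ↥H | (h : G) ∈ C} then
    (∑ i ∈ Finset.range p, β (x ^ i * (h : G))) * (χ : ↥H → ℂ) h / (χ : ↥H → ℂ) 1 else 0 with hFω
  set R : ↥H → ℂ := fun h => if (h : G) ∈ C then 0 else bc h * β ((h : G)⁻¹) with hR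
  have hterm : ∀ h : ↥H, bc h * T h = c₀ * Fω h⁻¹ + (p : ℂ) * R h := by
    intro h
    by_cases hh : (h : G) ∈ C
    · have hh' : ((h⁻¹ : ↥H) : G) ∈ C := by simpa using C.inv_mem hh
      have hTh : T h = ∑ i ∈ Finset.range p, β (x ^ i * ((h⁻¹ : ↥H) : G)) := by
        rw [sum_range_pow hord (fun w => β (w * ((h⁻¹ : ↥H) : G)))]
        refine Finset.sum_bij (fun w _ => w⁻¹) ?_ ?_ ?_ ?_
        · intro w hw
          rw [mem_Pset hord hp.pos] at hw ⊢
          exact Subgroup.inv_mem _ hw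
        · intro a _ b _ hab
          exact inv_injective hab
        · intro b hb
          refine ⟨b⁻¹, ?_, inv_inv b⟩
          rw [mem_Pset hord hp.pos] at hb ⊢
          exact Subgroup.inv_mem _ hb
        · intro w hw
          rw [mem_Pset hord hp.pos] at hw
          obtain ⟨i, rfl⟩ := Subgroup.mem_zpowers_iff.mp hw
          have hcx : Commute (h : G) x := (hC _).mp hh
          have hcomm : (h : G)⁻¹ * (x ^ i)⁻¹ = (x ^ i)⁻¹ * (h : G)⁻¹ :=
            ((hcx.zpow_right i).inv_inv).eq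
          rw [hcomm]
          rfl
      have e1 : Fω h⁻¹ = (∑ i ∈ Finset.range p, β (x ^ i * ((h⁻¹ : ↥H) : G))) *
          (χ : ↥H → ℂ) h⁻¹ / (χ : ↥H → ℂ) 1 := by
        rw [hFω]
        exact if_pos hh'
      have e2 : R h = 0 := by
        rw [hR]
        exact if_pos hh
      have e3 : bc h = (Nat.card ↥H : ℂ)⁻¹ * ((χ : ↥H → ℂ) 1 * (χ : ↥H → ℂ) h⁻¹) :=
        blockCoeff_singleton χ h
      rw [e1, e2, hTh, e3, hχ1, hc₀]
      field_simp
      ring
    · have hh' : ((h⁻¹ : ↥H) : G) ∉ C := fun hc => hh (by simpa using C.inv_mem hc)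
      have e1 : Fω h⁻¹ = 0 := by
        rw [hFω]
        exact if_neg hh'
      have e2 : R h = bc h * β ((h : G)⁻¹) := by
        rw [hR]
        exact if_neg hh
      have hTh : T h = (p : ℂ) * β ((h : G)⁻¹) := by
        have hall : ∀ w ∈ Pset x p, β ((h : G)⁻¹ * w⁻¹) = β ((h : G)⁻¹) := by
          intro w hw
          rw [mem_Pset hord hp.pos] at hw
          have hn : (h : G)⁻¹ ∈ Nx x := Subgroup.inv_mem _ (hHN h.2)
          have hnc : (h : G)⁻¹ * x ≠ x * (h : G)⁻¹ := by
            intro hc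
            apply hh
            have : (h : G)⁻¹ ∈ C := (hC _).mpr hc
            simpa using C.inv_mem this
          obtain ⟨v, hv⟩ := conj_of_not_comm hord hn hnc (Subgroup.inv_mem _ hw)
          rw [← hv, hβconj]
        rw [hT]
        show ∑ w ∈ Pset x p, β ((h : G)⁻¹ * w⁻¹) = _
        rw [Finset.sum_congr rfl hall, Finset.sum_const, card_Pset hord, nsmul_eq_mul]
      rw [e1, e2, hTh]
      ring
  have hsum : ∑ h : ↥H, bc h * T h =
      c₀ * (∑ᶠ h ∈ {h : ↥H | (h : G) ∈ C},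
        (∑ i ∈ Finset.range p, β (x ^ i * (h : G))) * (χ : ↥H → ℂ) h / (χ : ↥H → ℂ) 1) +
      (p : ℂ) * ∑ h, R h := by
    rw [Finset.sum_congr rfl (fun h _ => hterm h), Finset.sum_add_distrib, ← Finset.mul_sum,
      ← Finset.mul_sum]
    congr 2
    rw [Cfsg.Agent.Lib.CT.ColumnId.finsum_mem_eq_sum]
    exact Equiv.sum_comp (Equiv.inv ↥H) Fω
  have hRloc : MemLocalRing M (∑ h, R h) := by
    refine memLocalRing_sum hMp _ _ fun h _ => ?_
    by_cases hh : (h : G) ∈ C
    · have : R h = 0 := by rw [hR]; exact if_pos hh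
      rw [this]
      exact memLocalRing_zero hMp
    · have : R h = bc h * β ((h : G)⁻¹) := by rw [hR]; exact if_neg hh
      rw [this]
      exact memLocalRing_mul hMp (hbcloc h) (hβloc _)
  have hdloc : MemLocalRing M ((d : ℂ) * (d : ℂ)) :=
    memLocalRing_mul hMp (memLocalRing_natCast hMp d) (memLocalRing_natCast hMp d)
  have hc₀loc : MemLocalRing M c₀ := memLocalRing_mul hMp (red_inv_natCast hker hcardk).1 hdloc
  have hdiff : MemLocalIdeal M ((∑ h : ↥H, bc h * T h) - c₀) := by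
    have e : (∑ h : ↥H, bc h * T h) - c₀ =
        c₀ * (∑ᶠ h ∈ {h : ↥H | (h : G) ∈ C},
          (∑ i ∈ Finset.range p, β (x ^ i * (h : G))) * (χ : ↥H → ℂ) h / (χ : ↥H → ℂ) 1 - 1) +
        (p : ℂ) * ∑ h, R h := by
      rw [hsum]
      ring
    rw [e]
    exact memLocalIdeal_add hMp (memLocalIdeal_mul_left hMp hc₀loc hω)
      (memLocalIdeal_mul_right hMp hpM hRloc)
  have hΩloc : MemLocalRing M (∑ h : ↥H, bc h * T h) :=
    memLocalRing_sum hMp _ _ fun h _ => memLocalRing_mul hMp (hbcloc h) (hTloc h)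
  have h1 : red ρ M (∑ h : ↥H, bc h * T h) = red ρ M c₀ := by
    have h2 := red_sub hker hΩloc hc₀loc
    rw [red_of_memLocalIdeal hker hdiff] at h2
    exact sub_eq_zero.mp h2.symm
  have hdk : (d : k) ≠ 0 := by
    rw [Ne, CharP.cast_eq_zero_iff k p]
    intro hpd
    exact hHp (hpd.trans (charDegree_dvd_card χ))
  rw [h1, hc₀, red_mul hker (red_inv_natCast hker hcardk).1 hdloc,
    (red_inv_natCast hker hcardk).2,
    red_mul hker (memLocalRing_natCast hMp d) (memLocalRing_natCast hMp d), red_natCast hker]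
  exact mul_ne_zero (inv_ne_zero hcardk) (mul_ne_zero hdk hdk)

end Cfsg.Agent.Lib.Helper17.BqIdem
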