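import Mathlib
import Cfsg.Prelude.Def_Blocks
import Cfsg.Agent.Lib.Helper17.BqCore

/-!
# Traces of the simple modules attached to idempotent weights

For a family of pairwise orthogonal idempotent weights `ε i` satisfying a non-vanishing
condition relative to a central idempotent `e` of the group algebra, there are pairwise
non-isomorphic simple modules `S i` on which `e` acts as the identity.  Over an algebraically
closed field their trace functions are linearly independent.  The residue fields of the ring of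
algebraic integers are algebraically closed.
-/

set_option autoImplicit false
set_option linter.unusedSectionVars false
set_option linter.style.haveILetI false
set_option maxHeartbeats 1000000

namespace Cfsg.Agent.Lib.Helper17.BqTrace

open Cfsg.Agent.Lib.Helper17.BrAlg Cfsg.Agent.Lib.Helper17.BrGood Cfsg.Agent.Lib.Helper17.BrCore
  Cfsg.Agent.Lib.Helper17.BrWit Cfsg.Agent.Lib.Helper17.BrTrace Cfsg.Agent.Lib.Helper17.BqCore

/-! ### The residue field is algebraically closed -/

theorem isAlgClosed_quot (M : Ideal Cfsg.AlgInt) [hM : M.IsMaximal] :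
    letI := Ideal.Quotient.field M
    IsAlgClosed (Cfsg.AlgInt ⧸ M) := by
  letI := Ideal.Quotient.field M
  apply IsAlgClosed.of_exists_root
  intro f hf hirr
  have hsurj : Function.Surjective (Ideal.Quotient.mk M) := Ideal.Quotient.mk_surjective
  have hlift : f ∈ Polynomial.lifts (Ideal.Quotient.mk M) :=
    (Polynomial.mem_lifts f).mpr (Polynomial.map_surjective _ hsurj f)
  obtain ⟨q, hq1, hq2, hq3⟩ := Polynomial.lifts_and_natDegree_eq_and_monic hlift hf
  have hdeg : q.natDegree ≠ 0 := by
    rw [hq2]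
    exact fun h0 => (Polynomial.natDegree_pos_iff_degree_pos.mpr
      (Polynomial.degree_pos_of_irreducible hirr)).ne' h0
  let q' : Polynomial ℂ := q.map (algebraMap Cfsg.AlgInt ℂ)
  have hq'monic : q'.Monic := hq3.map _
  have hq'deg : q'.degree ≠ 0 := by
    rw [Polynomial.degree_map_eq_of_injective (by
      exact (Subtype.coe_injective : Function.Injective (fun a : Cfsg.AlgInt => (a : ℂ))))]
    intro h0
    apply hdeg
    exact Polynomial.natDegree_eq_zero_iff_degree_le_zero.mpr h0.le
  obtain ⟨α, hα⟩ := IsAlgClosed.exists_root q' hq'deg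
  have hint : IsIntegral Cfsg.AlgInt α :=
    ⟨q, hq3, by
      rw [← Polynomial.eval_map]
      exact hα⟩
  have hintZ : IsIntegral ℤ α := isIntegral_trans α hint
  let a : Cfsg.AlgInt := ⟨α, hintZ⟩
  have hqa : q.eval a = 0 := by
    apply Subtype.coe_injective
    have h1 : (algebraMap Cfsg.AlgInt ℂ) (q.eval a) = q'.eval ((algebraMap Cfsg.AlgInt ℂ) a) := by
      rw [Polynomial.eval_map, Polynomial.eval₂_at_apply]
    have h2 : (algebraMap Cfsg.AlgInt ℂ) a = α := rfl
    rw [h2, hα] at h1
    exact h1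
  refine ⟨Ideal.Quotient.mk M a, ?_⟩
  rw [← hq1, Polynomial.eval_map, Polynomial.eval₂_at_apply, hqa, map_zero]

variable {k : Type*} [Field k] {G : Type*} [Group G] [Fintype G]

/-! ### Schur's lemma -/

theorem schur [IsAlgClosed k] {S : Type*} [AddCommGroup S] [Module (MonoidAlgebra k G) S]
    [Module k S] [IsScalarTower k (MonoidAlgebra k G) S]
    [IsSimpleModule (MonoidAlgebra k G) S] [Module.Finite k S]
    (d : S →ₗ[MonoidAlgebra k G] S) : ∃ a : k, ∀ v, d v = a • v := by
  haveI : Nontrivial S := IsSimpleModule.nontrivial (MonoidAlgebra k G) S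
  obtain ⟨a, ha⟩ := Module.End.exists_eigenvalue (d.restrictScalars k)
  obtain ⟨v, hv⟩ := ha.exists_hasEigenvector
  let d' : S →ₗ[MonoidAlgebra k G] S := d - a • LinearMap.id
  have hd' : ∀ z, d' z = d z - a • z := fun z => rfl
  by_cases h0 : d' = 0
  · refine ⟨a, fun z => ?_⟩
    have := LinearMap.congr_fun h0 z
    rw [hd', LinearMap.zero_apply] at this
    exact sub_eq_zero.mp this
  · exfalso
    have hb := (LinearMap.bijective_or_eq_zero d').resolve_right h0
    have h1 : d' v = 0 := by
      rw [hd']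
      have := hv.apply_eq_smul
      rw [LinearMap.restrictScalars_apply] at this
      rw [this, sub_self]
    exact hv.2 (hb.1 (by rw [h1, map_zero]))

/-! ### Traces and commuting unipotent factors -/

section single

variable {V : Type*} [AddCommGroup V] [Module (MonoidAlgebra k G) V] [Module k V]
  [IsScalarTower k (MonoidAlgebra k G) V]

theorem trf_unip' (p : ℕ) [Fact p.Prime] [CharP k p] {w g : G} (hw : w ^ p = 1)
    (hc : w * g = g * w) : trf k V (w * g) = trf k V g := by
  unfold trf
  have e : MonoidAlgebra.of k G (w * g) =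
      uel k w * MonoidAlgebra.of k G g + MonoidAlgebra.of k G g := by
    unfold uel
    rw [map_mul, sub_mul, one_mul, sub_add_cancel]
  have hcomm : Commute (uel k w) (MonoidAlgebra.of k G g) := by
    unfold uel
    show (MonoidAlgebra.of k G w - 1) * MonoidAlgebra.of k G g =
      MonoidAlgebra.of k G g * (MonoidAlgebra.of k G w - 1)
    rw [sub_mul, mul_sub, one_mul, mul_one, ← map_mul, ← map_mul, hc]
  have hnil : IsNilpotent (L (S := V) (uel k w * MonoidAlgebra.of k G g)) := by
    refine ⟨p, ?_⟩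
    rw [← BrTrace.L_pow, hcomm.mul_pow, uel_pow_p p hw, zero_mul]
    ext v
    exact zero_smul _ v
  have h0 : LinearMap.trace k V (L (uel k w * MonoidAlgebra.of k G g)) = 0 :=
    (LinearMap.isNilpotent_trace_of_isNilpotent hnil).eq_zero
  rw [e, BrTrace.L_add, map_add, h0, zero_add]

end single

/-! ### The witness -/

section Wit

variable {p : ℕ} {x : G} {H : Subgroup G} {ε : MonoidAlgebra k G} {cb : G → k}

/-- The left ideal `k[G] e N_P ε`. -/
noncomputable def X0E (cb : G → k) (x : G) (p : ℕ) (ε : MonoidAlgebra k G) :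
    Submodule (MonoidAlgebra k G) (MonoidAlgebra k G) :=
  Submodule.span (MonoidAlgebra k G) {wsum cb * NPel k x p * ε}

theorem X0E_eb (hconj : ∀ g h : G, cb (h * g * h⁻¹) = cb g)
    (hidem : wsum cb * wsum cb = wsum cb) {b : MonoidAlgebra k G} (hb' : b ∈ X0E cb x p ε) :
    wsum cb * b = b := by
  obtain ⟨a, rfl⟩ := Submodule.mem_span_singleton.mp hb'
  calc wsum cb * (a • (wsum cb * NPel k x p * ε))
      = (wsum cb * a) * (wsum cb * NPel k x p * ε) := by simp only [smul_eq_mul, mul_assoc]
    _ = a * ((wsum cb * wsum cb) * NPel k x p * ε) := by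
        rw [wsum_central cb hconj a]
        simp only [mul_assoc]
    _ = a • (wsum cb * NPel k x p * ε) := by rw [hidem, smul_eq_mul]

theorem X0E_mul_x (hε : IsWtE p x H ε) (hxp : x ^ p = 1) {b : MonoidAlgebra k G}
    (hb' : b ∈ X0E cb x p ε) : b * MonoidAlgebra.of k G x = b := by
  obtain ⟨a, rfl⟩ := Submodule.mem_span_singleton.mp hb'
  obtain ⟨b₁, hb₁⟩ := hε.uel_left
  have h1 : NPel k x p * ε * uel k x = 0 := by
    rw [mul_assoc, hb₁, ← mul_assoc, NPel_mul_uel_eq_zero p hxp, zero_mul]
  have h2 : NPel k x p * ε * MonoidAlgebra.of k G x = NPel k x p * ε := by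
    have : MonoidAlgebra.of k G x = uel k x + 1 := by
      unfold uel
      rw [sub_add_cancel]
    rw [this, mul_add, h1, zero_add, mul_one]
  rw [smul_eq_mul]
  calc a * (wsum cb * NPel k x p * ε) * MonoidAlgebra.of k G x
      = a * (wsum cb * (NPel k x p * ε * MonoidAlgebra.of k G x)) := by
        simp only [mul_assoc]
    _ = a * (wsum cb * NPel k x p * ε) := by rw [h2, ← mul_assoc (wsum cb)]

theorem X0E_coeff (hε : IsWtE p x H ε) (hxp : x ^ p = 1) {b : MonoidAlgebra k G}
    (hb' : b ∈ X0E cb x p ε) : (uel k x * b).coeff 1 = 0 := by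
  have h1 := X0E_mul_x hε hxp hb'
  have h2 : b.coeff 1 = b.coeff x⁻¹ := by
    conv_lhs => rw [← h1]
    rw [MonoidAlgebra.of_apply, MonoidAlgebra.coeff_mul_single_apply, one_mul, mul_one]
  unfold uel
  rw [sub_mul, one_mul, MonoidAlgebra.coeff_sub, Finsupp.sub_apply, MonoidAlgebra.of_apply,
    MonoidAlgebra.coeff_single_mul_apply, one_mul, mul_one, h2, sub_self]

theorem good_X0E (hS : Setup k p x H) (hε : IsWtE p x H ε)
    (hconj : ∀ g h : G, cb (h * g * h⁻¹) = cb g)
    (hwit : (wsum cb * NPel k x p * ε).coeff 1 ≠ 0) :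
    GoodPairE p x ε ⊥ (X0E cb x p ε) := by
  haveI := hS.charP
  haveI : Fact p.Prime := ⟨hS.prime⟩
  have hxp := hS.pow_eq_one
  refine ⟨bot_le, wsum cb * NPel k x p * ε, Submodule.mem_span_singleton_self _, ?_, ?_, ?_⟩
  · have h0 : NPel k x p * NPel k x p = 0 := by
      have h2 : 2 ≤ p := hS.prime.two_le
      have e : p - 1 + (p - 1) = p + (p - 2) := by omega
      rw [NPel_eq, ← pow_add, e, pow_add, uel_pow_p p hxp, zero_mul]
    rw [Submodule.mem_bot, smul_eq_mul, ← mul_assoc, ← mul_assoc, ← wsum_central cb hconj,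
      mul_assoc (wsum cb), h0, mul_zero, zero_mul]
  · rw [Submodule.mem_bot, smul_eq_mul, ← mul_assoc, ← mul_assoc, ← wsum_central cb hconj,
      mul_assoc (wsum cb), hε.npel, ← mul_assoc, mul_assoc, hε.idem, sub_self]
  · intro y hy hcon
    rw [Submodule.mem_bot] at hcon
    have h1 := congrArg (fun z : MonoidAlgebra k G => z.coeff 1) hcon
    simp only [smul_eq_mul, MonoidAlgebra.coeff_sub, Finsupp.sub_apply, MonoidAlgebra.coeff_zero,
      Finsupp.zero_apply] at h1
    rw [X0E_coeff hε hxp hy, sub_zero] at h1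
    exact hwit h1

/-- A good simple subquotient on which the central idempotent acts as the identity. -/
theorem exists_pairE (hS : Setup k p x H) (hε : IsWtE p x H ε)
    (hconj : ∀ g h : G, cb (h * g * h⁻¹) = cb g) (hidem : wsum cb * wsum cb = wsum cb)
    (hwit : (wsum cb * NPel k x p * ε).coeff 1 ≠ 0) :
    ∃ N₂ N₁ : Submodule (MonoidAlgebra k G) (MonoidAlgebra k G),
      N₂ ⋖ N₁ ∧ GoodPairE p x ε N₂ N₁ ∧ ∀ b ∈ N₁, wsum cb * b = b := by
  obtain ⟨N₂, N₁, h1, h2, h3⟩ := exists_covByE hε hS.pow_eq_one (good_X0E hS hε hconj hwit)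
  exact ⟨N₂, N₁, h2, h3, fun b hb' => X0E_eb hconj hidem (h1 hb')⟩

end Wit

/-- **Main theorem of the modular part for idempotent weights.**  For pairwise orthogonal
idempotent weights `ε i` with non-vanishing witnesses there are linearly independent class
functions `τ i : G → k`, invariant under the central idempotent, and insensitive to commuting
factors of order `p`. -/
theorem exists_tracesE [IsAlgClosed k] {p : ℕ} {x : G} {H : Subgroup G} {cb : G → k}
    {ι : Type*} [Fintype ι]
    (hS : Setup k p x H) (hconj : ∀ g h : G, cb (h * g * h⁻¹) = cb g)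
    (hidem : wsum cb * wsum cb = wsum cb)
    (ε : ι → MonoidAlgebra k G) (hε : ∀ i, IsWtE p x H (ε i))
    (horth : ∀ i j, i ≠ j → ε i * ε j = 0)
    (hwit : ∀ i, (wsum cb * NPel k x p * ε i).coeff 1 ≠ 0) :
    ∃ τ : ι → G → k, (∀ i g h, τ i (h * g * h⁻¹) = τ i g) ∧
      (∀ i g, ∑ y, cb y * τ i (y * g) = τ i g) ∧
      (∀ i (w g : G), w ^ p = 1 → w * g = g * w → τ i (w * g) = τ i g) ∧
      (∀ a : ι → k, (∀ g : G, ∑ i, a i * τ i g = 0) → ∀ i, a i = 0) := by
  classical
  haveI : Fact p.Prime := ⟨hS.prime⟩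
  haveI := hS.charP
  have hex := fun i => exists_pairE hS (hε i) hconj hidem (hwit i)
  choose N₂ N₁ hcov hgood heb using hex
  haveI : ∀ i, IsSimpleModule (MonoidAlgebra k G) (↥(N₁ i) ⧸ (N₂ i).comap (N₁ i).subtype) :=
    fun i => (covBy_iff_quot_is_simple (hgood i).1).mp (hcov i)
  haveI : ∀ i, Module.Finite k (↥(N₁ i) ⧸ (N₂ i).comap (N₁ i).subtype) :=
    fun i => finite_quot (N₂ i) (N₁ i)
  have hgm : ∀ i, GoodModE p x (ε i) (↥(N₁ i) ⧸ (N₂ i).comap (N₁ i).subtype) :=
    fun i => (hgood i).goodMod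
  refine ⟨fun i => trf k (↥(N₁ i) ⧸ (N₂ i).comap (N₁ i).subtype), ?_, ?_, ?_, ?_⟩
  · intro i g h
    exact trf_conj g h
  · intro i g
    exact trf_blk (fun v => smul_eq_of_quot (wsum cb) (fun b hb' => heb i b hb') v) g
  · intro i w g hw hc
    exact trf_unip' p hw hc
  · intro a ha
    exact trace_indep (fun i => ↥(N₁ i) ⧸ (N₂ i).comap (N₁ i).subtype)
      (fun i d => schur d)
      (fun i j hij f => hom_zeroE hS (hε j) (horth j i (fun h => hij h.symm)) (hgm j) (hgm i) f)
      a ha

end Cfsg.Agent.Lib.Helper17.BqTrace
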