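import Mathlib
import Cfsg.Agent.Lib.Helper17.BrLower
import Cfsg.Agent.Lib.Helper17.BqTrace
import Cfsg.Agent.Lib.Helper17.BqIdem

/-!
# A lower bound for the number of characters in a block of defect one

For a Sylow `p`-subgroup `P` of order `p`, a block `B` and a character `θ` of `C_G(P)` with
inertial group `T`, the block `B` has at least `|T : C_G(P)| + (p - 1) / |T : C_G(P)|`
irreducible characters, provided that

* there are `|T : C_G(P)|` irreducible characters of a complement `H` of `P` in `N_G(P)` whose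
  central characters take the value `1` modulo the maximal ideal on the Brauer image of the
  block idempotent (they give idempotent weights and hence simple modules in the block), and
* there are section functions in the span of the block, indexed by the non-trivial elements of
  `P`, with the expected orthogonality properties.

Both inputs are provided by ordinary character theory.
-/

set_option autoImplicit false
set_option linter.unusedSectionVars false
set_option linter.style.haveILetI false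
set_option maxHeartbeats 1000000

namespace Cfsg.Agent.Lib.Helper17.BqLower

open Cfsg Cfsg.Agent.Lib.Helper77.BlockIdem Cfsg.Agent.Lib.Helper77.LocalRing
  Cfsg.Agent.Lib.CT.Wedderburn Cfsg.Agent.Lib.Helper80.Integrality
  Cfsg.Agent.Lib.Helper17.BrAlg Cfsg.Agent.Lib.Helper17.BrGrp
  Cfsg.Agent.Lib.Helper17.BrBridge Cfsg.Agent.Lib.Helper17.BqRed Cfsg.Agent.Lib.Helper17.BqEmb
  Cfsg.Agent.Lib.Helper17.BqCore Cfsg.Agent.Lib.Helper17.BqTrace Cfsg.Agent.Lib.Helper17.BqIdem
open scoped ComplexConjugate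

universe u

variable {G : Type u} [Group G]

/-- Representatives of the orbits of `T` on the non-trivial elements of a Sylow subgroup of
prime order: there are at least `(p - 1) / |T : C_G(P)|` of them. -/
theorem exists_repsT [Fintype G] {p : ℕ} [Fact p.Prime] (P : Sylow p G) (hP : Nat.card P = p)
    (T : Subgroup G) (hTN : T ≤ Subgroup.normalizer ((P : Subgroup G) : Set G)) :
    ∃ Q : Finset G, (∀ y ∈ Q, y ∈ (P : Subgroup G) ∧ y ≠ 1) ∧
      (∀ y ∈ Q, ∀ y' ∈ Q, (∃ t ∈ T, t * y' * t⁻¹ = y) → y' = y) ∧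
      (p - 1) / (Subgroup.centralizer ((P : Subgroup G) : Set G)).relIndex T ≤ Q.card := by
  classical
  let s : Setoid G :=
    { r := fun y y' => ∃ t ∈ T, t * y * t⁻¹ = y'
      iseqv := ⟨fun y => ⟨1, T.one_mem, by simp⟩,
        fun ⟨t, ht, h⟩ => ⟨t⁻¹, T.inv_mem ht, by rw [← h]; group⟩,
        fun ⟨t, ht, h⟩ ⟨t', ht', h'⟩ => ⟨t' * t, T.mul_mem ht' ht, by rw [← h', ← h]; group⟩⟩ }
  let rep : G → G := fun y => (Quotient.mk s y).out
  have hrep : ∀ y, ∃ t ∈ T, t * rep y * t⁻¹ = y := fun y => Quotient.mk_out (s := s) y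
  have hrep' : ∀ y, ∃ t ∈ T, t * y * t⁻¹ = rep y := fun y => s.symm (hrep y)
  set S : Finset G := Finset.univ.filter (fun y => y ∈ (P : Subgroup G) ∧ y ≠ 1) with hS
  refine ⟨S.image rep, ?_, ?_, ?_⟩
  · intro y hy
    obtain ⟨y₀, hy₀, rfl⟩ := Finset.mem_image.mp hy
    obtain ⟨-, hy₀P, hy₀1⟩ := Finset.mem_filter.mp hy₀
    obtain ⟨t, ht, h⟩ := hrep' y₀
    rw [← h]
    refine ⟨(Subgroup.mem_normalizer_iff.mp (hTN ht) y₀).mp hy₀P, fun h1 => hy₀1 ?_⟩
    have := congrArg (fun z => t⁻¹ * z * t) h1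
    simpa [mul_assoc] using this
  · intro y hy y' hy' hc
    obtain ⟨a, -, rfl⟩ := Finset.mem_image.mp hy
    obtain ⟨b, -, rfl⟩ := Finset.mem_image.mp hy'
    have h1 : s.r b a := s.trans (s.trans (hrep' b) hc) (hrep a)
    show (Quotient.mk s b).out = (Quotient.mk s a).out
    rw [Quotient.sound h1]
  · apply Nat.div_le_of_le_mul
    have hScard : S.card = p - 1 := by
      have h1 : S = (Finset.univ.filter (fun y => y ∈ (P : Subgroup G))).erase 1 := by
        ext y
        simp only [hS, Finset.mem_filter, Finset.mem_univ, true_and, Finset.mem_erase]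
        tauto
      rw [h1, Finset.card_erase_of_mem (by simp [one_mem])]
      congr 1
      have h2 : Nat.card (P : Subgroup G) =
          (Finset.univ.filter (fun y => y ∈ (P : Subgroup G))).card := by
        rw [Nat.card_eq_fintype_card, Fintype.card_subtype]
      rw [← h2, hP]
    rw [← hScard]
    apply Finset.card_le_mul_card_image
    intro c hc
    obtain ⟨y₀, hy₀, rfl⟩ := Finset.mem_image.mp hc
    obtain ⟨-, hy₀P, hy₀1⟩ := Finset.mem_filter.mp hy₀
    set C' := (Subgroup.centralizer ((P : Subgroup G) : Set G)).subgroupOf T with hC'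
    haveI : Fintype (↥T ⧸ C') := Fintype.ofFinite _
    have hsub : S.filter (fun a => rep a = rep y₀) ⊆
        (Finset.univ : Finset (↥T ⧸ C')).image
          (fun q => (q.out : G) * y₀ * (q.out : G)⁻¹) := by
      intro y hy
      obtain ⟨hyS, hyc⟩ := Finset.mem_filter.mp hy
      have h1 : s.r y₀ y := by
        have h2 : s.r y₀ (rep y) := by
          rw [hyc]
          exact hrep' y₀
        exact s.trans h2 (hrep y)
      obtain ⟨t, ht, hty⟩ := h1
      obtain ⟨c, hc⟩ := QuotientGroup.mk_out_eq_mul C' (⟨t, ht⟩ : ↥T)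
      refine Finset.mem_image.mpr ⟨((⟨t, ht⟩ : ↥T) : ↥T ⧸ C'), Finset.mem_univ _, ?_⟩
      rw [hc]
      have hcc : (c : ↥T).1 ∈ Subgroup.centralizer ((P : Subgroup G) : Set G) :=
        Subgroup.mem_subgroupOf.mp c.2
      have hcomm : y₀ * (c : ↥T).1 = (c : ↥T).1 * y₀ :=
        Subgroup.mem_centralizer_iff.mp hcc y₀ hy₀P
      show t * (c : ↥T).1 * y₀ * (t * (c : ↥T).1)⁻¹ = y
      rw [← hty, mul_assoc t, ← hcomm]
      group
    calc (S.filter (fun a => rep a = rep y₀)).card
        ≤ _ := Finset.card_le_card hsub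
      _ ≤ (Finset.univ : Finset (↥T ⧸ C')).card := Finset.card_image_le
      _ = C'.index := by
        rw [Finset.card_univ, ← Nat.card_eq_fintype_card, ← Subgroup.index_eq_card]

/-- The lower bound from the two character-theoretic inputs. -/
theorem lower_bound_aux [Fintype G] (p : ℕ) [Fact p.Prime] (M : Ideal AlgInt)
    (hM : IsPModular p M) (P : Sylow p G) (hP : Nat.card P = p)
    (B : Set (IrrCharacter G)) (hB : IsPBlock M B)
    (θ : IrrCharacter (Subgroup.centralizer ((P : Subgroup G) : Set G)))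
    (T : Subgroup G)
    (H : Subgroup G) (hHN : H ≤ Subgroup.normalizer ((P : Subgroup G) : Set G))
    (hHp : ¬ p ∣ Nat.card H)
    (hPH : ∀ n ∈ Subgroup.normalizer ((P : Subgroup G) : Set G),
      ∃ a ∈ (P : Subgroup G), ∃ h ∈ H, n = a * h)
    (x : G) (hx : x ∈ (P : Subgroup G)) (hx1 : x ≠ 1) (e : ℕ)
    (hW : ∃ χ : Fin e → IrrCharacter ↥H, Function.Injective χ ∧
      ∀ j, MemLocalIdeal M
        (∑ᶠ h ∈ {h : ↥H | (h : G) ∈ Subgroup.centralizer ((P : Subgroup G) : Set G)},
          (∑ i ∈ Finset.range p, blockCoeff B (x ^ i * (h : G))) *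
            (χ j : ↥H → ℂ) h / (χ j : ↥H → ℂ) 1 - 1))
    (hSEC : ∃ (σ : G → G → AlgInt) (m : ℕ), ¬ p ∣ m ∧
      (∀ y g h, σ y (h * g * h⁻¹) = σ y g) ∧
      (∀ y ∈ (P : Subgroup G), y ≠ 1 → (fun g => ((σ y g : AlgInt) : ℂ)) ∈ spanB B) ∧
      (∀ y ∈ (P : Subgroup G), y ≠ 1 → ∀ g : G, ¬ p ∣ orderOf g → σ y g = 0) ∧
      (∀ y ∈ (P : Subgroup G), y ≠ 1 → ∀ y₀ ∈ (P : Subgroup G), y₀ ≠ 1 →
        (∃ t ∈ T, t * y₀ * t⁻¹ = y) →
        ∑ᶠ k ∈ {k : Subgroup.centralizer ((P : Subgroup G) : Set G) | ¬ p ∣ orderOf k},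
          conj ((θ : Subgroup.centralizer ((P : Subgroup G) : Set G) → ℂ) k) *
            ((σ y (y₀ * (k : G)) : AlgInt) : ℂ) = (m : ℂ)) ∧
      (∀ y ∈ (P : Subgroup G), y ≠ 1 → ∀ y₀ ∈ (P : Subgroup G), y₀ ≠ 1 →
        (¬ ∃ t ∈ T, t * y₀ * t⁻¹ = y) →
        ∑ᶠ k ∈ {k : Subgroup.centralizer ((P : Subgroup G) : Set G) | ¬ p ∣ orderOf k},
          conj ((θ : Subgroup.centralizer ((P : Subgroup G) : Set G) → ℂ) k) *
            ((σ y (y₀ * (k : G)) : AlgInt) : ℂ) = 0))
    (Q : Finset G) (hQ1 : ∀ y ∈ Q, y ∈ (P : Subgroup G) ∧ y ≠ 1)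
    (hQ2 : ∀ y ∈ Q, ∀ y' ∈ Q, (∃ t ∈ T, t * y' * t⁻¹ = y) → y' = y) :
    e + Q.card ≤ Nat.card B := by
  classical
  have hp : p.Prime := Fact.out
  have hz : Subgroup.zpowers x = (P : Subgroup G) := zpowers_eq P hP hx hx1
  have hord : orderOf x = p := orderOf_eq P hP hx hx1
  haveI hmax : M.IsMaximal := hM.2.1
  letI : Field (AlgInt ⧸ M) := Ideal.Quotient.field M
  haveI : IsAlgClosed (AlgInt ⧸ M) := isAlgClosed_quot M
  let ρ : AlgInt →+* (AlgInt ⧸ M) := Ideal.Quotient.mk M
  have hρs : Function.Surjective ρ := Ideal.Quotient.mk_surjective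
  have hker : ∀ a, ρ a = 0 ↔ a ∈ M := fun a => Ideal.Quotient.eq_zero_iff_mem
  haveI hchar : CharP (AlgInt ⧸ M) p := by
    have h0 : ((p : ℕ) : AlgInt ⧸ M) = 0 := by
      have h1 : ρ ((p : ℕ) : AlgInt) = 0 := (hker _).mpr hM.2.2
      simpa using h1
    have hd : ringChar (AlgInt ⧸ M) ∣ p := ringChar.dvd h0
    have h1 : ringChar (AlgInt ⧸ M) ≠ 1 := CharP.ringChar_ne_one
    have h2 : ringChar (AlgInt ⧸ M) = p := by
      rcases (Nat.dvd_prime hp).mp hd with h | h
      · exact absurd h h1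
      · exact h
    exact ringChar.of_eq h2
  have hMp : M.IsPrime := isPrime_of_isPModular hM
  have hloc : ∀ g, MemLocalRing M (blockCoeff B g) :=
    fun g => blockCoeff_memLocalRing p M hM B hB g
  obtain ⟨d, hd, e', he'⟩ := exists_den M hMp (blockCoeff B) hloc
  have hd0 := rho_d_ne ρ M hker B d hd e' he'
  set cb : G → AlgInt ⧸ M := fun g => (ρ d)⁻¹ * ρ (e' g) with hcb
  have hcbred : ∀ g, cb g = red ρ M (blockCoeff B g) := by
    intro g
    have hdC : (d : ℂ) ≠ 0 := coe_ne_zero_of_not_mem hd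
    rw [red_eq hker hd (a := e' g) (by rw [he' g]; field_simp)]
    show (ρ d)⁻¹ * ρ (e' g) = ρ (e' g) / ρ d
    rw [div_eq_inv_mul]
  have hcbfun : cb = fun g => red ρ M (blockCoeff B g) := funext hcbred
  have hconj : ∀ g h, cb (h * g * h⁻¹) = cb g := by
    intro g h
    rw [hcbred, hcbred, blockCoeff_conj]
  have hidem : wsum cb * wsum cb = wsum cb := by
    rw [wsum_mul_wsum]
    congr 1
    funext g
    simp only [hcbred]
    rw [← blockCoeff_idem B g, red_sum hker _ _ (fun y _ => memLocalRing_mul hMp (hloc y) (hloc _))]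
    exact Finset.sum_congr rfl fun y _ => (red_mul hker (hloc y) (hloc _)).symm
  have hNx : Nx x = Subgroup.normalizer ((P : Subgroup G) : Set G) := by
    show Subgroup.normalizer ((Subgroup.zpowers x : Subgroup G) : Set G) = _
    rw [hz]
  have hHNx : H ≤ Nx x := by
    rw [hNx]
    exact hHN
  have hS : Setup (AlgInt ⧸ M) p x H := by
    refine ⟨hp, hchar, hord, hHNx, ?_, ?_, ?_⟩
    · rw [Ne, CharP.cast_eq_zero_iff (AlgInt ⧸ M) p]
      exact hHp
    · intro n hn
      rw [hNx] at hn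
      obtain ⟨a, ha, h, hh, rfl⟩ := hPH n hn
      rw [← hz] at ha
      obtain ⟨j, rfl⟩ := exists_pow_of_mem_zpowers ha
      exact ⟨j, h, hh, rfl⟩
    · intro g hg
      rw [hNx] at hg ⊢
      exact hTI P hP hx hx1 g hg
  haveI : Fintype ↥H := Fintype.ofFinite _
  have hcardk : (Nat.card ↥H : AlgInt ⧸ M) ≠ 0 := by
    rw [Ne, CharP.cast_eq_zero_iff (AlgInt ⧸ M) p]
    exact hHp
  obtain ⟨χ, hχinj, hχω⟩ := hW
  have hbcloc : ∀ j (h : ↥H), MemLocalRing M (blockCoeff ({χ j} : Set (IrrCharacter ↥H)) h) :=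
    fun j h => memLocalRing_singleton hker hcardk (χ j) h
  let E : Fin e → MonoidAlgebra (AlgInt ⧸ M) ↥H := fun j =>
    wsum (fun h : ↥H => red ρ M (blockCoeff ({χ j} : Set (IrrCharacter ↥H)) h))
  have hEidem : ∀ j, E j * E j = E j := by
    intro j
    show wsum _ * wsum _ = wsum _
    rw [wsum_mul_wsum]
    congr 1
    funext g
    rw [← blockCoeff_idem ({χ j} : Set (IrrCharacter ↥H)) g,
      red_sum hker _ _ (fun y _ => memLocalRing_mul hMp (hbcloc j y) (hbcloc j _))]
    exact Finset.sum_congr rfl fun y _ => (red_mul hker (hbcloc j y) (hbcloc j _)).symm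
  have hEcen : ∀ j z, E j * z = z * E j := by
    intro j z
    exact wsum_central _ (fun g h => by rw [blockCoeff_conj]) z
  have hEorth : ∀ i j, i ≠ j → E i * E j = 0 := by
    intro i j hij
    show wsum _ * wsum _ = 0
    rw [wsum_mul_wsum]
    have h0 : (fun g : ↥H => ∑ y : ↥H, red ρ M (blockCoeff ({χ i} : Set (IrrCharacter ↥H)) y) *
        red ρ M (blockCoeff ({χ j} : Set (IrrCharacter ↥H)) (y⁻¹ * g))) = fun _ => 0 := by
      funext g
      have h1 := blockCoeff_orth (χ i) (χ j) (fun h => hij (hχinj h)) g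
      have h2 := red_sum (ρ := ρ) hker Finset.univ
        (fun y : ↥H => blockCoeff ({χ i} : Set (IrrCharacter ↥H)) y *
          blockCoeff ({χ j} : Set (IrrCharacter ↥H)) (y⁻¹ * g))
        (fun y _ => memLocalRing_mul hMp (hbcloc i y) (hbcloc j _))
      rw [h1, red_zero hker] at h2
      rw [h2]
      exact Finset.sum_congr rfl fun y _ => (red_mul hker (hbcloc i y) (hbcloc j _)).symm
    rw [h0]
    unfold wsum
    simp
  let ε : Fin e → MonoidAlgebra (AlgInt ⧸ M) G := fun j => emb H (E j)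
  have hε : ∀ j, IsWtE p x H (ε j) :=
    fun j => isWtE_emb hord hp.pos hHNx (E j) (hEidem j) (hEcen j)
  have horth : ∀ i j, i ≠ j → ε i * ε j = 0 := by
    intro i j hij
    show emb H (E i) * emb H (E j) = 0
    rw [← map_mul, hEorth i j hij, map_zero]
  have hwit : ∀ j, (wsum cb * NPel (AlgInt ⧸ M) x p * ε j).coeff 1 ≠ 0 := by
    intro j
    rw [hcbfun]
    exact wit_ne_zero hker p hord H hHNx hHp
      (Subgroup.centralizer ((P : Subgroup G) : Set G))
      (fun g => mem_centralizer_iff P hP hx hx1 g) (blockCoeff B) hloc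
      (fun g h => blockCoeff_conj B h g) (χ j) (hχω j)
  obtain ⟨τ, hτc, hτi, hτu, hτl⟩ := exists_tracesE hS hconj hidem ε hε horth hwit
  obtain ⟨σ, m, hm, hσc, hσspan, hσreg, hσ1, hσ0⟩ := hSEC
  have hmk : ((m : ℕ) : AlgInt ⧸ M) ≠ 0 := by
    rw [Ne, CharP.cast_eq_zero_iff (AlgInt ⧸ M) p]
    exact hm
  haveI : Fintype ↥(Subgroup.centralizer ((P : Subgroup G) : Set G)) := Fintype.ofFinite _
  let θc : ↥(Subgroup.centralizer ((P : Subgroup G) : Set G)) → AlgInt := fun k =>
    ⟨conj ((θ : ↥(Subgroup.centralizer ((P : Subgroup G) : Set G)) → ℂ) k), by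
      rw [← char_apply_inv (isCharacter_of_irr θ.2)]
      exact isIntegral_irrCharacter θ k⁻¹⟩
  let Kreg : Finset ↥(Subgroup.centralizer ((P : Subgroup G) : Set G)) :=
    Finset.univ.filter (fun k => ¬ p ∣ orderOf k)
  have key := bridge ρ hρs M hker B d hd e' he'
    (ι := Fin e ⊕ {y // y ∈ Q})
    (Sum.elim τ (fun q g => ρ (σ q.1 g))) ?_ ?_ ?_
  · rw [Fintype.card_sum, Fintype.card_fin, Fintype.card_coe] at key
    exact key
  · rintro (i | q) g h
    · exact hτc i g h
    · show ρ (σ q.1 (h * g * h⁻¹)) = ρ (σ q.1 g)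
      rw [hσc]
  · rintro (i | q) g
    · exact hτi i g
    · exact inv_of_mem_span ρ M hker B d hd e' he' (σ q.1)
        (hσspan q.1 (hQ1 q.1 q.2).1 (hQ1 q.1 q.2).2) g
  · intro a ha
    have hsplit : ∀ g, ∑ i, a (Sum.inl i) * τ i g +
        ∑ q : {y // y ∈ Q}, a (Sum.inr q) * ρ (σ q.1 g) = 0 := by
      intro g
      have h1 := ha g
      rw [Fintype.sum_sum_type] at h1
      exact h1
    have hreg : ∀ k ∈ Kreg, ∑ i, a (Sum.inl i) * τ i (k : G) = 0 := by
      intro k hk
      have hk' : ¬ p ∣ orderOf (k : G) := by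
        rw [Subgroup.orderOf_coe]
        exact (Finset.mem_filter.mp hk).2
      have h2 := hsplit (k : G)
      have h3 : ∑ q : {y // y ∈ Q}, a (Sum.inr q) * ρ (σ q.1 (k : G)) = 0 := by
        apply Finset.sum_eq_zero
        intro q _
        rw [hσreg q.1 (hQ1 q.1 q.2).1 (hQ1 q.1 q.2).2 (k : G) hk', map_zero, mul_zero]
      rw [h3, add_zero] at h2
      exact h2
    have hr : ∀ q : {y // y ∈ Q}, a (Sum.inr q) = 0 := by
      intro q
      obtain ⟨hqP, hq1⟩ := hQ1 q.1 q.2
      have hqp : q.1 ^ p = 1 := by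
        rw [← orderOf_eq P hP hqP hq1]
        exact pow_orderOf_eq_one _
      have hsing : ∀ k ∈ Kreg,
          ∑ q' : {y // y ∈ Q}, a (Sum.inr q') * ρ (σ q'.1 (q.1 * (k : G))) = 0 := by
        intro k hk
        have h2 := hsplit (q.1 * (k : G))
        have hcomm : q.1 * (k : G) = (k : G) * q.1 :=
          Subgroup.mem_centralizer_iff.mp k.2 q.1 hqP
        have h3 : ∑ i, a (Sum.inl i) * τ i (q.1 * (k : G)) = 0 := by
          rw [← hreg k hk]
          exact Finset.sum_congr rfl fun i _ => by rw [hτu i q.1 (k : G) hqp hcomm]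
        rw [h3, zero_add] at h2
        exact h2
      have hS' : ∀ q' : {y // y ∈ Q},
          ρ (∑ k ∈ Kreg, θc k * σ q'.1 (q.1 * (k : G))) =
            if q' = q then ((m : ℕ) : AlgInt ⧸ M) else 0 := by
        intro q'
        obtain ⟨hq'P, hq'1⟩ := hQ1 q'.1 q'.2
        have hcoe : ((∑ k ∈ Kreg, θc k * σ q'.1 (q.1 * (k : G)) : AlgInt) : ℂ) =
            ∑ᶠ k ∈ {k : Subgroup.centralizer ((P : Subgroup G) : Set G) | ¬ p ∣ orderOf k},
              conj ((θ : Subgroup.centralizer ((P : Subgroup G) : Set G) → ℂ) k) *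
                ((σ q'.1 (q.1 * (k : G)) : AlgInt) : ℂ) := by
          rw [Cfsg.Agent.Lib.CT.ColumnId.finsum_mem_eq_sum, ← Finset.sum_filter]
          push_cast
          rfl
        by_cases hqq : q' = q
        · rw [if_pos hqq]
          have h1 := hσ1 q'.1 hq'P hq'1 q.1 hqP hq1 ⟨1, T.one_mem, by rw [hqq]; simp⟩
          have h2 : (∑ k ∈ Kreg, θc k * σ q'.1 (q.1 * (k : G)) : AlgInt) = ((m : ℕ) : AlgInt) := by
            apply Subtype.ext
            rw [hcoe, h1]
            simp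
          rw [h2, map_natCast]
        · rw [if_neg hqq]
          have hnot : ¬ ∃ t ∈ T, t * q.1 * t⁻¹ = q'.1 := by
            intro hc
            apply hqq
            apply Subtype.ext
            exact (hQ2 q'.1 q'.2 q.1 q.2 hc).symm
          have h1 := hσ0 q'.1 hq'P hq'1 q.1 hqP hq1 hnot
          have h2 : (∑ k ∈ Kreg, θc k * σ q'.1 (q.1 * (k : G)) : AlgInt) = 0 := by
            apply Subtype.ext
            rw [hcoe, h1]
            simp
          rw [h2, map_zero]
      have h4 : ∑ k ∈ Kreg, ρ (θc k) *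
          ∑ q' : {y // y ∈ Q}, a (Sum.inr q') * ρ (σ q'.1 (q.1 * (k : G))) = 0 :=
        Finset.sum_eq_zero fun k hk => by rw [hsing k hk, mul_zero]
      have h5 : ∑ k ∈ Kreg, ρ (θc k) *
          ∑ q' : {y // y ∈ Q}, a (Sum.inr q') * ρ (σ q'.1 (q.1 * (k : G))) =
          ∑ q' : {y // y ∈ Q}, a (Sum.inr q') *
            ρ (∑ k ∈ Kreg, θc k * σ q'.1 (q.1 * (k : G))) := by
        simp_rw [Finset.mul_sum, map_sum, Finset.mul_sum]
        rw [Finset.sum_comm]
        refine Finset.sum_congr rfl fun q' _ => Finset.sum_congr rfl fun k _ => ?_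
        rw [map_mul]
        ring
      rw [h5] at h4
      simp_rw [hS'] at h4
      rw [Finset.sum_eq_single q] at h4
      · rw [if_pos rfl] at h4
        exact (mul_eq_zero.mp h4).resolve_right hmk
      · intro q' _ hne
        rw [if_neg hne, mul_zero]
      · intro h
        exact absurd (Finset.mem_univ _) h
    have hl' : ∀ i, a (Sum.inl i) = 0 := by
      apply hτl (fun i => a (Sum.inl i))
      intro g
      have h2 := hsplit g
      have h3 : ∑ q : {y // y ∈ Q}, a (Sum.inr q) * ρ (σ q.1 g) = 0 := by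
        apply Finset.sum_eq_zero
        intro q _
        rw [hr q, zero_mul]
      rw [h3, add_zero] at h2
      exact h2
    rintro (i | q)
    · exact hl' i
    · exact hr q

end Cfsg.Agent.Lib.Helper17.BqLower
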