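import Mathlib
import Cfsg.Agent.Lib.Helper17.BqGal
import Cfsg.Agent.Lib.Helper76.GaloisConj
import Cfsg.Agent.Lib.Helper80.GaloisRat

/-!
# Galois conjugation of characters as power maps

* `map_char_pow`: an automorphism of `ℂ` raising the `orderOf g`-th roots of unity to the power
  `a` maps `χ g` to `χ (g ^ a)`.
* `exists_exponent`: every automorphism of `ℂ` acts on the `n`-th roots of unity as a power map.
* `pconj_iff`: `ψ = σ ∘ χ` for an automorphism `σ` of `ℂ` fixing `exp (2πi/m)`, `m ∣ |G|`, iff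
  `ψ = χ (· ^ a)` for some `a` prime to `|G|` with `a ≡ 1 [MOD m]`.
-/

set_option autoImplicit false
set_option linter.style.haveILetI false

namespace Cfsg.Agent.Lib.Helper17.BqPow

open Cfsg Cfsg.Agent.Lib.Helper3.Spectral Cfsg.Agent.Lib.Helper80.Deg2p

universe u
variable {G : Type u} [Group G] [Finite G]

theorem map_char_pow {χ : G → ℂ} (hχ : IsCharacter G χ) (σ : ℂ ≃+* ℂ) (a : ℕ) (g : G)
    (hσ : ∀ μ : ℂ, μ ^ orderOf g = 1 → σ μ = μ ^ a) : σ (χ g) = χ (g ^ a) := by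
  obtain ⟨n, ρ, rfl⟩ := hχ
  obtain ⟨b, μ, hb, hμ⟩ := exists_eigenbasis ρ g
  have h1 : ρ.character g = ∑ t, μ t := trace_eq_sum_of_eigenbasis b (ρ g) μ hb
  have h2 : ρ.character (g ^ a) = ∑ t, μ t ^ a := by
    show LinearMap.trace ℂ _ (ρ (g ^ a)) = _
    apply trace_eq_sum_of_eigenbasis b
    intro t
    rw [map_pow]
    exact pow_apply_eigen (ρ g) (b t) (μ t) (hb t) a
  rw [h1, h2, map_sum]
  exact Finset.sum_congr rfl fun t _ => hσ (μ t) (hμ t)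

/-- Every automorphism of `ℂ` acts on the `n`-th roots of unity as a power map. -/
theorem exists_exponent (n : ℕ) (hn : n ≠ 0) (σ : ℂ ≃+* ℂ) :
    ∃ a : ℕ, a.Coprime n ∧ ∀ μ : ℂ, μ ^ n = 1 → σ μ = μ ^ a := by
  haveI : NeZero n := ⟨hn⟩
  have hζ := Complex.isPrimitiveRoot_exp n hn
  have hσζ : IsPrimitiveRoot (σ (Complex.exp (2 * Real.pi * Complex.I / (n : ℂ)))) n :=
    hζ.map_of_injective σ.injective
  obtain ⟨a, -, ha⟩ := hζ.eq_pow_of_pow_eq_one hσζ.pow_eq_one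
  have hac : a.Coprime n := (hζ.pow_iff_coprime (Nat.pos_of_ne_zero hn) a).mp (ha ▸ hσζ)
  refine ⟨a, hac, fun μ hμ => ?_⟩
  obtain ⟨i, -, rfl⟩ := hζ.eq_pow_of_pow_eq_one hμ
  rw [map_pow, ← ha, ← pow_mul, ← pow_mul, Nat.mul_comm]

theorem pow_eq_of_modEq {ζ : ℂ} {m a b : ℕ} (hζ : ζ ^ m = 1) (h : a ≡ b [MOD m]) :
    ζ ^ a = ζ ^ b := by
  have e : ∀ c : ℕ, ζ ^ c = ζ ^ (c % m) := by
    intro c
    conv_lhs => rw [← Nat.mod_add_div c m]
    rw [pow_add, pow_mul, hζ, one_pow, mul_one]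
  rw [e a, e b, h]

theorem exponent_modEq (n m a : ℕ) (hn : n ≠ 0) (hm : m ∣ n) (σ : ℂ ≃+* ℂ)
    (hσ : ∀ μ : ℂ, μ ^ n = 1 → σ μ = μ ^ a)
    (hfix : σ (Complex.exp (2 * Real.pi * Complex.I / (m : ℕ))) =
      Complex.exp (2 * Real.pi * Complex.I / (m : ℕ))) : a ≡ 1 [MOD m] := by
  have hm0 : m ≠ 0 := fun h => hn (by rw [h] at hm; exact Nat.eq_zero_of_zero_dvd hm)
  have hζ := Complex.isPrimitiveRoot_exp m hm0
  have h1 : Complex.exp (2 * Real.pi * Complex.I / (m : ℂ)) ^ n = 1 := by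
    obtain ⟨c, rfl⟩ := hm
    rw [pow_mul, hζ.pow_eq_one, one_pow]
  have h2 := hσ _ h1
  rw [hfix] at h2
  have hζ0 : Complex.exp (2 * Real.pi * Complex.I / (m : ℂ)) ≠ 0 := Complex.exp_ne_zero _
  have h3 : (m : ℤ) ∣ (a : ℤ) - 1 := by
    apply (hζ.zpow_eq_one_iff_dvd _).mp
    rw [zpow_sub₀ hζ0, zpow_natCast, zpow_one, ← h2, div_self hζ0]
  exact Int.natCast_modEq_iff.mp (Int.modEq_iff_dvd.mpr h3).symm

theorem fix_of_modEq (n m a : ℕ) (hm : m ∣ n) (σ : ℂ ≃+* ℂ)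
    (hσ : ∀ μ : ℂ, μ ^ n = 1 → σ μ = μ ^ a) (ha : a ≡ 1 [MOD m]) (hm0 : m ≠ 0) :
    σ (Complex.exp (2 * Real.pi * Complex.I / (m : ℕ))) =
      Complex.exp (2 * Real.pi * Complex.I / (m : ℕ)) := by
  have hζ := Complex.isPrimitiveRoot_exp m hm0
  have h1 : Complex.exp (2 * Real.pi * Complex.I / (m : ℂ)) ^ n = 1 := by
    obtain ⟨c, rfl⟩ := hm
    rw [pow_mul, hζ.pow_eq_one, one_pow]
  rw [hσ _ h1]
  have h3 : Complex.exp (2 * Real.pi * Complex.I / (m : ℂ)) ^ a =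
      Complex.exp (2 * Real.pi * Complex.I / (m : ℂ)) ^ 1 :=
    pow_eq_of_modEq hζ.pow_eq_one ha
  rw [h3, pow_one]

/-- Characterization of Galois conjugacy over the `m`-th cyclotomic field by power maps. -/
theorem pconj_iff (m : ℕ) (hm : m ∣ Nat.card G) (χ ψ : G → ℂ) (hχ : IsCharacter G χ) :
    (∃ σ : ℂ ≃+* ℂ, σ (Complex.exp (2 * Real.pi * Complex.I / (m : ℕ))) =
        Complex.exp (2 * Real.pi * Complex.I / (m : ℕ)) ∧ ψ = fun g => σ (χ g)) ↔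
      ∃ a : ℕ, a.Coprime (Nat.card G) ∧ a ≡ 1 [MOD m] ∧ ∀ g, ψ g = χ (g ^ a) := by
  have hn : Nat.card G ≠ 0 := Nat.card_pos.ne'
  have hm0 : m ≠ 0 := fun h => hn (by rw [h] at hm; exact Nat.eq_zero_of_zero_dvd hm)
  have hord : ∀ (g : G) (μ : ℂ), μ ^ orderOf g = 1 → μ ^ Nat.card G = 1 := by
    intro g μ hμ
    obtain ⟨c, hc⟩ := orderOf_dvd_natCard g
    rw [hc, pow_mul, hμ, one_pow]
  constructor
  · rintro ⟨σ, hfix, rfl⟩
    obtain ⟨a, hac, ha⟩ := exists_exponent (Nat.card G) hn σ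
    refine ⟨a, hac, exponent_modEq _ m a hn hm σ ha hfix, fun g => ?_⟩
    exact map_char_pow hχ σ a g fun μ hμ => ha μ (hord g μ hμ)
  · rintro ⟨a, hac, ham, hψ⟩
    obtain ⟨σ, hσ⟩ := Cfsg.Agent.Lib.Helper17.BqGal.exists_aut (Nat.card G) hn a hac
    refine ⟨σ, fix_of_modEq _ m a hm σ hσ ham hm0, ?_⟩
    funext g
    rw [hψ g]
    exact (map_char_pow hχ σ a g fun μ hμ => hσ μ (hord g μ hμ)).symm

end Cfsg.Agent.Lib.Helper17.BqPow
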