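import Mathlib
import Cfsg.Agent.Lib.Helper80.DefOneCol
import Cfsg.Agent.Lib.Helper74.DefOneRow1
import Cfsg.Agent.Lib.Helper15.CosetAvg
import Cfsg.Agent.Lib.CT.Orth

/-!
# Expansion of a class function at `u * k`, `u ∈ P`, `k ∈ C_G(P)` `p`-regular

For a Sylow `p`-subgroup `P` of order `p` with centralizer `C`, `u ∈ P` and `k ∈ C` `p`-regular,
the value `χ (u * k)` of a class function `χ` of `G` is `p` times the sum, over the irreducible
characters `ξ` of `C` with `P` in the kernel, of the section coefficient of `χ` at `u` against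
`ξ` times `ξ k`.  (Generalizes `Helper74.DefOneRow1.value_eq_sum`, same proof.)
-/

set_option autoImplicit false
set_option linter.unusedSectionVars false
set_option linter.style.haveILetI false
set_option maxHeartbeats 1000000

namespace Cfsg.Agent.Lib.Helper17.BqRow

open Cfsg
open scoped ComplexConjugate

universe u

theorem value_eq_sum_mul {G : Type u} [Group G] {p : ℕ} [Fact p.Prime] [Fintype G] (P : Sylow p G)
    (hP : Nat.card P = p)
    [Fintype ↥(Subgroup.centralizer ((P : Subgroup G) : Set G))] [Fintype ↥(P : Subgroup G)]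
    [Fintype (IrrCharacter ↥(Subgroup.centralizer ((P : Subgroup G) : Set G)))]
    (π : ↥(Subgroup.centralizer ((P : Subgroup G) : Set G)) →* ↥(P : Subgroup G))
    (hπP : ∀ c : ↥(Subgroup.centralizer ((P : Subgroup G) : Set G)),
      (c : G) ∈ (P : Subgroup G) → ((π c : ↥(P : Subgroup G)) : G) = (c : G))
    (hπreg : ∀ c : ↥(Subgroup.centralizer ((P : Subgroup G) : Set G)), π c = 1 ↔ ¬ p ∣ orderOf c)
    [DecidablePred fun ξ : IrrCharacter ↥(Subgroup.centralizer ((P : Subgroup G) : Set G)) =>
      ∀ x : ↥(Subgroup.centralizer ((P : Subgroup G) : Set G)), (x : G) ∈ (P : Subgroup G) →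
        (ξ : ↥(Subgroup.centralizer ((P : Subgroup G) : Set G)) → ℂ) x =
          (ξ : ↥(Subgroup.centralizer ((P : Subgroup G) : Set G)) → ℂ) 1]
    (χ : G → ℂ) (hχ : IsClassFunction G χ) (u : G) (hu : u ∈ (P : Subgroup G))
    (k : ↥(Subgroup.centralizer ((P : Subgroup G) : Set G))) (hk : ¬ p ∣ orderOf k) :
    χ (u * (k : G)) = ∑ ξ : IrrCharacter ↥(Subgroup.centralizer ((P : Subgroup G) : Set G)),
      (if (∀ x : ↥(Subgroup.centralizer ((P : Subgroup G) : Set G)), (x : G) ∈ (P : Subgroup G) →
        (ξ : ↥(Subgroup.centralizer ((P : Subgroup G) : Set G)) → ℂ) x =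
          (ξ : ↥(Subgroup.centralizer ((P : Subgroup G) : Set G)) → ℂ) 1)
      then (p : ℂ) * Cfsg.Agent.Lib.Helper80.DefOneCol.sec P
        (ξ : ↥(Subgroup.centralizer ((P : Subgroup G) : Set G)) → ℂ) χ u *
          (ξ : ↥(Subgroup.centralizer ((P : Subgroup G) : Set G)) → ℂ) k else 0) := by
  classical
  -- the class function `F` on `C`
  obtain ⟨F, hFdef⟩ : ∃ F : ↥(Subgroup.centralizer ((P : Subgroup G) : Set G)) → ℂ,
      ∀ c, F c = χ (u * (((π c : ↥(P : Subgroup G)) : G)⁻¹ * (c : G))) := ⟨_, fun c => rfl⟩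
  have hcent : ∀ (d : ↥(Subgroup.centralizer ((P : Subgroup G) : Set G))) (w : G),
      w ∈ (P : Subgroup G) → w * (d : G) = (d : G) * w := by
    intro d w hw
    exact (Subgroup.mem_centralizer_iff.1 d.2) w hw
  have hF : IsClassFunction ↥(Subgroup.centralizer ((P : Subgroup G) : Set G)) F := by
    intro c d
    rw [hFdef, hFdef]
    have e1 : π (d * c * d⁻¹) = π c := by
      rw [map_mul, map_mul, map_inv]
      apply Subtype.ext
      have := Cfsg.Agent.Lib.Helper80.DefOneLoc.comm_of_mem P hP (π d).2 (π c).2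
      push_cast
      rw [this, mul_inv_cancel_right]
    rw [e1]
    have h1 := hcent d u hu
    have h2 := hcent d ((π c : ↥(P : Subgroup G)) : G)⁻¹ ((P : Subgroup G).inv_mem (π c).2)
    have e2 : u * (((π c : ↥(P : Subgroup G)) : G)⁻¹ * ((d * c * d⁻¹ :
        ↥(Subgroup.centralizer ((P : Subgroup G) : Set G))) : G)) =
        (d : G) * (u * (((π c : ↥(P : Subgroup G)) : G)⁻¹ * (c : G))) * (d : G)⁻¹ := by
      push_cast
      calc u * (((π c : ↥(P : Subgroup G)) : G)⁻¹ * ((d : G) * (c : G) * (d : G)⁻¹))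
          = u * ((((π c : ↥(P : Subgroup G)) : G)⁻¹ * (d : G)) * (c : G) * (d : G)⁻¹) := by group
        _ = u * (((d : G) * ((π c : ↥(P : Subgroup G)) : G)⁻¹) * (c : G) * (d : G)⁻¹) := by rw [h2]
        _ = (u * (d : G)) * (((π c : ↥(P : Subgroup G)) : G)⁻¹ * (c : G)) * (d : G)⁻¹ := by group
        _ = ((d : G) * u) * (((π c : ↥(P : Subgroup G)) : G)⁻¹ * (c : G)) * (d : G)⁻¹ := by rw [h1]
        _ = (d : G) * (u * (((π c : ↥(P : Subgroup G)) : G)⁻¹ * (c : G))) * (d : G)⁻¹ := by group
    rw [e2, hχ]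
  have hF1 : F k = χ (u * (k : G)) := by
    rw [hFdef, (hπreg k).2 hk]
    simp
  rw [← hF1, Cfsg.Agent.Lib.CT.Orth.classFunction_expand_sum F hF k]
  refine Finset.sum_congr rfl fun ξ _ => ?_
  -- the inner product of `F` with `ξ`
  have hinner : classInner F (ξ : ↥(Subgroup.centralizer ((P : Subgroup G) : Set G)) → ℂ) =
      (Nat.card ↥(Subgroup.centralizer ((P : Subgroup G) : Set G)) : ℂ)⁻¹ *
        ∑ r : ↥(Subgroup.centralizer ((P : Subgroup G) : Set G)),
          (if p ∣ orderOf r then 0 else χ (u * (r : G)) *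
            conj (∑ z : ↥(P : Subgroup G),
              (ξ : ↥(Subgroup.centralizer ((P : Subgroup G) : Set G)) → ℂ)
                (Cfsg.Agent.Lib.Helper80.DefOneLoc.inc P hP z * r))) := by
    unfold classInner
    rw [Cfsg.Agent.Lib.Helper80.DefOneLoc.sum_decomp P hP π hπP hπreg
      (fun c => F c * conj ((ξ : ↥(Subgroup.centralizer ((P : Subgroup G) : Set G)) → ℂ) c)),
      Finset.sum_comm]
    congr 1
    refine Finset.sum_congr rfl fun r _ => ?_
    by_cases hr : p ∣ orderOf r
    · simp [hr]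
    · simp only [if_neg hr]
      rw [map_sum, Finset.mul_sum]
      refine Finset.sum_congr rfl fun z _ => ?_
      congr 1
      rw [hFdef]
      have e3 : π (Cfsg.Agent.Lib.Helper80.DefOneLoc.inc P hP z * r) = z := by
        rw [map_mul, Cfsg.Agent.Lib.Helper80.DefOneLoc.proj_inc P hP π hπP, (hπreg r).2 hr,
          mul_one]
      rw [e3]
      congr 1
      rw [Subgroup.coe_mul, Cfsg.Agent.Lib.Helper80.DefOneLoc.inc_coe, inv_mul_cancel_left]
  rw [hinner]
  by_cases hker : ∀ x : ↥(Subgroup.centralizer ((P : Subgroup G) : Set G)),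
      (x : G) ∈ (P : Subgroup G) →
        (ξ : ↥(Subgroup.centralizer ((P : Subgroup G) : Set G)) → ℂ) x =
          (ξ : ↥(Subgroup.centralizer ((P : Subgroup G) : Set G)) → ℂ) 1
  · rw [if_pos hker]
    unfold Cfsg.Agent.Lib.Helper80.DefOneCol.sec
    have e4 : ∀ r : ↥(Subgroup.centralizer ((P : Subgroup G) : Set G)),
        (if p ∣ orderOf r then (0 : ℂ) else χ (u * (r : G)) *
            conj (∑ z : ↥(P : Subgroup G),
              (ξ : ↥(Subgroup.centralizer ((P : Subgroup G) : Set G)) → ℂ)
                (Cfsg.Agent.Lib.Helper80.DefOneLoc.inc P hP z * r))) =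
          (p : ℂ) * (if p ∣ orderOf r then 0 else χ (u * (r : G)) *
            conj ((ξ : ↥(Subgroup.centralizer ((P : Subgroup G) : Set G)) → ℂ) r)) := by
      intro r
      by_cases hr : p ∣ orderOf r
      · simp [hr]
      · simp only [if_neg hr]
        have e5 : ∀ z : ↥(P : Subgroup G),
            (ξ : ↥(Subgroup.centralizer ((P : Subgroup G) : Set G)) → ℂ)
              (Cfsg.Agent.Lib.Helper80.DefOneLoc.inc P hP z * r) =
            (ξ : ↥(Subgroup.centralizer ((P : Subgroup G) : Set G)) → ℂ) r := fun z =>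
          Cfsg.Agent.Lib.CT.Kernel.apply_mul_of_eq
            (Cfsg.Agent.Lib.Helper3.Irr.IsIrrCharacter.isCharacter ξ.2)
            (hker (Cfsg.Agent.Lib.Helper80.DefOneLoc.inc P hP z) z.2) r
        simp_rw [e5]
        rw [Finset.sum_const, Finset.card_univ, ← Nat.card_eq_fintype_card, hP, nsmul_eq_mul,
          map_mul, map_natCast]
        ring
    simp_rw [e4]
    rw [← Finset.mul_sum]
    ring
  · rw [if_neg hker]
    have e6 : ∀ r : ↥(Subgroup.centralizer ((P : Subgroup G) : Set G)),
        ∑ z : ↥(P : Subgroup G),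
          (ξ : ↥(Subgroup.centralizer ((P : Subgroup G) : Set G)) → ℂ)
            (Cfsg.Agent.Lib.Helper80.DefOneLoc.inc P hP z * r) = 0 := by
      intro r
      have hle := Cfsg.Agent.Lib.Helper80.DefOneLoc.le_centralizer P hP
      haveI hN : ((P : Subgroup G).subgroupOf
          (Subgroup.centralizer ((P : Subgroup G) : Set G))).Normal := by
        constructor
        intro n hn g
        have hn' : (n : G) ∈ (P : Subgroup G) := Subgroup.mem_subgroupOf.1 hn
        have : g * n * g⁻¹ = n := by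
          apply Subtype.ext
          push_cast
          rw [← hcent g (n : G) hn', mul_inv_cancel_right]
        rw [this]
        exact hn
      haveI : Fintype ((P : Subgroup G).subgroupOf
          (Subgroup.centralizer ((P : Subgroup G) : Set G))) := Fintype.ofFinite _
      have hnt : ¬ ∀ n : ((P : Subgroup G).subgroupOf
          (Subgroup.centralizer ((P : Subgroup G) : Set G))),
          (ξ : ↥(Subgroup.centralizer ((P : Subgroup G) : Set G)) → ℂ) n =
            (ξ : ↥(Subgroup.centralizer ((P : Subgroup G) : Set G)) → ℂ) 1 := by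
        intro hh
        apply hker
        intro x hx
        exact hh ⟨x, Subgroup.mem_subgroupOf.2 hx⟩
      have h0 := Cfsg.Agent.Lib.Helper15.CosetAvg.sum_coset_irr_of_not_trivial
        ((P : Subgroup G).subgroupOf (Subgroup.centralizer ((P : Subgroup G) : Set G)))
        ξ.2 hnt r
      rw [← h0]
      refine (Fintype.sum_equiv (Subgroup.subgroupOfEquivOfLe hle).toEquiv _ _ fun n => ?_).symm
      congr 2
    simp_rw [e6]
    simp

end Cfsg.Agent.Lib.Helper17.BqRow
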