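import Mathlib
import Cfsg.Agent.Lib.Helper17.BqTop

/-!
# The lower bound for blocks of defect one, all primes

`BqTop.lower_bound` without the (unused) hypotheses `p ≠ 2` and `IsDefectGroup p M B P`.
-/

set_option autoImplicit false
set_option linter.unusedSectionVars false
set_option linter.unusedVariables false
set_option linter.style.haveILetI false
set_option maxHeartbeats 1000000

namespace Cfsg.Agent.Lib.Helper17.BqTop2

open Cfsg Cfsg.Agent.Lib.Helper17.BrGrp Cfsg.Agent.Lib.Helper17.BqLower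
open scoped ComplexConjugate

universe u

/-- **Lower bound** for the number of irreducible characters in a block of defect one. -/
theorem lower_bound' {G : Type u} [Group G] [Finite G] (p : ℕ) [Fact p.Prime]
    (M : Ideal Cfsg.AlgInt) (hM : Cfsg.IsPModular p M) (P : Sylow p G)
    (hP : Nat.card P = p) (B : Set (Cfsg.IrrCharacter G)) (hB : Cfsg.IsPBlock M B)
    (b : Set (Cfsg.IrrCharacter (Subgroup.centralizer ((P : Subgroup G) : Set G))))
    (hind : Cfsg.IsInducedBlock M (Subgroup.centralizer ((P : Subgroup G) : Set G)) b B)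
    (θ : Cfsg.IrrCharacter (Subgroup.centralizer ((P : Subgroup G) : Set G))) (hθ : θ ∈ b)
    (hθP : ∀ x : Subgroup.centralizer ((P : Subgroup G) : Set G), (x : G) ∈ (P : Subgroup G) →
      (θ : Subgroup.centralizer ((P : Subgroup G) : Set G) → ℂ) x =
        (θ : Subgroup.centralizer ((P : Subgroup G) : Set G) → ℂ) 1)
    (T : Subgroup G)
    (hT : ∀ g : G, g ∈ T ↔ (g ∈ Subgroup.normalizer ((P : Subgroup G) : Set G) ∧
      ∀ c c' : Subgroup.centralizer ((P : Subgroup G) : Set G), (c' : G) = g * c * g⁻¹ →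
        (θ : Subgroup.centralizer ((P : Subgroup G) : Set G) → ℂ) c' =
          (θ : Subgroup.centralizer ((P : Subgroup G) : Set G) → ℂ) c))
    (e : ℕ) (he : (Subgroup.centralizer ((P : Subgroup G) : Set G)).relIndex T = e) :
    e + (p - 1) / e ≤ Nat.card B := by
  classical
  haveI : Fintype G := Fintype.ofFinite G
  haveI : Fintype ↥(Subgroup.centralizer ((P : Subgroup G) : Set G)) := Fintype.ofFinite _
  haveI : Fintype ↥(P : Subgroup G) := Fintype.ofFinite _
  obtain ⟨x, hx, hx1⟩ := exists_gen P hP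
  obtain ⟨H, hHN, hHp, hPH⟩ := Cfsg.Agent.Lib.Helper17.BrLower.exists_compl P hP
  have hTN : T ≤ Subgroup.normalizer ((P : Subgroup G) : Set G) := fun g hg => ((hT g).mp hg).1
  obtain ⟨Q, hQ1, hQ2, hQc⟩ := exists_repsT P hP T hTN
  subst he
  have hW := Cfsg.Agent.Lib.Helper82.BrWeights.exists_weights p M hM P hP B b hind θ hθ hθP T hT
    H hHN hHp hPH x hx hx1
  have hZ : ∀ χ : IrrCharacter G, χ ∉ B → ∀ y ∈ (P : Subgroup G), y ≠ 1 →
      ∑ᶠ k ∈ {k : Subgroup.centralizer ((P : Subgroup G) : Set G) | ¬ p ∣ orderOf k},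
        (χ : G → ℂ) (y * (k : G)) *
          conj ((θ : Subgroup.centralizer ((P : Subgroup G) : Set G) → ℂ) k) = 0 := by
    intro χ hχ y hy hy1
    have h1 := Cfsg.Agent.Lib.Helper80.DefOneCol.sec_eq_zero_of_not_mem P hP M hM B b hind θ hθ
      χ hχ hy hy1
    unfold Cfsg.Agent.Lib.Helper80.DefOneCol.sec at h1
    have hc : (Nat.card ↥(Subgroup.centralizer ((P : Subgroup G) : Set G)) : ℂ)⁻¹ ≠ 0 :=
      inv_ne_zero (Nat.cast_ne_zero.mpr Nat.card_pos.ne')
    have h2 := (mul_eq_zero.mp h1).resolve_left hc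
    rw [Cfsg.Agent.Lib.CT.ColumnId.finsum_mem_eq_sum]
    refine Eq.trans (Finset.sum_congr rfl fun k _ => ?_) h2
    by_cases hk : p ∣ orderOf k
    · have hk' : k ∉ {k : Subgroup.centralizer ((P : Subgroup G) : Set G) | ¬ p ∣ orderOf k} :=
        fun h => h hk
      rw [if_neg hk', if_pos hk]
    · have hk' : k ∈ {k : Subgroup.centralizer ((P : Subgroup G) : Set G) | ¬ p ∣ orderOf k} := hk
      rw [if_pos hk', if_neg hk]
  have hSEC := Cfsg.Agent.Lib.Helper74.BrSections.exists_sections p P hP B θ hθP T hT hZ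
  exact le_trans (Nat.add_le_add_left hQc _)
    (lower_bound_aux p M hM P hP B hB θ T H hHN hHp hPH x hx hx1 _ hW hSEC Q hQ1 hQ2)

end Cfsg.Agent.Lib.Helper17.BqTop2
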