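import Mathlib
import Cfsg.Agent.Lib.Lead.BrHalfDStmt
import Cfsg.Agent.Lib.Helper17.SylowConj

/-!
# S4504, piece DCard: the order of the permutation group induced on the Sylow `p`-subgroups
-/

set_option autoImplicit false

namespace Cfsg.Agent.Lib.Helper17.BrDDCard

open Cfsg Cfsg.Agent.Lib.Lead.BrHalf
open scoped Classical

universe u

theorem card_le_mul_ncard_range {A B : Type*} [Finite A] (f : A → B) (n : ℕ)
    (h : ∀ a0 : A, Nat.card {a : A // f a = f a0} ≤ n) :
    Nat.card A ≤ n * (Set.range f).ncard := by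
  let _ : Fintype A := Fintype.ofFinite A
  have h1 := Finset.card_le_mul_card_image (f := f) (Finset.univ : Finset A) n (by
    intro b hb
    obtain ⟨a0, -, rfl⟩ := Finset.mem_image.mp hb
    have h2 := h a0
    rw [Nat.card_eq_fintype_card, Fintype.card_subtype] at h2
    convert h2 using 2)
  rw [Finset.card_univ, ← Nat.card_eq_fintype_card] at h1
  have h2 : ((Finset.univ : Finset A).image f).card = (Set.range f).ncard := by
    rw [← Set.ncard_coe_finset]; congr 1; ext; simp
  rwa [h2] at h1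

theorem main (hKer : DKer.{u}) (hQuot : DQuot.{u}) : DCard.{u} := by
  intro G _ _ p _ d
  have hp : p.Prime := Fact.out
  obtain ⟨eQ⟩ := hQuot p d
  let _ : Fintype (Sylow p G) := Fintype.ofFinite _
  have hcardS : Fintype.card (Sylow p G) = p + 1 := by
    rw [← Nat.card_eq_fintype_card]; exact d.hn
  have hcardSyl : ∀ Q' : Sylow p G, Nat.card (Q' : Subgroup G) = p := by
    intro Q'
    rw [Sylow.card_eq_multiplicity, ← Sylow.card_eq_multiplicity d.P, d.hP]
  -- a second Sylow subgroup
  obtain ⟨Q, hQP⟩ : ∃ Q : Sylow p G, Q ≠ d.P := by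
    by_contra hcon
    push Not at hcon
    have h1 : Fintype.card (Sylow p G) ≤ 1 :=
      Fintype.card_le_one_iff.mpr (fun a b => by rw [hcon a, hcon b])
    have := hp.two_le
    omega
  -- distinct Sylow subgroups meet trivially
  have hPQ : ∀ Q' : Sylow p G, Q' ≠ d.P → ∀ y ∈ (d.P : Subgroup G),
      y ∈ (Q' : Subgroup G) → y = 1 := by
    intro Q' hQ' y hyP hyQ
    by_contra hy1
    apply hQ'
    have hord : orderOf y = p := by
      have h1 : orderOf y ∣ p := by
        have := Subgroup.orderOf_dvd_natCard (d.P : Subgroup G) hyP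
        rwa [d.hP] at this
      rcases (Nat.dvd_prime hp).mp h1 with h | h
      · exact absurd (orderOf_eq_one_iff.mp h) hy1
      · exact h
    have hz : Nat.card (Subgroup.zpowers y) = p := by rw [Nat.card_zpowers, hord]
    have e1 : Subgroup.zpowers y = (d.P : Subgroup G) :=
      Subgroup.eq_of_le_of_card_ge ((Subgroup.zpowers_le).mpr hyP) (by rw [hz, d.hP])
    have e2 : Subgroup.zpowers y = (Q' : Subgroup G) :=
      Subgroup.eq_of_le_of_card_ge ((Subgroup.zpowers_le).mpr hyQ) (by rw [hz, hcardSyl Q'])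
    exact Sylow.ext (e2.symm.trans e1)
  have hfree : ∀ Q' : Sylow p G, Q' ≠ d.P → ∀ y ∈ (d.P : Subgroup G), y • Q' = Q' → y = 1 := by
    intro Q' hQ' y hyP hy
    have h1 := Sylow.smul_eq_iff_mem_normalizer.mp hy
    have h2 : y ∈ (d.P : Subgroup G) ⊓ (Q' : Subgroup G) := by
      rw [← IsPGroup.inf_normalizer_sylow d.P.2 Q']
      exact ⟨hyP, h1⟩
    exact hPQ Q' hQ' y hyP h2.2
  have hPfix : ∀ y ∈ (d.P : Subgroup G), y • d.P = d.P := by
    intro y hy
    exact Sylow.smul_eq_iff_mem_normalizer.mpr (Subgroup.le_normalizer hy)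
  -- `P` is transitive on the other Sylow subgroups
  have htrans : ∀ A : Sylow p G, A ≠ d.P → ∀ B : Sylow p G, B ≠ d.P →
      ∃ y ∈ (d.P : Subgroup G), y • A = B := by
    intro A hA
    let f : ↥(d.P : Subgroup G) → {B : Sylow p G // B ≠ d.P} := fun y => ⟨(y : G) • A, by
      intro h
      have h2 : (y : G) • d.P = d.P := hPfix y y.2
      exact hA (MulAction.injective (y : G) (h.trans h2.symm))⟩
    have hinj : Function.Injective f := by
      intro y y' h
      have h1 : (y : G) • A = (y' : G) • A := congrArg Subtype.val h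
      have h2 : ((y' : G)⁻¹ * (y : G)) • A = A := by rw [mul_smul, h1, inv_smul_smul]
      have h3 := hfree A hA _ (mul_mem (inv_mem y'.2) y.2) h2
      apply Subtype.ext
      exact (inv_mul_eq_one.mp h3).symm
    have hcard : Nat.card {B : Sylow p G // B ≠ d.P} = p := by
      have e := Fintype.card_congr (Equiv.optionSubtypeNe d.P)
      rw [Fintype.card_option, hcardS] at e
      rw [Nat.card_eq_fintype_card]; omega
    have hbij : Function.Bijective f := by
      rw [Nat.bijective_iff_injective_and_card]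
      exact ⟨hinj, by rw [d.hP, hcard]⟩
    intro B hB
    obtain ⟨y, hy⟩ := hbij.2 ⟨B, hB⟩
    exact ⟨y, y.2, congrArg Subtype.val hy⟩
  -- the two-point stabilizer
  set N0 : Subgroup G := MulAction.stabilizer G ((d.P, Q) : Sylow p G × Sylow p G) with hN0
  have hmemN0 : ∀ g : G, g ∈ N0 ↔ g • d.P = d.P ∧ g • Q = Q := by
    intro g
    rw [hN0, MulAction.mem_stabilizer_iff, Prod.smul_mk, Prod.mk.injEq]
  have horb : MulAction.orbit G ((d.P, Q) : Sylow p G × Sylow p G) = {x | x.1 ≠ x.2} := by
    ext ⟨A, B⟩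
    simp only [MulAction.mem_orbit_iff, Set.mem_ofPred_eq]
    constructor
    · rintro ⟨g, hg⟩
      rw [Prod.smul_mk, Prod.mk.injEq] at hg
      intro hAB
      rw [← hg.1, ← hg.2] at hAB
      exact hQP (MulAction.injective g hAB).symm
    · intro hAB
      obtain ⟨g, hg⟩ := MulAction.exists_smul_eq G d.P A
      have hB' : g⁻¹ • B ≠ d.P := by
        intro h
        apply hAB
        rw [← hg, ← h, smul_inv_smul]
      obtain ⟨y, hyP, hy⟩ := htrans Q hQP (g⁻¹ • B) hB'
      refine ⟨g * y, ?_⟩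
      rw [Prod.smul_mk, mul_smul, mul_smul, hPfix y hyP, hg, hy, smul_inv_smul]
  have hnc : ({x : Sylow p G × Sylow p G | x.1 ≠ x.2}).ncard = (p + 1) * p := by
    have h1 : {x : Sylow p G × Sylow p G | x.1 ≠ x.2}
        = ↑(Finset.univ : Finset (Sylow p G)).offDiag := by
      ext x; simp
    rw [h1, Set.ncard_coe_finset, Finset.offDiag_card, Finset.card_univ, hcardS]
    have h2 : (p + 1) * (p + 1) = (p + 1) * p + (p + 1) := by ring
    omega
  have hG : Nat.card N0 * ((p + 1) * p) = Nat.card G := by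
    have h1 := Subgroup.card_mul_index N0
    rw [hN0, MulAction.index_stabilizer, horb, hnc] at h1
    exact h1
  -- the centre
  have hZN0 : Subgroup.center G ≤ N0 := by
    intro z hz
    rw [hmemN0]
    exact ⟨Sylow.smul_eq_iff_mem_normalizer.mpr (Subgroup.center_le_normalizer _ hz),
      Sylow.smul_eq_iff_mem_normalizer.mpr (Subgroup.center_le_normalizer _ hz)⟩
  have hZpos : 0 < Nat.card (Subgroup.center G) := Nat.card_pos
  obtain ⟨m, hm⟩ : Nat.card (Subgroup.center G) ∣ Nat.card N0 := Subgroup.card_dvd_of_le hZN0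
  have hGZ : Nat.card G = Nat.card (G ⧸ Subgroup.center G) * Nat.card (Subgroup.center G) :=
    Subgroup.card_eq_card_quotient_mul_card_subgroup _
  have hR : Nat.card ↥(MulAction.toPermHom G (Sylow p G)).range
      = Nat.card (G ⧸ Subgroup.center G) := (Nat.card_congr eQ.toEquiv).symm
  have hRcard : Nat.card ↥(MulAction.toPermHom G (Sylow p G)).range = (p + 1) * p * m := by
    rw [hR]
    have h1 : Nat.card (G ⧸ Subgroup.center G) * Nat.card (Subgroup.center G)
        = ((p + 1) * p * m) * Nat.card (Subgroup.center G) := by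
      rw [← hGZ, ← hG, hm]; ring
    exact Nat.eq_of_mul_eq_mul_right hZpos h1
  refine ⟨m, ?_, hRcard⟩
  -- an element of order `p` in `P` not fused to its `k`-th power
  obtain ⟨x', hx'P, hx'ord, hx'k⟩ : ∃ x' ∈ (d.P : Subgroup G), orderOf x' = p ∧
      d.χ (x' ^ d.k) ≠ d.χ x' := by
    have hpg : IsPGroup p (Subgroup.zpowers d.x) := by
      apply IsPGroup.of_card (n := 1)
      rw [Nat.card_zpowers, d.hx, pow_one]
    obtain ⟨Q', hQ'⟩ := hpg.exists_le_sylow
    obtain ⟨g, hg⟩ := MulAction.exists_smul_eq G Q' d.P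
    refine ⟨g * d.x * g⁻¹, ?_, ?_, ?_⟩
    · rw [← hg, Cfsg.Agent.Lib.Helper17.SylowConj.mem_smul_sylow_iff]
      have hxQ : d.x ∈ (Q' : Subgroup G) := hQ' (Subgroup.mem_zpowers d.x)
      have h1 : g⁻¹ * (g * d.x * g⁻¹) * g = d.x := by group
      rw [h1]; exact hxQ
    · have h1 := (MulAut.conj g).orderOf_eq d.x
      rw [MulAut.conj_apply] at h1
      rw [h1, d.hx]
    · obtain ⟨n, ρ, hρ⟩ := d.hχ
      rw [← hρ, conj_pow, Representation.char_conj, Representation.char_conj, hρ]
      exact d.hk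
  have hPz : Subgroup.zpowers x' = (d.P : Subgroup G) :=
    Subgroup.eq_of_le_of_card_ge ((Subgroup.zpowers_le).mpr hx'P)
      (by rw [Nat.card_zpowers, hx'ord, d.hP])
  -- elements of `N0` centralizing `x'` are central
  have hcent : ∀ c ∈ N0, c * x' * c⁻¹ = x' → c ∈ Subgroup.center G := by
    intro c hc hcx
    apply hKer p d c
    have hcomm : ∀ y ∈ (d.P : Subgroup G), c * y = y * c := by
      intro y hy
      rw [← hPz] at hy
      obtain ⟨n, rfl⟩ := Subgroup.mem_zpowers_iff.mp hy
      have h1 : c * x' = x' * c := by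
        calc c * x' = (c * x' * c⁻¹) * c := by group
          _ = x' * c := by rw [hcx]
      exact ((Commute.zpow_right (show Commute c x' from h1) n)).eq
    have hc' := (hmemN0 c).mp hc
    intro A
    by_cases hA : A = d.P
    · rw [hA]; exact hc'.1
    · obtain ⟨y, hyP, hy⟩ := htrans Q hQP A hA
      rw [← hy, ← mul_smul, hcomm y hyP, mul_smul, hc'.2]
  -- counting the conjugates of `x'` under `N0`
  let f : ↥N0 → G := fun h => (h : G) * x' * (h : G)⁻¹
  have hfib : ∀ a0 : ↥N0, Nat.card {a : ↥N0 // f a = f a0} ≤ Nat.card (Subgroup.center G) := by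
    intro a0
    let φ : {a : ↥N0 // f a = f a0} → ↥(Subgroup.center G) := fun a =>
      ⟨(a0 : G)⁻¹ * (a.1 : G), by
        apply hcent _ (mul_mem (inv_mem a0.2) a.1.2)
        have h1 : (a.1 : G) * x' * (a.1 : G)⁻¹ = (a0 : G) * x' * (a0 : G)⁻¹ := a.2
        calc (a0 : G)⁻¹ * (a.1 : G) * x' * ((a0 : G)⁻¹ * (a.1 : G))⁻¹
            = (a0 : G)⁻¹ * ((a.1 : G) * x' * (a.1 : G)⁻¹) * (a0 : G) := by group
          _ = x' := by rw [h1]; group⟩
    have hφ : Function.Injective φ := by
      intro a b hab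
      have h1 : (a0 : G)⁻¹ * (a.1 : G) = (a0 : G)⁻¹ * (b.1 : G) := congrArg Subtype.val hab
      apply Subtype.ext
      apply Subtype.ext
      exact mul_left_cancel h1
    exact Nat.card_le_card_of_injective φ hφ
  have hcount := card_le_mul_ncard_range f (Nat.card (Subgroup.center G)) hfib
  have hPfin : ((d.P : Subgroup G) : Set G).Finite := Set.toFinite _
  have hT : (((d.P : Subgroup G) : Set G) \ {1}).ncard = p - 1 := by
    rw [Set.ncard_sdiff_singleton_of_mem (one_mem _)]
    have h1 : (((d.P : Subgroup G) : Set G)).ncard = p := by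
      rw [← Nat.card_coe_set_eq]; exact d.hP
    rw [h1]
  have hsub : Set.range f ⊆ ((d.P : Subgroup G) : Set G) \ {1} := by
    rintro _ ⟨h, rfl⟩
    have hh := (hmemN0 h).mp h.2
    refine ⟨?_, ?_⟩
    · have h1 : (h : G) * x' * (h : G)⁻¹ ∈ (((h : G) • d.P : Sylow p G) : Subgroup G) := by
        rw [Cfsg.Agent.Lib.Helper17.SylowConj.mem_smul_sylow_iff]
        have h2 : (h : G)⁻¹ * ((h : G) * x' * (h : G)⁻¹) * (h : G) = x' := by group
        rw [h2]; exact hx'P
      rw [hh.1] at h1
      exact h1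
    · intro h1
      rw [Set.mem_singleton_iff] at h1
      have h1' : (h : G) * x' * (h : G)⁻¹ = 1 := h1
      have h2 : x' = 1 := by
        have : x' = (h : G)⁻¹ * ((h : G) * x' * (h : G)⁻¹) * (h : G) := by group
        rw [this, h1']; group
      rw [h2, orderOf_one] at hx'ord
      have := hp.two_le
      omega
  have hTfin : (((d.P : Subgroup G) : Set G) \ {1}).Finite := hPfin.subset Set.sdiff_subset
  have hr : (Set.range f).ncard ≤ p - 1 := by
    rw [← hT]; exact Set.ncard_le_ncard hsub hTfin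
  have hmr : m ≤ (Set.range f).ncard := by
    rw [hm] at hcount
    exact Nat.le_of_mul_le_mul_left hcount hZpos
  by_contra hcon
  have hrange : Set.range f = ((d.P : Subgroup G) : Set G) \ {1} := by
    apply Set.eq_of_subset_of_ncard_le hsub _ hTfin
    rw [hT]; omega
  have hxk : x' ^ d.k ∈ ((d.P : Subgroup G) : Set G) \ {1} := by
    refine ⟨pow_mem hx'P _, ?_⟩
    intro h1
    rw [Set.mem_singleton_iff] at h1
    have h2 := orderOf_dvd_of_pow_eq_one h1
    rw [hx'ord] at h2
    exact d.hk0 h2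
  rw [← hrange] at hxk
  obtain ⟨h, hh⟩ := hxk
  apply hx'k
  obtain ⟨n, ρ, hρ⟩ := d.hχ
  rw [← hh, ← hρ]
  exact Representation.char_conj ρ x' (h : G)

end Cfsg.Agent.Lib.Helper17.BrDDCard
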