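import Mathlib

set_option autoImplicit false

namespace Cfsg.Agent.Lib.Helper17.DihedralLift

open Subgroup DihedralGroup

variable {H : Type*} [Group H] {n : ℕ}

/-- The additive homomorphism `ZMod n →+ Additive H`, `i ↦ u ^ i`, for `u ^ n = 1`. -/
noncomputable def zmodHom (u : H) (hu : u ^ n = 1) : ZMod n →+ Additive H :=
  ZMod.lift n ⟨zmultiplesHom (Additive H) (Additive.ofMul u), by
    show (n : ℤ) • Additive.ofMul u = 0
    rw [natCast_zsmul, ← ofMul_pow, hu]
    rfl⟩

/-- `u ^ i` for `i : ZMod n`. -/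
noncomputable def zmodPow (u : H) (hu : u ^ n = 1) (i : ZMod n) : H :=
  Additive.toMul (zmodHom u hu i)

theorem zmodPow_add (u : H) (hu : u ^ n = 1) (i j : ZMod n) :
    zmodPow u hu (i + j) = zmodPow u hu i * zmodPow u hu j := by
  unfold zmodPow
  rw [map_add]
  rfl

theorem zmodPow_intCast (u : H) (hu : u ^ n = 1) (k : ℤ) :
    zmodPow u hu (k : ZMod n) = u ^ k := by
  unfold zmodPow zmodHom
  rw [ZMod.lift_coe]
  show Additive.toMul (k • Additive.ofMul u) = u ^ k
  rw [← ofMul_zpow]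
  rfl

theorem zmodPow_eq_zpow (u : H) (hu : u ^ n = 1) (i : ZMod n) :
    zmodPow u hu i = u ^ (ZMod.cast i : ℤ) := by
  rw [← zmodPow_intCast u hu, ZMod.intCast_zmod_cast]

theorem zmodPow_one (u : H) (hu : u ^ n = 1) : zmodPow u hu 1 = u := by
  have := zmodPow_intCast u hu 1
  simpa using this

theorem zmodPow_zero (u : H) (hu : u ^ n = 1) : zmodPow u hu 0 = 1 := by
  have := zmodPow_intCast u hu 0
  simpa using this

theorem zmodPow_sub (u : H) (hu : u ^ n = 1) (i j : ZMod n) :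
    zmodPow u hu (i - j) = zmodPow u hu i * (zmodPow u hu j)⁻¹ := by
  have := zmodPow_add u hu (i - j) j
  rw [sub_add_cancel] at this
  rw [this, mul_inv_cancel_right]

theorem zmodPow_comm (u : H) (hu : u ^ n = 1) (i j : ZMod n) :
    zmodPow u hu i * zmodPow u hu j = zmodPow u hu j * zmodPow u hu i := by
  rw [← zmodPow_add, ← zmodPow_add, add_comm]

theorem zmodPow_neg (u : H) (hu : u ^ n = 1) (i : ZMod n) :
    zmodPow u hu (-i) = (zmodPow u hu i)⁻¹ := by
  have := zmodPow_sub u hu 0 i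
  rwa [zero_sub, zmodPow_zero, one_mul] at this

theorem zmodPow_inv_comm (u : H) (hu : u ^ n = 1) (i j : ZMod n) :
    zmodPow u hu j * (zmodPow u hu i)⁻¹ = (zmodPow u hu i)⁻¹ * zmodPow u hu j := by
  rw [← zmodPow_neg, zmodPow_comm]

theorem conj_zmodPow (u a : H) (hu : u ^ n = 1) (hau : a * u * a⁻¹ = u⁻¹) (i : ZMod n) :
    a * zmodPow u hu i * a⁻¹ = (zmodPow u hu i)⁻¹ := by
  rw [zmodPow_eq_zpow]
  have : a * u ^ (ZMod.cast i : ℤ) * a⁻¹ = (a * u * a⁻¹) ^ (ZMod.cast i : ℤ) := by
    simp [conj_zpow]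
  rw [this, hau, inv_zpow]

/-- The universal property of the dihedral group. -/
noncomputable def lift (u a : H) (hu : u ^ n = 1) (ha : a * a = 1)
    (hau : a * u * a⁻¹ = u⁻¹) : DihedralGroup n →* H :=
  MonoidHom.mk' (fun x => match x with
    | .r i => zmodPow u hu i
    | .sr i => a * zmodPow u hu i) (by
    have hainv : a⁻¹ = a := inv_eq_of_mul_eq_one_left ha
    have key : ∀ i : ZMod n, zmodPow u hu i * a = a * (zmodPow u hu i)⁻¹ := by
      intro i
      have h1 := conj_zmodPow u a hu hau i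
      rw [hainv] at h1
      have h2 : zmodPow u hu i * a = a * (a * zmodPow u hu i * a) := by
        rw [← mul_assoc, ← mul_assoc, ha, one_mul]
      rw [h2, h1]
    rintro (i | i) (j | j)
    · show zmodPow u hu (i + j) = zmodPow u hu i * zmodPow u hu j
      exact zmodPow_add u hu i j
    · show a * zmodPow u hu (j - i) = zmodPow u hu i * (a * zmodPow u hu j)
      rw [zmodPow_sub, ← mul_assoc (zmodPow u hu i), key, mul_assoc, zmodPow_inv_comm]
    · show a * zmodPow u hu (i + j) = a * zmodPow u hu i * zmodPow u hu j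
      rw [zmodPow_add, mul_assoc]
    · show zmodPow u hu (j - i) = a * zmodPow u hu i * (a * zmodPow u hu j)
      rw [mul_assoc a, ← mul_assoc (zmodPow u hu i), key, mul_assoc, ← mul_assoc a a, ha,
        one_mul, zmodPow_sub, zmodPow_inv_comm])

theorem lift_r (u a : H) (hu : u ^ n = 1) (ha : a * a = 1) (hau : a * u * a⁻¹ = u⁻¹)
    (i : ZMod n) : lift u a hu ha hau (r i) = zmodPow u hu i := rfl

theorem lift_sr (u a : H) (hu : u ^ n = 1) (ha : a * a = 1) (hau : a * u * a⁻¹ = u⁻¹)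
    (i : ZMod n) : lift u a hu ha hau (sr i) = a * zmodPow u hu i := rfl

theorem lift_r_one (u a : H) (hu : u ^ n = 1) (ha : a * a = 1) (hau : a * u * a⁻¹ = u⁻¹) :
    lift u a hu ha hau (r 1) = u := by
  rw [lift_r, zmodPow_one]

theorem lift_sr_zero (u a : H) (hu : u ^ n = 1) (ha : a * a = 1) (hau : a * u * a⁻¹ = u⁻¹) :
    lift u a hu ha hau (sr 0) = a := by
  rw [lift_sr, zmodPow_zero, mul_one]

end Cfsg.Agent.Lib.Helper17.DihedralLift
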