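import Mathlib
import Cfsg.Agent.Lib.Helper17.Sylow
import Cfsg.Agent.Lib.Helper17.Sylow2
import Cfsg.Agent.Lib.Helper17.Count
import Cfsg.Agent.Lib.Helper17.Count2
import Cfsg.Agent.Lib.Helper17.Parity
import Cfsg.Agent.Lib.Helper17.Commuting

set_option autoImplicit false

namespace Cfsg.Agent.Lib.Helper17.G168

open Subgroup MulAction Nat
open Cfsg.Agent.Lib.Helper17.Sylow Cfsg.Agent.Lib.Helper17.Sylow2 Cfsg.Agent.Lib.Helper17.Count
open Cfsg.Agent.Lib.Helper17.Count2 Cfsg.Agent.Lib.Helper17.Parity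
open Cfsg.Agent.Lib.Helper17.Commuting Cfsg.Agent.Lib.Helper17.FixedPoints

variable {G : Type*} [Group G] [Finite G] [IsSimpleGroup G]

instance fact2 : Fact (Nat.Prime 2) := ⟨by norm_num⟩
instance fact3 : Fact (Nat.Prime 3) := ⟨by norm_num⟩
instance fact7 : Fact (Nat.Prime 7) := ⟨by norm_num⟩

theorem not_comm (h : Nat.card G = 168) : ¬ IsMulCommutative G :=
  not_comm_of_not_prime (by rw [h]; norm_num)

theorem card_P7 (h : Nat.card G = 168) (P : Sylow 7 G) : Nat.card (P : Subgroup G) = 7 := by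
  simpa using card_sylow_subgroup (k := 1) (m := 24) (h.trans (by norm_num)) (by norm_num) P

theorem card_P3 (h : Nat.card G = 168) (P : Sylow 3 G) : Nat.card (P : Subgroup G) = 3 := by
  simpa using card_sylow_subgroup (k := 1) (m := 56) (h.trans (by norm_num)) (by norm_num) P

theorem card_P2 (h : Nat.card G = 168) (P : Sylow 2 G) : Nat.card (P : Subgroup G) = 8 := by
  simpa using card_sylow_subgroup (k := 3) (m := 21) (h.trans (by norm_num)) (by norm_num) P

theorem card_sylow7 (h : Nat.card G = 168) : Nat.card (Sylow 7 G) = 8 := by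
  have hd : Nat.card (Sylow 7 G) ∣ 24 :=
    card_sylow_dvd (k := 1) (h.trans (by norm_num)) (by norm_num)
  have hm := card_sylow_mod (G := G) 7
  have hne := card_sylow_ne_one (not_comm h) (p := 7) (by rw [h]; norm_num)
  have key : ∀ n ∈ Nat.divisors 24, n % 7 = 1 → n ≠ 1 → n = 8 := by decide
  exact key _ (Nat.mem_divisors.mpr ⟨hd, by norm_num⟩) hm hne

theorem card_N7 (h : Nat.card G = 168) (P : Sylow 7 G) :
    Nat.card (normalizer ((P : Subgroup G) : Set G)) = 21 := by
  have := card_normalizer_mul_card_sylow P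
  rw [card_sylow7 h, h] at this
  omega

theorem card_C7 (h : Nat.card G = 168) (P : Sylow 7 G) :
    Nat.card (centralizer ((P : Subgroup G) : Set G)) = 7 := by
  obtain ⟨r, hr1, hr2, hr3, hr4⟩ := sylow_prime_centralizer (not_comm h) P (card_P7 h P)
  rw [card_N7 h P] at hr3
  have key : ∀ c ∈ Nat.divisors 21, ∀ r ∈ Nat.divisors 6, r ≠ 1 → c * r = 21 → 7 ∣ c →
      c = 7 := by decide
  exact key _ (Nat.mem_divisors.mpr ⟨Dvd.intro _ hr3, by norm_num⟩) r
    (Nat.mem_divisors.mpr ⟨hr2, by norm_num⟩) hr1 hr3 hr4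

theorem card_sylow3 (h : Nat.card G = 168) : Nat.card (Sylow 3 G) = 28 := by
  have hG := not_comm h
  have hd : Nat.card (Sylow 3 G) ∣ 56 :=
    card_sylow_dvd (k := 1) (h.trans (by norm_num)) (by norm_num)
  have hm := card_sylow_mod (G := G) 3
  have h3 : 3 ∣ Nat.card G := by rw [h]; norm_num
  have hne := card_sylow_ne_one hG h3
  have hf := two_mul_card_dvd_factorial_card_sylow hG h3
  rw [h] at hf
  have key : ∀ n ∈ Nat.divisors 56, n % 3 = 1 → n ≠ 1 → 2 * 168 ∣ n ! → n = 7 ∨ n = 28 := by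
    decide
  rcases key _ (Nat.mem_divisors.mpr ⟨hd, by norm_num⟩) hm hne hf with h7 | h28
  · exfalso
    obtain ⟨P⟩ : Nonempty (Sylow 3 G) := inferInstance
    have hP := card_P3 h P
    have hN : Nat.card (normalizer ((P : Subgroup G) : Set G)) = 24 := by
      have := card_normalizer_mul_card_sylow P
      rw [h7, h] at this
      omega
    obtain ⟨r, hr1, hr2, hr3, hr4⟩ := sylow_prime_centralizer hG P hP
    rw [hN] at hr3
    have hC2 : 2 ∣ Nat.card (centralizer ((P : Subgroup G) : Set G)) := by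
      have key2 : ∀ c ∈ Nat.divisors 24, ∀ r ∈ Nat.divisors 2, r ≠ 1 → c * r = 24 → 2 ∣ c := by
        decide
      exact key2 _ (Nat.mem_divisors.mpr ⟨Dvd.intro _ hr3, by norm_num⟩) r
        (Nat.mem_divisors.mpr ⟨hr2, by norm_num⟩) hr1 hr3
    obtain ⟨s, hsC, hs⟩ := exists_mem_orderOf_eq_prime _ 2 hC2
    obtain ⟨y, hyP, hy⟩ := exists_mem_orderOf_eq_prime (P : Subgroup G) 3 (by rw [hP])
    have hcomm : Commute s y := (mem_centralizer_iff.mp hsC y hyP).symm
    have hs2 : s ^ 2 ^ 1 = 1 := by rw [pow_one, ← hs]; exact pow_orderOf_eq_one s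
    have hy3 : y ^ 3 ^ 1 = 1 := by rw [pow_one, ← hy]; exact pow_orderOf_eq_one y
    have hs1 : s ≠ 1 := by
      rintro rfl
      rw [orderOf_one] at hs
      omega
    have hNtop : normalizer ((P : Subgroup G) : Set G) ≠ ⊤ := normalizer_sylow_ne_top hG h3 P
    have hfy := card_fixedBy_of_orderOf_eq P hP y hy
    have hA2 := card_fixedBy_modEq_of_commute
      (X := G ⧸ normalizer ((P : Subgroup G) : Set G)) y s hcomm.symm hs2
    have hAle := card_common_le_left (X := G ⧸ normalizer ((P : Subgroup G) : Set G)) y s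
    have hA3 := card_fixedBy_modEq_of_commute
      (X := G ⧸ normalizer ((P : Subgroup G) : Set G)) s y hcomm hy3
    rw [card_common_comm s y] at hA3
    obtain ⟨k, hk⟩ := involution_moved hG (X := G ⧸ normalizer ((P : Subgroup G) : Set G)) s
      (by rw [← hs]; exact pow_orderOf_eq_one s)
    have hlt := card_fixedBy_lt_index _ hNtop s hs1
    have hX : Nat.card (G ⧸ normalizer ((P : Subgroup G) : Set G)) = 7 := by
      rw [← h7, P.card_eq_index_normalizer]; rfl
    have hidx : (normalizer ((P : Subgroup G) : Set G)).index = 7 := hX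
    rw [hX] at hk
    rw [hidx] at hlt
    rw [hfy] at hA2 hAle
    unfold Nat.ModEq at hA2 hA3
    omega
  · exact h28

theorem card_N3 (h : Nat.card G = 168) (P : Sylow 3 G) :
    Nat.card (normalizer ((P : Subgroup G) : Set G)) = 6 := by
  have := card_normalizer_mul_card_sylow P
  rw [card_sylow3 h, h] at this
  omega

theorem card_C3 (h : Nat.card G = 168) (P : Sylow 3 G) :
    Nat.card (centralizer ((P : Subgroup G) : Set G)) = 3 := by
  obtain ⟨r, hr1, hr2, hr3, hr4⟩ := sylow_prime_centralizer (not_comm h) P (card_P3 h P)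
  rw [card_N3 h P] at hr3
  have key : ∀ c ∈ Nat.divisors 6, ∀ r ∈ Nat.divisors 2, r ≠ 1 → c * r = 6 → 3 ∣ c →
      c = 3 := by decide
  exact key _ (Nat.mem_divisors.mpr ⟨Dvd.intro _ hr3, by norm_num⟩) r
    (Nat.mem_divisors.mpr ⟨hr2, by norm_num⟩) hr1 hr3 hr4

theorem orderOf_mem' (h : Nat.card G = 168) (g : G) :
    orderOf g ∈ ({1, 2, 3, 4, 7, 8} : Finset ℕ) := by
  have h1 : orderOf g ∣ 168 := h ▸ orderOf_dvd_natCard g
  have h7 : 7 ∣ orderOf g → orderOf g = 7 :=
    orderOf_eq_of_dvd (card_P7 h) (card_C7 h) g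
  have h3 : 3 ∣ orderOf g → orderOf g = 3 :=
    orderOf_eq_of_dvd (card_P3 h) (card_C3 h) g
  have key : ∀ d ∈ Nat.divisors 168, (7 ∣ d → d = 7) → (3 ∣ d → d = 3) →
      d ∈ ({1, 2, 3, 4, 7, 8} : Finset ℕ) := by decide
  exact key _ (Nat.mem_divisors.mpr ⟨h1, by norm_num⟩) h7 h3

theorem card_order3 (h : Nat.card G = 168) : Nat.card {g : G // orderOf g = 3} = 56 := by
  rw [card_orderOf_eq_prime (card_P3 h), card_sylow3 h]

theorem card_order7 (h : Nat.card G = 168) : Nat.card {g : G // orderOf g = 7} = 48 := by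
  rw [card_orderOf_eq_prime (card_P7 h), card_sylow7 h]

omit [Finite G] [IsSimpleGroup G] in
theorem card_order1 : Nat.card {g : G // orderOf g = 1} = 1 := by
  have e : {g : G // orderOf g = 1} ≃ Unit :=
    { toFun := fun _ => ()
      invFun := fun _ => ⟨1, orderOf_one⟩
      left_inv := fun g => Subtype.ext (orderOf_eq_one_iff.mp g.2).symm
      right_inv := fun _ => rfl }
  rw [Nat.card_congr e]
  simp

theorem card_order248 (h : Nat.card G = 168) :
    Nat.card {g : G // orderOf g = 2} + Nat.card {g : G // orderOf g = 4}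
      + Nat.card {g : G // orderOf g = 8} = 63 := by
  have h1 := sum_card_orderOf_eq (G := G) ({1, 2, 3, 4, 7, 8} : Finset ℕ) (orderOf_mem' h)
  rw [Finset.sum_insert (by decide), Finset.sum_insert (by decide), Finset.sum_insert (by decide),
    Finset.sum_insert (by decide), Finset.sum_insert (by decide), Finset.sum_singleton,
    card_order1, card_order3 h, card_order7 h, h] at h1
  omega

theorem card_sylow2 (h : Nat.card G = 168) : Nat.card (Sylow 2 G) = 21 := by
  have hG := not_comm h
  have hd : Nat.card (Sylow 2 G) ∣ 21 :=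
    card_sylow_dvd (k := 3) (h.trans (by norm_num)) (by norm_num)
  have h2 : 2 ∣ Nat.card G := by rw [h]; norm_num
  have hne := card_sylow_ne_one hG h2
  have hf := two_mul_card_dvd_factorial_card_sylow hG h2
  rw [h] at hf
  have hle := sum_card_orderOf_le_sylow (G := G) (p := 2) 8 (card_P2 h) ({2, 4, 8} : Finset ℕ)
    (by
      intro n hn
      simp only [Finset.mem_insert, Finset.mem_singleton] at hn
      rcases hn with rfl | rfl | rfl
      · exact ⟨by norm_num, 1, by norm_num⟩
      · exact ⟨by norm_num, 2, by norm_num⟩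
      · exact ⟨by norm_num, 3, by norm_num⟩)
  rw [Finset.sum_insert (by decide), Finset.sum_insert (by decide), Finset.sum_singleton] at hle
  have h63 := card_order248 h
  have key : ∀ n ∈ Nat.divisors 21, n ≠ 1 → 2 * 168 ∣ n ! → 63 ≤ n * 7 → n = 21 := by decide
  exact key _ (Nat.mem_divisors.mpr ⟨hd, by norm_num⟩) hne hf (by omega)

end Cfsg.Agent.Lib.Helper17.G168
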