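import Mathlib
import Cfsg.Agent.Lib.Helper17.G168
import Cfsg.Agent.Lib.Helper17.Classes

set_option autoImplicit false

namespace Cfsg.Agent.Lib.Helper17.G168b

open Subgroup MulAction Nat
open Cfsg.Agent.Lib.Helper17.Sylow Cfsg.Agent.Lib.Helper17.Sylow2 Cfsg.Agent.Lib.Helper17.Count
open Cfsg.Agent.Lib.Helper17.Count2 Cfsg.Agent.Lib.Helper17.Parity
open Cfsg.Agent.Lib.Helper17.Commuting Cfsg.Agent.Lib.Helper17.FixedPoints
open Cfsg.Agent.Lib.Helper17.G168 Cfsg.Agent.Lib.Helper17.Classes

variable {G : Type*} [Group G] [Finite G] [IsSimpleGroup G]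

theorem card_N2 (h : Nat.card G = 168) (S : Sylow 2 G) :
    Nat.card (normalizer ((S : Subgroup G) : Set G)) = 8 := by
  have := card_normalizer_mul_card_sylow S
  rw [card_sylow2 h, h] at this
  omega

theorem two_dvd (h : Nat.card G = 168) : 2 ∣ Nat.card G := by rw [h]; norm_num

theorem not_cyclic_sylow2 (h : Nat.card G = 168) (S : Sylow 2 G) :
    ¬ IsCyclic (S : Subgroup G) := by
  intro hc
  have hmin : (Nat.card G).minFac = 2 := (Nat.minFac_eq_two_iff _).mpr (two_dvd h)
  exact not_normalizer_le_centralizer (not_comm h) (two_dvd h) S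
    (IsCyclic.normalizer_le_centralizer hmin hc)

theorem orderOf_ne_8 (h : Nat.card G = 168) (g : G) : orderOf g ≠ 8 := by
  intro hg
  have hpg : IsPGroup 2 (zpowers g) := by
    apply IsPGroup.of_card (n := 3)
    rw [Nat.card_zpowers, hg]; norm_num
  obtain ⟨S, hS⟩ := hpg.exists_le_sylow
  have heq : zpowers g = (S : Subgroup G) :=
    Subgroup.eq_of_le_of_card_ge hS (by rw [card_P2 h S, Nat.card_zpowers, hg])
  apply not_cyclic_sylow2 h S
  rw [← heq]
  infer_instance

theorem orderOf_mem (h : Nat.card G = 168) (g : G) :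
    orderOf g ∈ ({1, 2, 3, 4, 7} : Finset ℕ) := by
  have h1 := orderOf_mem' h g
  have h2 := orderOf_ne_8 h g
  simp only [Finset.mem_insert, Finset.mem_singleton] at h1 ⊢
  omega

theorem not_comm_sylow2 (h : Nat.card G = 168) (S : Sylow 2 G) :
    ¬ (∀ a ∈ (S : Subgroup G), ∀ b ∈ (S : Subgroup G), a * b = b * a) := by
  intro hc
  have hSC : (S : Subgroup G) ≤ centralizer ((S : Subgroup G) : Set G) := by
    intro a ha
    rw [mem_centralizer_iff]
    intro b hb
    exact hc b hb a ha
  have hNS : (S : Subgroup G) = normalizer ((S : Subgroup G) : Set G) :=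
    Subgroup.eq_of_le_of_card_ge le_normalizer (by rw [card_N2 h S, card_P2 h S])
  apply not_normalizer_le_centralizer (not_comm h) (two_dvd h) S
  rw [← hNS]
  exact hSC

theorem card_centralizer_dvd_8 (h : Nat.card G = 168) (g : G)
    (hg : orderOf g = 2 ∨ orderOf g = 4) : Nat.card (centralizer ({g} : Set G)) ∣ 8 := by
  have h1 : Nat.card (centralizer ({g} : Set G)) ∣ 168 := h ▸ card_subgroup_dvd_card _
  have hno : ∀ q : ℕ, (q = 3 ∨ q = 7) → ¬ q ∣ Nat.card (centralizer ({g} : Set G)) := by
    intro q hq hdvd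
    have hqp : Fact q.Prime := by
      rcases hq with rfl | rfl
      · exact ⟨by norm_num⟩
      · exact ⟨by norm_num⟩
    obtain ⟨x, hxC, hx⟩ := exists_mem_orderOf_eq_prime _ q hdvd
    have hcomm : Commute g x := mem_centralizer_iff.mp hxC g rfl
    have hord := hcomm.orderOf_mul_eq_mul_orderOf_of_coprime (by
      rw [hx]
      rcases hg with hg | hg <;> rcases hq with rfl | rfl <;> rw [hg] <;> decide)
    have hmem := orderOf_mem h (g * x)
    rw [hord, hx] at hmem
    rcases hg with hg | hg <;> rcases hq with rfl | rfl <;> rw [hg] at hmem <;>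
      simp at hmem
  have key : ∀ d ∈ Nat.divisors 168, ¬ 3 ∣ d → ¬ 7 ∣ d → d ∣ 8 := by decide
  exact key _ (Nat.mem_divisors.mpr ⟨h1, by norm_num⟩) (hno 3 (Or.inl rfl)) (hno 7 (Or.inr rfl))

theorem exists_order4 (h : Nat.card G = 168) : ∃ u : G, orderOf u = 4 := by
  by_contra hcon
  push Not at hcon
  obtain ⟨S⟩ : Nonempty (Sylow 2 G) := inferInstance
  apply not_comm_sylow2 h S
  have hsq : ∀ a ∈ (S : Subgroup G), a * a = 1 := by
    intro a ha
    have h1 : orderOf a ∣ 8 := by
      rw [← card_P2 h S]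
      exact orderOf_dvd_card_of_mem ha
    have h2 := orderOf_mem h a
    have h3 := hcon a
    have key : ∀ d ∈ Nat.divisors 8, d ∈ ({1, 2, 3, 4, 7} : Finset ℕ) → d ≠ 4 → d ∣ 2 := by
      decide
    have h4 := key _ (Nat.mem_divisors.mpr ⟨h1, by norm_num⟩) h2 h3
    rw [← pow_two]
    exact orderOf_dvd_iff_pow_eq_one.mp h4
  intro a ha b hb
  have h1 := hsq a ha
  have h2 := hsq b hb
  have h3 := hsq (a * b) ((S : Subgroup G).mul_mem ha hb)
  have ha' : a⁻¹ = a := inv_eq_of_mul_eq_one_left h1
  have hb' : b⁻¹ = b := inv_eq_of_mul_eq_one_left h2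
  have hab' : (a * b)⁻¹ = a * b := inv_eq_of_mul_eq_one_left h3
  rw [← hab', mul_inv_rev, ha', hb']

theorem card_centralizer_order4 (h : Nat.card G = 168) (u : G) (hu : orderOf u = 4) :
    Nat.card (centralizer ({u} : Set G)) = 4 := by
  have h1 := card_centralizer_dvd_8 h u (Or.inr hu)
  have h2 : 4 ∣ Nat.card (centralizer ({u} : Set G)) := by
    rw [← hu]
    exact orderOf_dvd_card_of_mem (mem_centralizer_self u)
  have h3 : Nat.card (centralizer ({u} : Set G)) ≠ 8 := by
    intro h8
    have hpg : IsPGroup 2 (centralizer ({u} : Set G)) := by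
      apply IsPGroup.of_card (n := 3)
      rw [h8]; norm_num
    obtain ⟨T, hT⟩ := hpg.exists_le_sylow
    have heq : centralizer ({u} : Set G) = (T : Subgroup G) :=
      Subgroup.eq_of_le_of_card_ge hT (by rw [card_P2 h T, h8])
    apply not_comm_sylow2 h T
    rw [← heq]
    have hZ : zpowers u ≤ centralizer ({u} : Set G) := by
      rw [zpowers_le]; exact mem_centralizer_self u
    have hidx : ((zpowers u).subgroupOf (centralizer ({u} : Set G))).index = 2 := by
      have := card_mul_relIndex hZ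
      rw [Nat.card_zpowers, hu, h8] at this
      have h5 : (zpowers u).relIndex (centralizer ({u} : Set G)) = 2 := by omega
      exact h5
    have hcu : ∀ b ∈ centralizer ({u} : Set G), ∀ k : ℤ, Commute b (u ^ k) := by
      intro b hb k
      have : Commute u b := mem_centralizer_iff.mp hb u rfl
      exact (this.zpow_left k).symm
    intro a ha b hb
    by_cases haZ : a ∈ zpowers u
    · obtain ⟨k, rfl⟩ := mem_zpowers_iff.mp haZ
      exact (hcu b hb k).eq.symm
    by_cases hbZ : b ∈ zpowers u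
    · obtain ⟨k, rfl⟩ := mem_zpowers_iff.mp hbZ
      exact (hcu a ha k).eq
    have h6 := Subgroup.mul_mem_iff_of_index_two hidx
      (a := (⟨a, ha⟩ : centralizer ({u} : Set G))) (b := ⟨b, hb⟩)
    simp only [mem_subgroupOf, Subgroup.coe_mul] at h6
    have h7 : a * b ∈ zpowers u := h6.mpr ⟨fun h => absurd h haZ, fun h => absurd h hbZ⟩
    obtain ⟨k, hk⟩ := mem_zpowers_iff.mp h7
    have h8' : a = u ^ k * b⁻¹ := eq_mul_inv_of_mul_eq hk.symm
    have h9 := (hcu b hb k).eq
    rw [h8', inv_mul_cancel_right, ← mul_assoc, h9, mul_inv_cancel_right]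
  have key : ∀ d ∈ Nat.divisors 8, 4 ∣ d → d ≠ 8 → d = 4 := by decide
  exact key _ (Nat.mem_divisors.mpr ⟨h1, by norm_num⟩) h2 h3

theorem card_conj_order4 (h : Nat.card G = 168) (u : G) (hu : orderOf u = 4) :
    Nat.card {g : G // IsConj u g} = 42 := by
  have := card_conj_mul_card_centralizer u
  rw [card_centralizer_order4 h u hu, h] at this
  omega

theorem card_conj_order2_ge (h : Nat.card G = 168) (t : G) (ht : orderOf t = 2) :
    21 ≤ Nat.card {g : G // IsConj t g} := by
  have h1 := card_conj_mul_card_centralizer t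
  have h2 := card_centralizer_dvd_8 h t (Or.inl ht)
  rw [h] at h1
  have h3 := Nat.le_of_dvd (by norm_num) h2
  nlinarith

theorem card_order8 (h : Nat.card G = 168) : Nat.card {g : G // orderOf g = 8} = 0 := by
  have : IsEmpty {g : G // orderOf g = 8} := ⟨fun g => orderOf_ne_8 h g.1 g.2⟩
  exact Nat.card_of_isEmpty

theorem card_order2_and_4 (h : Nat.card G = 168) :
    Nat.card {g : G // orderOf g = 2} = 21 ∧ Nat.card {g : G // orderOf g = 4} = 42 := by
  have h63 := card_order248 h
  rw [card_order8 h] at h63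
  obtain ⟨u, hu⟩ := exists_order4 h
  obtain ⟨t, ht⟩ := exists_prime_orderOf_dvd_card' (G := G) 2 (two_dvd h)
  have h4 := card_le_of_isConj 4 u hu
  rw [card_conj_order4 h u hu] at h4
  have h2 := (card_conj_order2_ge h t ht).trans (card_le_of_isConj 2 t ht)
  omega

theorem card_order2 (h : Nat.card G = 168) : Nat.card {g : G // orderOf g = 2} = 21 :=
  (card_order2_and_4 h).1

theorem card_order4 (h : Nat.card G = 168) : Nat.card {g : G // orderOf g = 4} = 42 :=
  (card_order2_and_4 h).2

theorem isConj_order2 (h : Nat.card G = 168) (s t : G) (hs : orderOf s = 2)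
    (ht : orderOf t = 2) : IsConj s t :=
  isConj_of_card_le 2 s t hs ht (by rw [card_order2 h]; exact card_conj_order2_ge h s hs)

theorem isConj_order4 (h : Nat.card G = 168) (s t : G) (hs : orderOf s = 4)
    (ht : orderOf t = 4) : IsConj s t :=
  isConj_of_card_le 4 s t hs ht (by rw [card_order4 h, card_conj_order4 h s hs])

theorem card_centralizer_order3 (h : Nat.card G = 168) (y : G) (hy : orderOf y = 3) :
    Nat.card (centralizer ({y} : Set G)) = 3 := by
  obtain ⟨P₀⟩ : Nonempty (Sylow 3 G) := inferInstance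
  obtain ⟨P, hP⟩ := exists_sylow_eq_zpowers P₀ (card_P3 h P₀) y hy
  rw [centralizer_singleton_eq, ← hP]
  exact card_C3 h P

theorem card_centralizer_order7 (h : Nat.card G = 168) (x : G) (hx : orderOf x = 7) :
    Nat.card (centralizer ({x} : Set G)) = 7 := by
  obtain ⟨P₀⟩ : Nonempty (Sylow 7 G) := inferInstance
  obtain ⟨P, hP⟩ := exists_sylow_eq_zpowers P₀ (card_P7 h P₀) x hx
  rw [centralizer_singleton_eq, ← hP]
  exact card_C7 h P

theorem card_conj_order3 (h : Nat.card G = 168) (y : G) (hy : orderOf y = 3) :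
    Nat.card {g : G // IsConj y g} = 56 := by
  have := card_conj_mul_card_centralizer y
  rw [card_centralizer_order3 h y hy, h] at this
  omega

theorem card_conj_order7 (h : Nat.card G = 168) (x : G) (hx : orderOf x = 7) :
    Nat.card {g : G // IsConj x g} = 24 := by
  have := card_conj_mul_card_centralizer x
  rw [card_centralizer_order7 h x hx, h] at this
  omega

theorem isConj_order3 (h : Nat.card G = 168) (s t : G) (hs : orderOf s = 3)
    (ht : orderOf t = 3) : IsConj s t :=
  isConj_of_card_le 3 s t hs ht (by rw [card_order3 h, card_conj_order3 h s hs])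

theorem not_isConj_inv_order7 (h : Nat.card G = 168) (x : G) (hx : orderOf x = 7) :
    ¬ IsConj x x⁻¹ := by
  intro hconj
  obtain ⟨g, hg⟩ := isConj_iff.mp hconj
  obtain ⟨P₀⟩ : Nonempty (Sylow 7 G) := inferInstance
  obtain ⟨P, hP⟩ := exists_sylow_eq_zpowers P₀ (card_P7 h P₀) x hx
  have hgN : g ∈ normalizer ((P : Subgroup G) : Set G) := by
    apply mem_normalizer_fintype
    intro n hn
    have hn' : n ∈ zpowers x := by rw [← hP]; exact hn
    obtain ⟨k, rfl⟩ := mem_zpowers_iff.mp hn'
    have h1 : g * x ^ k * g⁻¹ = (x⁻¹) ^ k := by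
      rw [← hg]
      simp [conj_zpow]
    show g * x ^ k * g⁻¹ ∈ (P : Subgroup G)
    rw [h1, hP]
    exact zpow_mem (inv_mem (mem_zpowers x)) k
  have hodd : orderOf g ∣ 21 := by
    rw [← card_N7 h P]
    exact orderOf_dvd_card_of_mem hgN
  have hg2 : g * g ∈ centralizer ({x} : Set G) := by
    rw [mem_centralizer_iff]
    intro y hy
    rw [Set.mem_singleton_iff] at hy
    subst hy
    have h2 : g * y = y⁻¹ * g := mul_inv_eq_iff_eq_mul.mp hg
    have h3 : g * y⁻¹ = y * g := by
      have h4 : (g * y * g⁻¹)⁻¹ = y := by rw [hg, inv_inv]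
      have h5 : (g * y * g⁻¹)⁻¹ = g * y⁻¹ * g⁻¹ := by group
      rw [h5] at h4
      exact mul_inv_eq_iff_eq_mul.mp h4
    calc y * (g * g) = (y * g) * g := by group
      _ = (g * y⁻¹) * g := by rw [h3]
      _ = g * (y⁻¹ * g) := by group
      _ = g * (g * y) := by rw [h2]
      _ = g * g * y := by group
  have hgC : g ∈ centralizer ({x} : Set G) := by
    obtain ⟨m, hm⟩ : ∃ m, orderOf g + 1 = 2 * m := by
      have key : ∀ d ∈ Nat.divisors 21, d % 2 = 1 := by decide
      have := key _ (Nat.mem_divisors.mpr ⟨hodd, by norm_num⟩)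
      exact ⟨(orderOf g + 1) / 2, by omega⟩
    have h5 : g = (g * g) ^ m := by
      rw [← pow_two, ← pow_mul, ← hm, pow_succ, pow_orderOf_eq_one, one_mul]
    rw [h5]
    exact pow_mem hg2 m
  have hcomm : Commute x g := mem_centralizer_iff.mp hgC x rfl
  have h6 : x = x⁻¹ := by
    rw [← hg, ← hcomm.eq, mul_inv_cancel_right]
  have h7 : x * x = 1 := by
    nth_rewrite 2 [h6]
    exact mul_inv_cancel x
  have h8 : orderOf x ∣ 2 := by
    rw [orderOf_dvd_iff_pow_eq_one, pow_two]; exact h7
  rw [hx] at h8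
  omega

end Cfsg.Agent.Lib.Helper17.G168b
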