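import Mathlib
import Cfsg.Agent.Lib.Helper17.G168b
import Cfsg.Agent.Lib.Helper17.SylowSub
import Cfsg.Agent.Lib.Helper17.DihedralLift

set_option autoImplicit false

namespace Cfsg.Agent.Lib.Helper17.G168c

open Subgroup MulAction Nat
open Cfsg.Agent.Lib.Helper17.Sylow Cfsg.Agent.Lib.Helper17.Sylow2 Cfsg.Agent.Lib.Helper17.Count
open Cfsg.Agent.Lib.Helper17.Count2 Cfsg.Agent.Lib.Helper17.FixedPoints
open Cfsg.Agent.Lib.Helper17.G168 Cfsg.Agent.Lib.Helper17.G168b
open Cfsg.Agent.Lib.Helper17.Classes Cfsg.Agent.Lib.Helper17.SylowConj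

variable {G : Type*} [Group G] [Finite G] [IsSimpleGroup G]

/-- Orders of nonidentity elements of a Sylow 2-subgroup. -/
theorem orderOf_of_mem_sylow2 (h : Nat.card G = 168) (S : Sylow 2 G) (x : G)
    (hx : x ∈ (S : Subgroup G)) (hx1 : x ≠ 1) : orderOf x = 2 ∨ orderOf x = 4 := by
  have h1 : orderOf x ∣ 8 := by
    rw [← card_P2 h S]
    exact orderOf_dvd_card_of_mem hx
  have h2 := orderOf_mem h x
  have h3 : orderOf x ≠ 1 := fun h => hx1 (orderOf_eq_one_iff.mp h)
  have key : ∀ d ∈ Nat.divisors 8, d ∈ ({1, 2, 3, 4, 7} : Finset ℕ) → d ≠ 1 → d = 2 ∨ d = 4 := by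
    decide
  exact key _ (Nat.mem_divisors.mpr ⟨h1, by norm_num⟩) h2 h3

/-- The centralizer of a nonidentity element of `S` commuting with all of `S` is `S`. -/
theorem centralizer_eq_of_central (h : Nat.card G = 168) (S : Sylow 2 G) (z : G)
    (hz : z ∈ (S : Subgroup G)) (hz1 : z ≠ 1) (hc : ∀ t ∈ (S : Subgroup G), t * z = z * t) :
    centralizer ({z} : Set G) = (S : Subgroup G) := by
  have hle : (S : Subgroup G) ≤ centralizer ({z} : Set G) := by
    intro t ht
    rw [mem_centralizer_iff]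
    intro y hy
    rw [Set.mem_singleton_iff] at hy
    subst hy
    exact (hc t ht).symm
  have h8 := card_centralizer_dvd_8 h z (orderOf_of_mem_sylow2 h S z hz hz1)
  symm
  apply Subgroup.eq_of_le_of_card_ge hle
  rw [card_P2 h S]
  exact Nat.le_of_dvd (by norm_num) h8

/-- Every Sylow 2-subgroup has a central involution. -/
theorem exists_central_involution (h : Nat.card G = 168) (S : Sylow 2 G) :
    ∃ z : G, z ∈ (S : Subgroup G) ∧ orderOf z = 2 ∧ centralizer ({z} : Set G) = (S : Subgroup G) := by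
  have hpg : IsPGroup 2 (S : Subgroup G) := S.isPGroup'
  have hnt : Nontrivial (S : Subgroup G) := by
    rw [← Finite.one_lt_card_iff_nontrivial, card_P2 h S]
    norm_num
  have hcnt : Nontrivial (center (S : Subgroup G)) := hpg.center_nontrivial
  have hcpg : IsPGroup 2 (center (S : Subgroup G)) := hpg.to_subgroup _
  have h2 : 2 ∣ Nat.card (center (S : Subgroup G)) := by
    rcases hcpg.card_eq_or_dvd with h1 | h1
    · exfalso
      have := Finite.one_lt_card_iff_nontrivial.mpr hcnt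
      omega
    · exact h1
  obtain ⟨z, hz⟩ := exists_prime_orderOf_dvd_card' (G := center (S : Subgroup G)) 2 h2
  have hzo : orderOf ((z : (S : Subgroup G)) : G) = 2 := by
    rw [Subgroup.orderOf_coe, Subgroup.orderOf_coe]; exact hz
  have hz1 : ((z : (S : Subgroup G)) : G) ≠ 1 := by
    intro h1
    rw [h1, orderOf_one] at hzo
    omega
  refine ⟨((z : (S : Subgroup G)) : G), (z : (S : Subgroup G)).2, hzo, ?_⟩
  apply centralizer_eq_of_central h S _ (z : (S : Subgroup G)).2 hz1
  intro t ht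
  have := (mem_center_iff.mp z.2) ⟨t, ht⟩
  exact congrArg Subtype.val this

/-- Some Sylow 2-subgroup contains two distinct involutions. -/
theorem exists_two_involutions (h : Nat.card G = 168) :
    ∃ (S : Sylow 2 G) (w z : G), w ∈ (S : Subgroup G) ∧ z ∈ (S : Subgroup G) ∧
      orderOf w = 2 ∧ orderOf z = 2 ∧ w ≠ z := by
  by_contra hcon
  push Not at hcon
  have hTI : ∀ (S S' : Sylow 2 G) (x : G), x ∈ (S : Subgroup G) → x ∈ (S' : Subgroup G) →
      x ≠ 1 → S = S' := by
    intro S S' x hxS hxS' hx1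
    obtain ⟨w, hwS, hwS', hw⟩ : ∃ w : G, w ∈ (S : Subgroup G) ∧ w ∈ (S' : Subgroup G) ∧
        orderOf w = 2 := by
      rcases orderOf_of_mem_sylow2 h S x hxS hx1 with h2 | h4
      · exact ⟨x, hxS, hxS', h2⟩
      · refine ⟨x ^ 2, pow_mem hxS 2, pow_mem hxS' 2, ?_⟩
        rw [orderOf_pow' x (by norm_num), h4]
        norm_num
    obtain ⟨z, hzS, hz, hCz⟩ := exists_central_involution h S
    obtain ⟨z', hzS', hz', hCz'⟩ := exists_central_involution h S'
    have e1 := hcon S w z hwS hzS hw hz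
    have e2 := hcon S' w z' hwS' hzS' hw hz'
    apply Sylow.ext
    rw [← hCz, ← hCz', ← e1, ← e2]
  classical
  have : Fintype (Sylow 2 G) := Fintype.ofFinite _
  let f : (Σ S : Sylow 2 G, {x : (S : Subgroup G) // x ≠ 1}) →
      {g : G // orderOf g ∈ ({2, 4} : Finset ℕ)} := fun p =>
    ⟨p.2.1.1, by
      have hx1 : (p.2.1 : G) ≠ 1 := fun h1 => p.2.2 (Subtype.ext h1)
      have := orderOf_of_mem_sylow2 h p.1 p.2.1.1 p.2.1.2 hx1
      simpa using this⟩
  have hf : Function.Injective f := by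
    rintro ⟨S, ⟨x, hxS⟩, hx1⟩ ⟨S', ⟨x', hxS'⟩, hx1'⟩ hab
    have hxx : x = x' := congrArg Subtype.val hab
    subst hxx
    have hx1g : x ≠ 1 := fun h1 => hx1 (Subtype.ext h1)
    have hSS := hTI S S' x hxS hxS' hx1g
    subst hSS
    rfl
  have hle := Nat.card_le_card_of_injective f hf
  rw [Nat.card_sigma] at hle
  have hfib : ∀ S : Sylow 2 G, Nat.card {x : (S : Subgroup G) // x ≠ 1} = 7 := by
    intro S
    have : Fintype (S : Subgroup G) := Fintype.ofFinite _
    rw [Nat.card_eq_fintype_card, Fintype.card_subtype_compl, Fintype.card_subtype_eq,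
      ← Nat.card_eq_fintype_card, card_P2 h S]
  simp_rw [hfib] at hle
  rw [← sum_card_orderOf_eq_card, Finset.sum_insert (by decide), Finset.sum_singleton,
    card_order2 h, card_order4 h] at hle
  simp only [Finset.sum_const, Finset.card_univ, smul_eq_mul] at hle
  rw [← Nat.card_eq_fintype_card, card_sylow2 h] at hle
  omega

/-- Every Sylow 2-subgroup contains two distinct involutions. -/
theorem two_involutions (h : Nat.card G = 168) (T : Sylow 2 G) :
    ∃ (w z : G), w ∈ (T : Subgroup G) ∧ z ∈ (T : Subgroup G) ∧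
      orderOf w = 2 ∧ orderOf z = 2 ∧ w ≠ z := by
  obtain ⟨S, w, z, hw, hz, how, hoz, hne⟩ := exists_two_involutions h
  obtain ⟨g, hg⟩ := MulAction.exists_smul_eq G S T
  refine ⟨g * w * g⁻¹, g * z * g⁻¹, ?_, ?_, ?_, ?_, ?_⟩
  · rw [← hg, mem_smul_sylow_iff]
    simpa [mul_assoc] using hw
  · rw [← hg, mem_smul_sylow_iff]
    simpa [mul_assoc] using hz
  · rw [orderOf_conj_eq, how]
  · rw [orderOf_conj_eq, hoz]
  · intro heq
    apply hne
    simpa using heq

/-- Every Sylow 2-subgroup has an element of order 4. -/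
theorem exists_order4_mem (h : Nat.card G = 168) (T : Sylow 2 G) :
    ∃ u : G, u ∈ (T : Subgroup G) ∧ orderOf u = 4 := by
  by_contra hcon
  push Not at hcon
  apply not_comm_sylow2 h T
  have hsq : ∀ a ∈ (T : Subgroup G), a * a = 1 := by
    intro a ha
    by_cases ha1 : a = 1
    · rw [ha1, one_mul]
    rcases orderOf_of_mem_sylow2 h T a ha ha1 with h2 | h4
    · rw [← pow_two, ← h2]; exact pow_orderOf_eq_one a
    · exact absurd h4 (hcon a ha)
  intro a ha b hb
  have h1 := hsq a ha
  have h2 := hsq b hb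
  have h3 := hsq (a * b) ((T : Subgroup G).mul_mem ha hb)
  have ha' : a⁻¹ = a := inv_eq_of_mul_eq_one_left h1
  have hb' : b⁻¹ = b := inv_eq_of_mul_eq_one_left h2
  have hab' : (a * b)⁻¹ = a * b := inv_eq_of_mul_eq_one_left h3
  rw [← hab', mul_inv_rev, ha', hb']

omit [Finite G] [IsSimpleGroup G] in
/-- Elements of a cyclic group of order 4. -/
theorem mem_zpowers_order4 (u g : G) (hu : orderOf u = 4) (hg : g ∈ zpowers u) :
    g = 1 ∨ g = u ∨ g = u ^ 2 ∨ g = u⁻¹ := by
  obtain ⟨k, rfl⟩ := mem_zpowers_iff.mp hg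
  have h4 : u ^ 4 = 1 := by rw [← hu]; exact pow_orderOf_eq_one u
  have hk : u ^ k = u ^ (k % 4) := by
    have := zpow_mod_orderOf u k
    rw [hu] at this
    exact this.symm
  have h1 : 0 ≤ k % 4 := Int.emod_nonneg k (by norm_num)
  have h2 : k % 4 < 4 := Int.emod_lt_of_pos k (by norm_num)
  rw [hk]
  obtain ⟨m, hm⟩ := Int.eq_ofNat_of_zero_le h1
  rw [hm, zpow_natCast]
  have hm4 : m < 4 := by omega
  interval_cases m
  · left; simp
  · right; left; simp
  · right; right; left; rfl
  · right; right; right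
    rw [eq_inv_iff_mul_eq_one, ← pow_succ]
    exact h4

/-- A non-cyclic-part involution inverts the element of order 4. -/
theorem conj_order4 (h : Nat.card G = 168) (T : Sylow 2 G) (u a : G)
    (hu : u ∈ (T : Subgroup G)) (huo : orderOf u = 4) (ha : a ∈ (T : Subgroup G))
    (haz : a ∉ zpowers u) : a * u * a⁻¹ = u⁻¹ := by
  have hZT : zpowers u ≤ (T : Subgroup G) := by rw [zpowers_le]; exact hu
  have hrel : (zpowers u).relIndex (T : Subgroup G) = 2 := by
    have := card_mul_relIndex hZT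
    rw [Nat.card_zpowers, huo, card_P2 h T] at this
    omega
  have hN := SylowSub.le_normalizer_of_relIndex_prime T.isPGroup' hZT hrel
  have haN := hN ha
  have hmem : a * u * a⁻¹ ∈ zpowers u := (mem_normalizer_iff.mp haN u).mp (mem_zpowers u)
  have hord : orderOf (a * u * a⁻¹) = 4 := by rw [orderOf_conj_eq, huo]
  rcases mem_zpowers_order4 u _ huo hmem with h1 | h1 | h1 | h1
  · rw [h1, orderOf_one] at hord; omega
  · exfalso
    apply haz
    have hC : zpowers u = centralizer ({u} : Set G) := by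
      apply Subgroup.eq_of_le_of_card_ge
      · rw [zpowers_le]; exact mem_centralizer_self u
      · rw [card_centralizer_order4 h u huo, Nat.card_zpowers, huo]
    rw [hC, mem_centralizer_iff]
    intro y hy
    rw [Set.mem_singleton_iff] at hy
    subst hy
    exact (mul_inv_eq_iff_eq_mul.mp h1).symm
  · rw [h1, orderOf_pow' u (by norm_num), huo] at hord
    norm_num at hord
  · exact h1

/-- The Sylow 2-subgroups are dihedral of order 8. -/
theorem sylow2_dihedral (h : Nat.card G = 168) (T : Sylow 2 G) :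
    Nonempty (↥(T : Subgroup G) ≃* DihedralGroup 4) := by
  obtain ⟨u, hu, huo⟩ := exists_order4_mem h T
  obtain ⟨w, z, hw, hz, how, hoz, hne⟩ := two_involutions h T
  obtain ⟨a, ha, hao, haz⟩ : ∃ a : G, a ∈ (T : Subgroup G) ∧ orderOf a = 2 ∧ a ∉ zpowers u := by
    have key : ∀ g : G, orderOf g = 2 → g ∈ zpowers u → g = u ^ 2 := by
      intro g hg hmem
      rcases mem_zpowers_order4 u g huo hmem with h1 | h1 | h1 | h1
      · rw [h1, orderOf_one] at hg; omega
      · rw [h1, huo] at hg; omega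
      · exact h1
      · rw [h1, orderOf_inv, huo] at hg; omega
    by_cases hwz : w ∈ zpowers u
    · refine ⟨z, hz, hoz, fun hzz => hne ?_⟩
      rw [key w how hwz, key z hoz hzz]
    · exact ⟨w, hw, how, hwz⟩
  have hconj := conj_order4 h T u a hu huo ha haz
  have hu4 : (⟨u, hu⟩ : (T : Subgroup G)) ^ 4 = 1 := by
    apply Subtype.ext
    show u ^ 4 = 1
    rw [← huo]; exact pow_orderOf_eq_one u
  have ha2 : (⟨a, ha⟩ : (T : Subgroup G)) * ⟨a, ha⟩ = 1 := by
    apply Subtype.ext
    show a * a = 1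
    rw [← pow_two, ← hao]; exact pow_orderOf_eq_one a
  have hau : (⟨a, ha⟩ : (T : Subgroup G)) * ⟨u, hu⟩ * (⟨a, ha⟩ : (T : Subgroup G))⁻¹
      = (⟨u, hu⟩ : (T : Subgroup G))⁻¹ := by
    apply Subtype.ext
    exact hconj
  let f := DihedralLift.lift (⟨u, hu⟩ : (T : Subgroup G)) ⟨a, ha⟩ hu4 ha2 hau
  have hur : (⟨u, hu⟩ : (T : Subgroup G)) ∈ f.range :=
    ⟨DihedralGroup.r 1, DihedralLift.lift_r_one _ _ hu4 ha2 hau⟩
  have har : (⟨a, ha⟩ : (T : Subgroup G)) ∈ f.range :=
    ⟨DihedralGroup.sr 0, DihedralLift.lift_sr_zero _ _ hu4 ha2 hau⟩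
  have hZr : zpowers (⟨u, hu⟩ : (T : Subgroup G)) ≤ f.range := by
    rw [zpowers_le]; exact hur
  have hcardZ : Nat.card (zpowers (⟨u, hu⟩ : (T : Subgroup G))) = 4 := by
    rw [Nat.card_zpowers, Subgroup.orderOf_mk, huo]
  have hrange : f.range = ⊤ := by
    apply Subgroup.eq_top_of_card_eq
    have h1 : Nat.card f.range ∣ 8 := by
      have h1' := Subgroup.card_subgroup_dvd_card f.range
      rw [card_P2 h T] at h1'
      exact h1'
    have h2 : 4 ∣ Nat.card f.range := by
      have h2' := Subgroup.card_dvd_of_le hZr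
      rw [hcardZ] at h2'
      exact h2'
    have h3 : Nat.card f.range ≠ 4 := by
      intro h4
      have heq := Subgroup.eq_of_le_of_card_ge hZr (by rw [h4, hcardZ])
      apply haz
      rw [← heq] at har
      obtain ⟨k, hk⟩ := mem_zpowers_iff.mp har
      refine mem_zpowers_iff.mpr ⟨k, ?_⟩
      have := congrArg Subtype.val hk
      simpa using this
    have key : ∀ d ∈ Nat.divisors 8, 4 ∣ d → d ≠ 4 → d = 8 := by decide
    rw [card_P2 h T]
    exact key _ (Nat.mem_divisors.mpr ⟨h1, by norm_num⟩) h2 h3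
  have hsurj : Function.Surjective f := MonoidHom.range_eq_top.mp hrange
  have hbij : Function.Bijective f := by
    rw [Nat.bijective_iff_surjective_and_card]
    refine ⟨hsurj, ?_⟩
    rw [DihedralGroup.nat_card, card_P2 h T]
  exact ⟨(MulEquiv.ofBijective f hbij).symm⟩

end Cfsg.Agent.Lib.Helper17.G168c
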