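import Mathlib
import Cfsg.Agent.Lib.Helper23.HNStmt
import Cfsg.Agent.Lib.Helper91.Hall

set_option autoImplicit false

/-!
# S1438, piece HCONJ (second seat): Hall subgroups of equal order of a solvable subgroup `S`
are conjugate in `S` (wrapper of `Cfsg.Agent.Lib.Helper91.Hall.hall_conj`).
-/

namespace Cfsg.Agent.Lib.Helper17.HNHCONJ

open Cfsg.Agent.Lib.Helper23.HNStmt
open scoped Pointwise

universe u

theorem conj_smul_eq_map {G : Type u} [Group G] (g : G) (H : Subgroup G) :
    MulAut.conj g • H = H.map (MulAut.conj g).toMonoidHom := by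
  ext x
  rw [Cfsg.Agent.Lib.Helper91.Hall.mem_conj_smul, Subgroup.mem_map]
  constructor
  · intro hx
    refine ⟨g⁻¹ * x * g, hx, ?_⟩
    simp [mul_assoc]
  · rintro ⟨y, hy, rfl⟩
    have e : g⁻¹ * (MulAut.conj g).toMonoidHom y * g = y := by simp [mul_assoc]
    rw [e]; exact hy

theorem main : HallConj.{u} := by
  intro G _ _ S A B hS hA hB hcard hcop
  have hcA : Nat.card (A.subgroupOf S) = Nat.card A :=
    Cfsg.Agent.Lib.Helper91.Hall.card_subgroupOf_of_le A S hA
  have hcB : Nat.card (B.subgroupOf S) = Nat.card A :=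
    (Cfsg.Agent.Lib.Helper91.Hall.card_subgroupOf_of_le B S hB).trans hcard.symm
  have h1 : Nat.card S = Nat.card A * A.relIndex S := by
    have h' := Subgroup.card_mul_index (A.subgroupOf S)
    rw [hcA] at h'
    exact h'.symm
  obtain ⟨l, hl⟩ := Cfsg.Agent.Lib.Helper91.Hall.hall_conj (G := ↥S) (Nat.card A)
    (A.relIndex S) h1 hcop (A.subgroupOf S) (B.subgroupOf S) hcA hcB
  have h2 := Cfsg.Agent.Lib.Helper91.Hall.conj_of_subgroupOf S A B hA hB l hl
  exact ⟨(l : G), l.2, by rw [← h2, conj_smul_eq_map]⟩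

end Cfsg.Agent.Lib.Helper17.HNHCONJ
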