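import Mathlib
import Cfsg.Agent.Lib.Helper17.KleinFS

/-!
Brauer's order formula for groups with Klein four Sylow `2`-subgroups, one class of involutions
and principal `2`-block `{1, χ₁, χ₂, χ₃}` with `ε₃ = -1`, `ε₁ ε₂ ε₃ = -1`: the `PSL(2,q)` shape
`8 |G| = m³ c(P) (q³ - q)`, `4 c(J) = m c(P) (q + 1)`.
-/

set_option autoImplicit false
set_option linter.style.haveILetI false

namespace Cfsg.Agent.Lib.Helper17.KleinPSL

open Cfsg Subgroup Cfsg.Agent.Lib.CT.Wedderburn Cfsg.Agent.Lib.CT.ThirdMain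
open Cfsg.Agent.Lib.Helper17.KleinLocal Cfsg.Agent.Lib.Helper17.KleinCount
open Cfsg.Agent.Lib.Helper17.KleinChar Cfsg.Agent.Lib.Helper17.KleinOrder
open Cfsg.Agent.Lib.Helper17.KleinFS

universe u
variable {G : Type u} [Group G]

/-- The arithmetic behind the `PSL(2,q)` shape. -/
theorem arith (N cJ cP a q : ℕ) (hcP : 0 < cP) (hcJ : cP ∣ cJ) (hN : cJ ∣ N) (hcJ0 : 0 < cJ)
    (hq : q = 2 * a + 1) (ha : a % 4 = 1)
    (hF : N * (2 * (a + 1) ^ 2) * cP ^ 2 = 8 * cJ ^ 3 * a * (2 * a + 1)) :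
    ∃ m : ℕ, 4 * cJ = m * cP * (q + 1) ∧ 8 * N = m ^ 3 * cP * (q ^ 3 - q) := by
  obtain ⟨b, rfl⟩ : ∃ b, a = 4 * b + 1 := ⟨a / 4, by omega⟩
  subst hq
  obtain ⟨κ, rfl⟩ := hcJ
  obtain ⟨k, rfl⟩ := hN
  have hκ : 0 < κ := Nat.pos_of_ne_zero (by rintro rfl; simp at hcJ0)
  obtain ⟨s, hs⟩ : ∃ s, s = 2 * b + 1 := ⟨_, rfl⟩
  have hs0 : 0 < s := by omega
  have h1 : k * s ^ 2 = κ ^ 2 * ((4 * b + 1) * (2 * (4 * b + 1) + 1)) := by
    have h2 : (cP * κ * k) * (2 * (4 * b + 1 + 1) ^ 2) * cP ^ 2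
        = (8 * cP ^ 3 * κ) * (k * s ^ 2) := by rw [hs]; ring
    have h3 : 8 * (cP * κ) ^ 3 * (4 * b + 1) * (2 * (4 * b + 1) + 1)
        = (8 * cP ^ 3 * κ) * (κ ^ 2 * ((4 * b + 1) * (2 * (4 * b + 1) + 1))) := by ring
    rw [h2, h3] at hF
    exact Nat.eq_of_mul_eq_mul_left
      (Nat.mul_pos (Nat.mul_pos (by norm_num) (pow_pos hcP 3)) hκ) hF
  have hc1 : Nat.Coprime s (4 * b + 1) := by
    have hd : Nat.gcd s (4 * b + 1) ∣ 2 * s - (4 * b + 1) :=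
      Nat.dvd_sub (dvd_mul_of_dvd_right (Nat.gcd_dvd_left s (4 * b + 1)) 2)
        (Nat.gcd_dvd_right s (4 * b + 1))
    have he : 2 * s - (4 * b + 1) = 1 := by omega
    rw [he] at hd
    exact Nat.dvd_one.mp hd
  have hc2 : Nat.Coprime s (2 * (4 * b + 1) + 1) := by
    have hd : Nat.gcd s (2 * (4 * b + 1) + 1) ∣ 4 * s - (2 * (4 * b + 1) + 1) :=
      Nat.dvd_sub (dvd_mul_of_dvd_right (Nat.gcd_dvd_left s (2 * (4 * b + 1) + 1)) 4)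
        (Nat.gcd_dvd_right s (2 * (4 * b + 1) + 1))
    have he : 4 * s - (2 * (4 * b + 1) + 1) = 1 := by omega
    rw [he] at hd
    exact Nat.dvd_one.mp hd
  have hc : Nat.Coprime (s ^ 2) ((4 * b + 1) * (2 * (4 * b + 1) + 1)) :=
    (Nat.Coprime.mul_right hc1 hc2).pow_left 2
  have hd : s ^ 2 ∣ κ ^ 2 := hc.dvd_of_dvd_mul_right ⟨k, by rw [← h1]; ring⟩
  have hd' : s ∣ κ := (Nat.pow_dvd_pow_iff (by norm_num)).1 hd
  obtain ⟨m, rfl⟩ := hd'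
  refine ⟨m, ?_, ?_⟩
  · rw [hs]; ring
  · have hk : k = m ^ 2 * ((4 * b + 1) * (2 * (4 * b + 1) + 1)) := by
      have h4 : k * s ^ 2 = (m ^ 2 * ((4 * b + 1) * (2 * (4 * b + 1) + 1))) * s ^ 2 := by
        rw [h1]; ring
      exact Nat.eq_of_mul_eq_mul_right (pow_pos hs0 2) h4
    have hsub : (2 * (4 * b + 1) + 1) ^ 3 - (2 * (4 * b + 1) + 1)
        = 8 * (4 * b + 1) * (2 * (4 * b + 1) + 1) * (2 * b + 1) := by
      apply Nat.sub_eq_of_eq_add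
      ring
    rw [hsub, hk, hs]
    ring

/-- The `PSL(2,q)` shape of the order formula. -/
theorem psl_shape [Finite G] (M : Ideal AlgInt) (hM : IsPModular 2 M) (P : Sylow 2 G)
    (hP : Nat.card (P : Subgroup G) = 4) (hexp : ∀ x ∈ (P : Subgroup G), x * x = 1)
    (hone : ∀ s t : G, orderOf s = 2 → orderOf t = 2 → IsConj s t) (J : G)
    (hJ : J ∈ (P : Subgroup G)) (hJ2 : orderOf J = 2) (χ₁ χ₂ χ₃ : IrrCharacter G)
    (ε₁ ε₂ ε₃ : ℤ)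
    (hB : principalBlock M G = {χ : IrrCharacter G | (χ : G → ℂ) = (fun _ => 1) ∨ χ = χ₁ ∨
      χ = χ₂ ∨ χ = χ₃})
    (hdist : (χ₁ : G → ℂ) ≠ (fun _ => 1) ∧ (χ₂ : G → ℂ) ≠ (fun _ => 1) ∧
      (χ₃ : G → ℂ) ≠ (fun _ => 1) ∧ χ₁ ≠ χ₂ ∧ χ₁ ≠ χ₃ ∧ χ₂ ≠ χ₃)
    (hε : (ε₁ = 1 ∨ ε₁ = -1) ∧ (ε₂ = 1 ∨ ε₂ = -1) ∧ (ε₃ = 1 ∨ ε₃ = -1))
    (hval : (χ₁ : G → ℂ) J = ε₁ ∧ (χ₂ : G → ℂ) J = ε₂ ∧ (χ₃ : G → ℂ) J = ε₃)
    (hprod : ε₁ * ε₂ * ε₃ = -1) (hε₃ : ε₃ = -1) :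
    ∃ m : ℕ, 4 * Nat.card (centralizer ({J} : Set G))
        = m * Nat.card (centralizer ((P : Subgroup G) : Set G))
          * (charDegree (χ₃ : G → ℂ) + 1) ∧
      8 * Nat.card G = m ^ 3 * Nat.card (centralizer ((P : Subgroup G) : Set G))
        * (charDegree (χ₃ : G → ℂ) ^ 3 - charDegree (χ₃ : G → ℂ)) := by
  classical
  have hF := order_formula M hM P hP hexp hone J hJ hJ2 χ₁ χ₂ χ₃ ε₁ ε₂ ε₃ hB hdist hε hval
  have hD := degree_equation M hM J hJ2 χ₁ χ₂ χ₃ ε₁ ε₂ ε₃ hB hdist hval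
  have hx1 := char_natCast_charDegree (isCharacter_of_irr χ₁.2)
  have hx2 := char_natCast_charDegree (isCharacter_of_irr χ₂.2)
  have hx3 := char_natCast_charDegree (isCharacter_of_irr χ₃.2)
  have hp1 := irr_charDegree_pos χ₁.2
  have hp2 := irr_charDegree_pos χ₂.2
  have hp3 := irr_charDegree_pos χ₃.2
  rw [← hx1, ← hx2, ← hx3] at hF hD
  obtain ⟨d1, -, -⟩ := degree_mod_four P hP hexp hone J hJ2 χ₁ χ₂ χ₃ ε₁ ε₂ ε₃ hval
  have hDZ : (1 : ℤ) + ε₁ * (charDegree (χ₁ : G → ℂ) : ℤ) + ε₂ * (charDegree (χ₂ : G → ℂ) : ℤ)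
      + ε₃ * (charDegree (χ₃ : G → ℂ) : ℤ) = 0 := by exact_mod_cast hD
  have h1 : ε₁ = 1 := by
    rcases hε.1 with h | h
    · exact h
    · exfalso
      rcases hε.2.1 with h' | h'
      · rw [h, h', hε₃] at hprod; norm_num at hprod
      · rw [h, h', hε₃] at hDZ; omega
  have h2 : ε₂ = 1 := by
    rcases hε.2.1 with h | h
    · exact h
    · rw [h1, h, hε₃] at hprod; norm_num at hprod
  have hdeg := degrees_eq M hM P hP hexp hone J hJ2 χ₁ χ₂ χ₃ ε₁ ε₂ ε₃ hB hdist hval h1 h2 hε₃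
  rw [h1, h2, hε₃, ← hdeg] at hDZ
  rw [h1, h2, hε₃, ← hdeg] at hF
  rw [h1] at d1
  have hq : charDegree (χ₃ : G → ℂ) = 2 * charDegree (χ₁ : G → ℂ) + 1 := by omega
  have ha : charDegree (χ₁ : G → ℂ) % 4 = 1 := by
    obtain ⟨j, hj⟩ := d1
    omega
  have hcP0 : 0 < Nat.card (centralizer ((P : Subgroup G) : Set G)) := Nat.card_pos
  have hcJ0 : 0 < Nat.card (centralizer ({J} : Set G)) := Nat.card_pos
  have hdvd1 : Nat.card (centralizer ((P : Subgroup G) : Set G))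
      ∣ Nat.card (centralizer ({J} : Set G)) :=
    Subgroup.card_dvd_of_le (Subgroup.centralizer_le (Set.singleton_subset_iff.mpr hJ))
  have hdvd2 : Nat.card (centralizer ({J} : Set G)) ∣ Nat.card G :=
    Subgroup.card_subgroup_dvd_card _
  refine arith (Nat.card G) _ _ (charDegree (χ₁ : G → ℂ)) _ hcP0 hdvd1 hdvd2 hcJ0 hq ha ?_
  have ha0 : ((charDegree (χ₁ : G → ℂ) : ℕ) : ℂ) ≠ 0 := by exact_mod_cast hp1.ne'
  have hqC : ((charDegree (χ₃ : G → ℂ) : ℕ) : ℂ) = 2 * (charDegree (χ₁ : G → ℂ) : ℂ) + 1 := by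
    rw [hq]; push_cast; ring
  have hq0 : (2 * (charDegree (χ₁ : G → ℂ) : ℂ) + 1) ≠ 0 := by
    rw [← hqC]; exact_mod_cast hp3.ne'
  rw [hqC] at hF
  push_cast at hF
  have hS' : ∀ x y : ℂ, x ≠ 0 → y ≠ 0 → y = 2 * x + 1 →
      ((1 : ℂ) + 1 / x + 1 / x + -1 / y) * (x * y) = 2 * (x + 1) ^ 2 := by
    intro x y hx hy hxy
    have h5 : ((1 : ℂ) + 1 / x + 1 / x + -1 / y) * (x * y) = x * y + 2 * y - x := by
      field_simp
      ring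
    rw [h5, hxy]
    ring
  have hS := hS' (charDegree (χ₁ : G → ℂ) : ℂ) (2 * (charDegree (χ₁ : G → ℂ) : ℂ) + 1) ha0 hq0 rfl
  have hFC : (Nat.card G : ℂ) * (2 * ((charDegree (χ₁ : G → ℂ) : ℂ) + 1) ^ 2)
      * (Nat.card (centralizer ((P : Subgroup G) : Set G)) : ℂ) ^ 2
      = 8 * (Nat.card (centralizer ({J} : Set G)) : ℂ) ^ 3 * (charDegree (χ₁ : G → ℂ) : ℂ)
        * (2 * (charDegree (χ₁ : G → ℂ) : ℂ) + 1) := by
    linear_combination ((charDegree (χ₁ : G → ℂ) : ℂ) * (2 * (charDegree (χ₁ : G → ℂ) : ℂ) + 1))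
      * hF - (Nat.card G : ℂ) * (Nat.card (centralizer ((P : Subgroup G) : Set G)) : ℂ) ^ 2 * hS
  exact_mod_cast hFC

end Cfsg.Agent.Lib.Helper17.KleinPSL
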