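import Mathlib

/-!
Counting with fixed point numbers: from the power sums `∑ f = N`, `∑ f² = 2N`, `∑ f³ = 5N`
and a lower bound for the number of fixed-point-free elements, every element with at least
three fixed points fixes everything; and sharp triple transitivity from counting.
-/

set_option autoImplicit false
set_option linter.style.haveILetI false

namespace Cfsg.Agent.Lib.Helper17.PrimeDegB

universe u

/-- If the fixed-point-free elements are as numerous as possible, elements with at least three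
fixed points fix all `p` points. -/
theorem fix_three {G : Type u} [Fintype G] [DecidableEq G] (f : G → ℕ) (p N : ℕ)
    (hS1 : ∑ g : G, f g = N) (hS2 : ∑ g : G, f g ^ 2 = 2 * N) (hS3 : ∑ g : G, f g ^ 3 = 5 * N)
    (hN : Fintype.card G = N) (hle : ∀ g, f g ≤ p)
    (hzero : (p - 1) * N ≤ 2 * p * (Finset.univ.filter (fun g => f g = 0)).card)
    (hp : 1 ≤ p) :
    ∀ g, 3 ≤ f g → f g = p := by
  classical
  obtain ⟨Z, hZ⟩ : ∃ Z : ℕ, Z = (Finset.univ.filter (fun g : G => f g = 0)).card := ⟨_, rfl⟩
  rw [← hZ] at hzero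
  -- the integer-valued weight
  have hφsum : ∑ g : G, (((f g : ℤ) - 1) * ((f g : ℤ) - 2) * ((p : ℤ) - f g))
      = ((p : ℤ) - 1) * N := by
    have h1 : ∀ g : G, (((f g : ℤ) - 1) * ((f g : ℤ) - 2) * ((p : ℤ) - f g))
        = -((f g : ℤ) ^ 3) + ((p : ℤ) + 3) * (f g : ℤ) ^ 2 - (3 * (p : ℤ) + 2) * (f g : ℤ)
          + 2 * (p : ℤ) := fun g => by ring
    rw [Finset.sum_congr rfl (fun g _ => h1 g), Finset.sum_add_distrib, Finset.sum_sub_distrib,
      Finset.sum_add_distrib, Finset.sum_neg_distrib, ← Finset.mul_sum, ← Finset.mul_sum,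
      Finset.sum_const, Finset.card_univ, hN]
    have e1 : ∑ g : G, (f g : ℤ) = N := by exact_mod_cast hS1
    have e2 : ∑ g : G, (f g : ℤ) ^ 2 = 2 * N := by exact_mod_cast hS2
    have e3 : ∑ g : G, (f g : ℤ) ^ 3 = 5 * N := by exact_mod_cast hS3
    rw [e1, e2, e3]
    simp only [nsmul_eq_mul]
    ring
  have hnonneg : ∀ g : G, 0 ≤ (((f g : ℤ) - 1) * ((f g : ℤ) - 2) * ((p : ℤ) - f g)) := by
    intro g
    have h1 : (f g : ℤ) ≤ p := by exact_mod_cast hle g
    rcases Nat.lt_or_ge (f g) 2 with h | h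
    · interval_cases hfg : f g
      · norm_num
      · norm_num
    · have h2 : (2 : ℤ) ≤ f g := by exact_mod_cast h
      apply mul_nonneg (mul_nonneg _ _) <;> linarith
  have hsplit := Finset.sum_filter_add_sum_filter_not Finset.univ (fun g : G => f g = 0)
    (fun g => (((f g : ℤ) - 1) * ((f g : ℤ) - 2) * ((p : ℤ) - f g)))
  have hfirst : ∑ g ∈ Finset.univ.filter (fun g : G => f g = 0),
      (((f g : ℤ) - 1) * ((f g : ℤ) - 2) * ((p : ℤ) - f g)) = 2 * (p : ℤ) * Z := by
    rw [Finset.sum_congr rfl (g := fun _ => 2 * (p : ℤ))]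
    · rw [Finset.sum_const, ← hZ]
      simp only [nsmul_eq_mul]
      ring
    · intro g hg
      rw [Finset.mem_filter] at hg
      rw [hg.2]
      push_cast
      ring
  have hsecond : ∑ g ∈ Finset.univ.filter (fun g : G => ¬ f g = 0),
      (((f g : ℤ) - 1) * ((f g : ℤ) - 2) * ((p : ℤ) - f g)) = 0 := by
    have h1 : 0 ≤ ∑ g ∈ Finset.univ.filter (fun g : G => ¬ f g = 0),
        (((f g : ℤ) - 1) * ((f g : ℤ) - 2) * ((p : ℤ) - f g)) :=
      Finset.sum_nonneg (fun g _ => hnonneg g)
    have h2 : (((p - 1 : ℕ) : ℤ)) * N ≤ 2 * (p : ℤ) * Z := by exact_mod_cast hzero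
    rw [Nat.cast_sub hp] at h2
    rw [hfirst, hφsum] at hsplit
    push_cast at h2
    linarith
  intro g hg
  have h1 := (Finset.sum_eq_zero_iff_of_nonneg (fun g _ => hnonneg g)).mp hsecond g
    (Finset.mem_filter.mpr ⟨Finset.mem_univ _, by omega⟩)
  have h3 : (3 : ℤ) ≤ f g := by exact_mod_cast hg
  rcases mul_eq_zero.mp h1 with h | h
  · rcases mul_eq_zero.mp h with h' | h' <;> omega
  · omega

/-- The group order, when only the identity has at least three fixed points. -/
theorem card_eq {G : Type u} [Fintype G] [DecidableEq G] [One G] (f : G → ℕ) (p N : ℕ)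
    (hS1 : ∑ g : G, f g = N) (hS2 : ∑ g : G, f g ^ 2 = 2 * N) (hS3 : ∑ g : G, f g ^ 3 = 5 * N)
    (hone : f 1 = p) (hfix : ∀ g, 3 ≤ f g → g = 1) (hp : 3 ≤ p) :
    N = p * (p - 1) * (p - 2) := by
  have hsum : ∑ g : G, ((f g : ℤ) * ((f g : ℤ) - 1) * ((f g : ℤ) - 2)) = N := by
    have h1 : ∀ g : G, ((f g : ℤ) * ((f g : ℤ) - 1) * ((f g : ℤ) - 2))
        = (f g : ℤ) ^ 3 - 3 * (f g : ℤ) ^ 2 + 2 * (f g : ℤ) := fun g => by ring
    rw [Finset.sum_congr rfl (fun g _ => h1 g), Finset.sum_add_distrib, Finset.sum_sub_distrib,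
      ← Finset.mul_sum, ← Finset.mul_sum]
    have e1 : ∑ g : G, (f g : ℤ) = N := by exact_mod_cast hS1
    have e2 : ∑ g : G, (f g : ℤ) ^ 2 = 2 * N := by exact_mod_cast hS2
    have e3 : ∑ g : G, (f g : ℤ) ^ 3 = 5 * N := by exact_mod_cast hS3
    rw [e1, e2, e3]
    ring
  rw [Finset.sum_eq_single (1 : G)] at hsum
  · rw [hone] at hsum
    have h2 : ((p * (p - 1) * (p - 2) : ℕ) : ℤ) = N := by
      rw [← hsum]
      push_cast [Nat.cast_sub (by omega : 1 ≤ p), Nat.cast_sub (by omega : 2 ≤ p)]
      ring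
    exact_mod_cast h2.symm
  · intro g _ hg1
    have h1 : f g < 3 := by
      by_contra h
      exact hg1 (hfix g (by omega))
    interval_cases hfg : f g <;> norm_num
  · intro h
    exact absurd (Finset.mem_univ _) h

/-- Sharp triple transitivity from counting. -/
theorem three_transitive {α : Type*} [Fintype α] [DecidableEq α] (G : Subgroup (Equiv.Perm α))
    (hfix : ∀ g : G, 3 ≤ Nat.card (MulAction.fixedBy α g) → g = 1)
    (hcard : Nat.card G = Fintype.card α * (Fintype.card α - 1) * (Fintype.card α - 2)) :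
    MulAction.IsMultiplyPretransitive G α 3 := by
  classical
  haveI : Fintype G := Fintype.ofFinite G
  haveI : Fintype (Quotient (MulAction.orbitRel G (Fin 3 ↪ α))) := Fintype.ofFinite _
  have hB := MulAction.sum_card_fixedBy_eq_card_orbits_mul_card_group G (Fin 3 ↪ α)
  have hG0 : 0 < Fintype.card G := Fintype.card_pos
  rw [Finset.sum_eq_single (1 : G)] at hB
  · have h1 : Fintype.card (MulAction.fixedBy (Fin 3 ↪ α) (1 : G))
        = Fintype.card α * (Fintype.card α - 1) * (Fintype.card α - 2) := by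
      have h2 : Fintype.card (MulAction.fixedBy (Fin 3 ↪ α) (1 : G)) = Fintype.card (Fin 3 ↪ α) :=
        Fintype.card_congr (Equiv.subtypeUnivEquiv (fun x => by simp [MulAction.mem_fixedBy]))
      rw [h2, Fintype.card_embedding_eq, Fintype.card_fin]
      simp [Nat.descFactorial]
      ring
    rw [h1, ← hcard, Nat.card_eq_fintype_card] at hB
    have h3 : Fintype.card (Quotient (MulAction.orbitRel G (Fin 3 ↪ α))) = 1 := by
      have h4 : 1 * Fintype.card G
          = Fintype.card (Quotient (MulAction.orbitRel G (Fin 3 ↪ α))) * Fintype.card G := by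
        rw [one_mul]; exact hB
      exact (Nat.eq_of_mul_eq_mul_right hG0 h4).symm
    have hsub : Subsingleton (MulAction.orbitRel.Quotient G (Fin 3 ↪ α)) :=
      Fintype.card_le_one_iff_subsingleton.mp (le_of_eq h3)
    exact (MulAction.pretransitive_iff_subsingleton_quotient G (Fin 3 ↪ α)).2 hsub
  · intro g _ hg1
    rw [Fintype.card_eq_zero_iff]
    constructor
    rintro ⟨x, hx⟩
    apply hg1
    apply hfix
    rw [MulAction.mem_fixedBy] at hx
    have hxi : ∀ i, g • x i = x i := by
      intro i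
      have := congrArg (fun e : Fin 3 ↪ α => e i) hx
      exact (Function.Embedding.smul_apply g x i).symm.trans this
    have h2 : 2 < Nat.card (MulAction.fixedBy α g) := by
      rw [Nat.card_eq_fintype_card, Fintype.two_lt_card_iff]
      refine ⟨⟨x 0, hxi 0⟩, ⟨x 1, hxi 1⟩, ⟨x 2, hxi 2⟩, ?_, ?_, ?_⟩
      · intro h
        have := x.injective (congrArg Subtype.val h)
        simp at this
      · intro h
        have := x.injective (congrArg Subtype.val h)
        simp at this
      · intro h
        have := x.injective (congrArg Subtype.val h)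
        simp at this
    omega
  · intro h
    exact absurd (Finset.mem_univ _) h

end Cfsg.Agent.Lib.Helper17.PrimeDegB
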