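import Mathlib
import Cfsg.Agent.Lib.Helper83.S51Stmt

/-!
# S1351 gap, piece SYLGEN (helper17): a subgroup containing a Sylow `p`-subgroup of `E` for every
prime `p` contains `E`.
-/

set_option autoImplicit false

namespace Cfsg.Agent.Lib.Helper17.S51SYLGEN

open Cfsg Cfsg.Agent.Lib.Helper83.S51Stmt

universe u

theorem main : SylGen.{u} := by
  intro G _ _ E K h
  have hH : K.subgroupOf E = ⊤ := by
    apply Subgroup.eq_top_of_le_card
    apply Nat.le_of_dvd Nat.card_pos
    rw [← Nat.factorization_prime_le_iff_dvd Nat.card_pos.ne' Nat.card_pos.ne']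
    intro p hp
    have : Fact p.Prime := ⟨hp⟩
    obtain ⟨S⟩ : Nonempty (Sylow p E) := inferInstance
    have hS : (S : Subgroup E) ≤ K.subgroupOf E := by
      intro x hx
      rw [Subgroup.mem_subgroupOf]
      exact h p S (Subgroup.mem_map_of_mem _ hx)
    have h1 := Subgroup.card_dvd_of_le hS
    rw [Sylow.card_eq_multiplicity] at h1
    exact (hp.pow_dvd_iff_le_factorization Nat.card_pos.ne').1 h1
  intro x hx
  have : (⟨x, hx⟩ : E) ∈ K.subgroupOf E := by rw [hH]; exact Subgroup.mem_top _
  exact Subgroup.mem_subgroupOf.1 this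

end Cfsg.Agent.Lib.Helper17.S51SYLGEN
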