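import Mathlib
import Cfsg.Agent.Lib.Helper22.S56Stmt
import Cfsg.Agent.Lib.Helper17.S64FHHALL
import Cfsg.Agent.Lib.Helper78.Fitting
import Cfsg.Agent.Lib.Helper65.NilCoprime

set_option autoImplicit false

/-!
# S1356, piece FLE2 (second seat): `F(X) ≤ C_X(X_F) X_F`
-/

namespace Cfsg.Agent.Lib.Helper17.S56FLE2

open Cfsg.Agent.Lib.Helper22.S56Stmt

universe u

theorem main : FLe2.{u} := by
  intro X _ _
  have hFnil : Group.IsNilpotent (Cfsg.fittingSubgroup X) :=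
    Cfsg.Agent.Lib.Helper78.Fitting.fitting_isNilpotent
  have hNF : Cfsg.fittingHall X ≤ Cfsg.fittingSubgroup X := by
    apply sSup_le_sSup
    rintro N ⟨h1, h2, _⟩
    exact ⟨h1, h2⟩
  have hcop : (Nat.card ↥(Cfsg.fittingHall X)).Coprime (Cfsg.fittingHall X).index :=
    Cfsg.Agent.Lib.Helper17.S64FHHALL.main
  intro x hx
  obtain ⟨n, hn⟩ : ∃ n : ℕ, n = Nat.card ↥(Cfsg.fittingHall X) := ⟨_, rfl⟩
  obtain ⟨m, hm⟩ : ∃ m : ℕ, m = (Cfsg.fittingHall X).index := ⟨_, rfl⟩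
  rw [← hn, ← hm] at hcop
  have hxm : x ^ m ∈ Cfsg.fittingHall X := by
    rw [hm]; exact Subgroup.pow_index_mem _ x
  have hxmn : (x ^ m) ^ n = 1 := by
    apply orderOf_dvd_iff_pow_eq_one.mp
    rw [hn]
    exact Subgroup.orderOf_dvd_natCard _ hxm
  have hy : (x ^ n) ^ m = 1 := by
    rw [← pow_mul, mul_comm, pow_mul]; exact hxmn
  have hyord : orderOf (x ^ n) ∣ m := orderOf_dvd_of_pow_eq_one hy
  have hycent : x ^ n ∈ Subgroup.centralizer ((Cfsg.fittingHall X : Subgroup X) : Set X) := by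
    rw [Subgroup.mem_centralizer_iff]
    intro z hz
    have hzord : orderOf z ∣ n := by
      rw [hn]; exact Subgroup.orderOf_dvd_natCard _ hz
    have hc : (orderOf z).Coprime (orderOf (x ^ n)) :=
      Nat.Coprime.coprime_dvd_left hzord (Nat.Coprime.coprime_dvd_right hyord hcop)
    have hzF : z ∈ Cfsg.fittingSubgroup X := hNF hz
    have hyF : x ^ n ∈ Cfsg.fittingSubgroup X := Subgroup.pow_mem _ hx n
    have h' := Cfsg.Agent.Lib.Helper65.NilCoprime.commute_of_coprime ↥(Cfsg.fittingSubgroup X)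
      ⟨z, hzF⟩ ⟨x ^ n, hyF⟩ (isOfFinOrder_of_finite _) (isOfFinOrder_of_finite _)
      (by rw [Subgroup.orderOf_mk, Subgroup.orderOf_mk]; exact hc)
    exact congrArg Subtype.val h'
  have hb : (n : ℤ) * Nat.gcdA n m + (m : ℤ) * Nat.gcdB n m = 1 := by
    have h' := Nat.gcd_eq_gcd_ab n m
    rw [hcop.gcd_eq_one] at h'
    rw [← h']; simp
  have hx_eq : x = (x ^ n) ^ (Nat.gcdA n m) * (x ^ m) ^ (Nat.gcdB n m) := by
    rw [← zpow_natCast x n, ← zpow_natCast x m, ← zpow_mul, ← zpow_mul, ← zpow_add, hb, zpow_one]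
  rw [hx_eq]
  exact Subgroup.mul_mem _ (Subgroup.mem_sup_left (Subgroup.zpow_mem _ hycent _))
    (Subgroup.mem_sup_right (Subgroup.zpow_mem _ hxm _))

end Cfsg.Agent.Lib.Helper17.S56FLE2
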