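import Mathlib
import Cfsg.Agent.Lib.Helper93.S64Stmt

set_option autoImplicit false

namespace Cfsg.Agent.Lib.Helper17.S64NC

open Cfsg.Agent.Lib.Helper93.S64Stmt
open scoped commutatorElement

universe u

/-- automorphisms of a cyclic group commute -/
theorem mulAut_comm {N : Type u} [Group N] [IsCyclic N] (σ τ : MulAut N) : σ * τ = τ * σ := by
  obtain ⟨m1, h1⟩ := MonoidHom.map_cyclic σ.toMonoidHom
  obtain ⟨m2, h2⟩ := MonoidHom.map_cyclic τ.toMonoidHom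
  have e1 : ∀ g : N, σ g = g ^ m1 := h1
  have e2 : ∀ g : N, τ g = g ^ m2 := h2
  ext n
  show σ (τ n) = τ (σ n)
  rw [e2, e1, e1, e2, ← zpow_mul, ← zpow_mul, mul_comm]

/-- the derived subgroup centralizes a cyclic normal subgroup -/
theorem commutator_le_centralizer {M : Type u} [Group M] (N : Subgroup M) [N.Normal]
    [IsCyclic ↥N] :
    ⁅(⊤ : Subgroup M), (⊤ : Subgroup M)⁆ ≤ Subgroup.centralizer (N : Set M) := by
  rw [Subgroup.commutator_le]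
  intro a _ b _
  rw [Subgroup.mem_centralizer_iff]
  intro n hn
  have h1 : MulAut.conjNormal (H := N) ⁅a, b⁆ = 1 := by
    rw [commutatorElement_def, map_mul, map_mul, map_mul, map_inv, map_inv,
      mulAut_comm (MulAut.conjNormal a) (MulAut.conjNormal b)]
    group
  have h2 : ((MulAut.conjNormal (H := N) ⁅a, b⁆ ⟨n, hn⟩ : ↥N) : M) = n := by
    rw [h1]
    rfl
  rw [MulAut.conjNormal_apply] at h2
  calc n * ⁅a, b⁆ = (⁅a, b⁆ * n * ⁅a, b⁆⁻¹) * ⁅a, b⁆ := by rw [h2]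
    _ = ⁅a, b⁆ * n := by group

theorem main : NC.{u} := by
  intro M _ _ N hN hcyc hcop
  classical
  have hNn : N.Normal := hN
  have hcent := commutator_le_centralizer N
  rw [eq_bot_iff]
  intro z hz
  obtain ⟨hzN, hzDD⟩ := hz
  rw [Subgroup.mem_bot]
  rw [← Subgroup.map_subtype_commutator] at hzDD
  obtain ⟨w, hw, rfl⟩ := hzDD
  let _ : CommGroup ↥N := IsCyclic.commGroup
  let ϕ : ↥(N.subgroupOf ⁅(⊤ : Subgroup M), (⊤ : Subgroup M)⁆) →* ↥N :=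
    { toFun := fun x => ⟨x.1.1, x.2⟩
      map_one' := rfl
      map_mul' := fun _ _ => rfl }
  have hwN₁ : w ∈ N.subgroupOf ⁅(⊤ : Subgroup M), (⊤ : Subgroup M)⁆ := hzN
  have hkey : ∀ (k : ℕ) (g₀ : ↥⁅(⊤ : Subgroup M), (⊤ : Subgroup M)⁆),
      g₀⁻¹ * w ^ k * g₀ ∈ N.subgroupOf ⁅(⊤ : Subgroup M), (⊤ : Subgroup M)⁆ →
      g₀⁻¹ * w ^ k * g₀ = w ^ k := by
    intro k g₀ _
    have h1 : ((w ^ k : ↥⁅(⊤ : Subgroup M), (⊤ : Subgroup M)⁆) : M) ∈ N :=
      Subgroup.pow_mem _ hwN₁ k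
    have h2 := (Subgroup.mem_centralizer_iff.1 (hcent g₀.2)) _ h1
    apply Subtype.ext
    show (g₀.1)⁻¹ * ((w ^ k : ↥⁅(⊤ : Subgroup M), (⊤ : Subgroup M)⁆) : M) * g₀.1 =
      ((w ^ k : ↥⁅(⊤ : Subgroup M), (⊤ : Subgroup M)⁆) : M)
    rw [mul_assoc, h2, ← mul_assoc, inv_mul_cancel, one_mul]
  have htr := MonoidHom.transfer_eq_pow ϕ w hkey
  have hker : MonoidHom.transfer ϕ w = 1 :=
    Abelianization.commutator_subset_ker (MonoidHom.transfer ϕ) hw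
  rw [hker] at htr
  have hpow : (w.1 : M) ^ (N.subgroupOf ⁅(⊤ : Subgroup M), (⊤ : Subgroup M)⁆).index = 1 := by
    have h3 := congrArg (fun x : ↥N => (x : M)) htr
    exact h3.symm
  have hidx : (N.subgroupOf ⁅(⊤ : Subgroup M), (⊤ : Subgroup M)⁆).index ∣ N.index :=
    Subgroup.relIndex_dvd_index_of_normal N _
  have hord1 : orderOf (w.1 : M) ∣
      (N.subgroupOf ⁅(⊤ : Subgroup M), (⊤ : Subgroup M)⁆).index :=
    orderOf_dvd_of_pow_eq_one hpow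
  have hord2 : orderOf (w.1 : M) ∣ Nat.card N := Subgroup.orderOf_dvd_natCard N hzN
  have hc : Nat.Coprime (Nat.card N)
      (N.subgroupOf ⁅(⊤ : Subgroup M), (⊤ : Subgroup M)⁆).index :=
    Nat.Coprime.coprime_dvd_right hidx hcop
  have h1 : orderOf (w.1 : M) ∣ 1 := by
    have h4 := Nat.dvd_gcd hord2 hord1
    rwa [hc.gcd_eq_one] at h4
  exact orderOf_eq_one_iff.1 (Nat.dvd_one.1 h1)

end Cfsg.Agent.Lib.Helper17.S64NC
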