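import Mathlib
import Cfsg.Agent.Lib.Helper49.S82Stmt
import Cfsg.Agent.Lib.Helper23.Transitivity

set_option autoImplicit false

/-!
# S1382, piece W1DATA (second seat): `K` is a Hall subgroup of `M` complementing `M_σ` if `U = ⊥`
-/

namespace Cfsg.Agent.Lib.Helper17.S82W1DATA

open Cfsg.Agent.Lib.Helper49.S82Stmt

universe u

theorem main : W1Data.{u} := by
  intro G _ _ hG M K U hM hKU hK1 hU
  obtain ⟨hKM, hKκ, hKidx⟩ := hKU.hall
  have hcop : (Nat.card ↥K).Coprime (K.relIndex M) := by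
    by_contra hnc
    obtain ⟨p, hp, hpa, hpb⟩ := Nat.Prime.not_coprime_iff_dvd.1 hnc
    exact hKidx p hp (hKκ p hp hpa) hpb
  refine ⟨hcop, Subgroup.map_subtype_le _, hKM, ?_, ?_⟩
  · have hS : ∀ p : ℕ, p.Prime → p ∣ Nat.card (Cfsg.sigmaCore M) → p ∈ Cfsg.sigma M := by
      intro p hp hd
      have h1 := Cfsg.Agent.Lib.Helper23.Transitivity.isPiNum_card_piCore (G := ↥M) (Cfsg.sigma M)
      apply h1 p hp
      have e : Nat.card (Cfsg.sigmaCore M) = Nat.card (Cfsg.piCore (Cfsg.sigma M) ↥M) := by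
        unfold Cfsg.sigmaCore
        exact Subgroup.card_map_of_injective (Subgroup.subtype_injective _)
      rw [← e]; exact hd
    apply Subgroup.eq_bot_of_card_eq
    by_contra hne
    obtain ⟨p, hp, hpd⟩ := Nat.exists_prime_and_dvd hne
    have h1 : p ∣ Nat.card (Cfsg.sigmaCore M) :=
      dvd_trans hpd (Subgroup.card_dvd_of_le inf_le_left)
    have h2 : p ∣ Nat.card K := dvd_trans hpd (Subgroup.card_dvd_of_le inf_le_right)
    have h3 : p ∈ Cfsg.kappa M := hKκ p hp h2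
    exact h3.2.2.1 (hS p hp h1)
  · intro m hm
    obtain ⟨hUM, hKSM, hUKS, hprod⟩ := hKU.compl
    obtain ⟨a, ha, b, hb, hmab⟩ := hprod m hm
    rw [hU, Subgroup.mem_bot] at ha
    rw [ha, one_mul] at hmab
    have hb' : m ∈ K ⊔ Cfsg.sigmaCore M := hmab ▸ hb
    have e1 : K ⊔ Cfsg.sigmaCore M =
        (Cfsg.piCore (Cfsg.sigma M) ↥M ⊔ K.subgroupOf M).map M.subtype := by
      rw [Subgroup.map_sup, Subgroup.map_subgroupOf_eq_of_le hKM, sup_comm]
      rfl
    rw [e1] at hb'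
    obtain ⟨x, hx, hxm⟩ := hb'
    obtain ⟨y, hy, z, hz, hyz⟩ := Subgroup.mem_sup_of_normal_left.mp hx
    refine ⟨(y : G), ⟨y, hy, rfl⟩, (z : G), Subgroup.mem_subgroupOf.mp hz, ?_⟩
    rw [← hxm, ← hyz]; rfl

end Cfsg.Agent.Lib.Helper17.S82W1DATA
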