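import Mathlib
import Cfsg.Agent.Lib.Helper14.TC3Stmt
import Cfsg.Agent.Lib.Helper3.TDBasic

set_option autoImplicit false

/-! S4460 piece [W1] (second seat, helper17), with the shared restriction lemma. -/

namespace Cfsg.Agent.Lib.Helper17.TC3W1

open Cfsg Cfsg.Agent.Lib.Helper14.TC3Stmt
open Cfsg.Agent.Lib.Helper80.Integrality
open Cfsg.Agent.Lib.CT.Wedderburn
open scoped ComplexConjugate

universe u

/-- If `K` is normal of `p`-power index and `p ∤ ψ(1)`, the restriction of `ψ` to `K` is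
irreducible. -/
theorem restrict_irr {G : Type u} [Group G] [Finite G] (K : Subgroup G) [K.Normal] (p : ℕ)
    (hp : p.Prime) (hidx : ∃ j, K.index = p ^ j) (ψ : IrrCharacter G)
    (hψ : ¬ p ∣ charDegree (ψ : G → ℂ)) :
    IsIrrCharacter K (fun k : K => (ψ : G → ℂ) k) := by
  classical
  have := Fintype.ofFinite G
  have := Fintype.ofFinite K
  have := Cfsg.Agent.Lib.Helper3.Irr.finite_irrCharacter (G := K)
  have := Fintype.ofFinite (IrrCharacter K)
  have hres : IsCharacter K (fun k : K => (ψ : G → ℂ) k) :=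
    Cfsg.Agent.Lib.CT.Ops.isCharacter_restrict K (isCharacter_of_irr ψ.2)
  obtain ⟨m, hm, hexp, hdeg, -⟩ := Cfsg.Agent.Lib.Helper80.Restrict.exists_mult hres
  have hdeg' : charDegree (ψ : G → ℂ) = ∑ θ : IrrCharacter K, m θ * charDegree (θ : K → ℂ) :=
    hdeg
  have hpos : 0 < charDegree (ψ : G → ℂ) := charDegree_pos ψ
  obtain ⟨θ, hθ⟩ : ∃ θ, m θ ≠ 0 := by
    by_contra hcon
    push Not at hcon
    rw [hdeg'] at hpos
    simp [hcon] at hpos
  have hcon : classInner (fun n : K => (ψ : G → ℂ) n) (θ : K → ℂ) ≠ 0 := by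
    rw [hm θ]
    exact_mod_cast hθ
  obtain ⟨hd1, hd2⟩ := Cfsg.Agent.Lib.Helper3.TDBasic.deg_of_constituent K θ ψ hcon
  obtain ⟨j, hj⟩ := hidx
  rw [hj] at hd2
  obtain ⟨i, -, hi⟩ := (Nat.dvd_prime_pow hp).mp hd2
  have hi0 : i = 0 := by
    by_contra h
    apply hψ
    have h1 : p ∣ charDegree (ψ : G → ℂ) / charDegree (θ : K → ℂ) := by
      rw [hi]
      exact dvd_pow_self p h
    exact h1.trans (Nat.div_dvd_of_dvd hd1)
  have heq : charDegree (ψ : G → ℂ) = charDegree (θ : K → ℂ) := by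
    rw [hi0, pow_zero] at hi
    have h1 := Nat.div_mul_cancel hd1
    rw [hi, one_mul] at h1
    exact h1.symm
  have hθpos : 0 < charDegree (θ : K → ℂ) := charDegree_pos θ
  have hsplit := Finset.add_sum_erase Finset.univ
    (fun θ' : IrrCharacter K => m θ' * charDegree (θ' : K → ℂ)) (Finset.mem_univ θ)
  rw [← hdeg', heq] at hsplit
  have hmθ1 : 1 ≤ m θ := Nat.one_le_iff_ne_zero.mpr hθ
  have hle : charDegree (θ : K → ℂ) ≤ m θ * charDegree (θ : K → ℂ) :=
    Nat.le_mul_of_pos_left _ hmθ1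
  have hrest : ∑ θ' ∈ Finset.univ.erase θ, m θ' * charDegree (θ' : K → ℂ) = 0 := by
    omega
  have hmθ : m θ = 1 := by
    rw [hrest, add_zero] at hsplit
    have h1 : m θ * charDegree (θ : K → ℂ) = 1 * charDegree (θ : K → ℂ) := by
      rw [one_mul]
      exact hsplit
    exact Nat.eq_of_mul_eq_mul_right hθpos h1
  have hzero : ∀ θ' : IrrCharacter K, θ' ≠ θ → m θ' = 0 := by
    intro θ' hne
    have h1 := (Finset.sum_eq_zero_iff.mp hrest) θ' (Finset.mem_erase.mpr ⟨hne, Finset.mem_univ _⟩)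
    rcases Nat.mul_eq_zero.mp h1 with h | h
    · exact h
    · exact absurd h (charDegree_pos θ').ne'
  have hfun : (fun k : K => (ψ : G → ℂ) k) = (θ : K → ℂ) := by
    funext g
    rw [hexp g, Finset.sum_eq_single θ]
    · rw [hmθ, Nat.cast_one, one_mul]
    · intro θ' _ hne
      rw [hzero θ' hne, Nat.cast_zero, zero_mul]
    · intro h
      exact absurd (Finset.mem_univ θ) h
  rw [hfun]
  exact θ.2

theorem main : W1.{u} := by
  intro G _ _ K N p hF ψ hψ
  obtain ⟨hKn, hp, hNn, hKN, -, -, -, ⟨j, hj⟩, -⟩ := hF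
  have : K.Normal := hKn
  have : (K.subgroupOf N).Normal := Subgroup.normal_subgroupOf
  exact restrict_irr (K.subgroupOf N) p hp ⟨j, hj⟩ ψ hψ

end Cfsg.Agent.Lib.Helper17.TC3W1
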