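import Mathlib
import Cfsg.Agent.Lib.Helper14.TC3Stmt
import Cfsg.Agent.Lib.Helper3.TDBasic
import Cfsg.Agent.Lib.Helper78.Gallagher
import Cfsg.Agent.Lib.Helper17.TC3W1

set_option autoImplicit false

/-! S4460 piece [GALP] (second seat, helper17). -/

namespace Cfsg.Agent.Lib.Helper17.TC3GALP

open Cfsg Cfsg.Agent.Lib.Helper14.TC3Stmt
open Cfsg.Agent.Lib.Helper80.Integrality
open Cfsg.Agent.Lib.CT.Wedderburn
open scoped ComplexConjugate

universe u

theorem main : GalP.{u} := by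
  intro G _ _ K p hKn hp hidx hcomm
  classical
  have := Fintype.ofFinite G
  have := Fintype.ofFinite K
  have : K.Normal := hKn
  -- (i) a nonlinear irreducible character of `G ⧸ K`
  have hex : ∃ χ : IrrCharacter (G ⧸ K), charDegree (χ : G ⧸ K → ℂ) ≠ 1 := by
    by_contra hcon
    push Not at hcon
    apply hcomm
    have hab := Cfsg.Agent.Lib.Helper3.TDBasic.comm_of_forall_degree_one hcon
    rw [commutator_def, Subgroup.commutator_le]
    intro g₁ _ g₂ _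
    rw [← QuotientGroup.eq_one_iff, commutatorElement_def]
    have h1 := hab (g₁ : G ⧸ K) (g₂ : G ⧸ K)
    rw [QuotientGroup.mk_mul, QuotientGroup.mk_mul, QuotientGroup.mk_mul, h1,
      QuotientGroup.mk_inv, QuotientGroup.mk_inv]
    group
  obtain ⟨χ, hχ⟩ := hex
  obtain ⟨j, hj⟩ := hidx
  have hdvd : charDegree (χ : G ⧸ K → ℂ) ∣ p ^ j := by
    have h1 := charDegree_dvd_card χ
    rw [← Subgroup.index_eq_card, hj] at h1
    exact h1
  obtain ⟨c, -, hc⟩ := (Nat.dvd_prime_pow hp).mp hdvd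
  have hc0 : 0 < c := by
    rcases Nat.eq_zero_or_pos c with h | h
    · exfalso
      apply hχ
      rw [hc, h, pow_zero]
    · exact h
  have hβdeg : charDegree (Cfsg.Agent.Lib.Helper3.TDBasic.infl K χ : G → ℂ) = p ^ c := by
    rw [Cfsg.Agent.Lib.Helper3.TDBasic.charDegree_infl, hc]
  refine ⟨c, hc0, ⟨Cfsg.Agent.Lib.Helper3.TDBasic.infl K χ, hβdeg⟩, ?_⟩
  intro ψ hψ
  have hres := Cfsg.Agent.Lib.Helper17.TC3W1.restrict_irr K p hp ⟨j, hj⟩ ψ hψ
  have hprod : IsIrrCharacter K (fun n : K => (fun _ : K => (1 : ℂ)) n * (ψ : G → ℂ) n) := by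
    simpa using hres
  have hβ1 : (Cfsg.Agent.Lib.Helper3.TDBasic.infl K χ : G → ℂ) 1 = ((p ^ c : ℕ) : ℂ) := by
    rw [apply_one_eq_charDegree (isCharacter_of_irr (Cfsg.Agent.Lib.Helper3.TDBasic.infl K χ).2),
      hβdeg]
  have hinner : classInner (indFun K (fun _ : K => (1 : ℂ)))
      (Cfsg.Agent.Lib.Helper3.TDBasic.infl K χ : G → ℂ) ≠ 0 := by
    rw [Cfsg.Agent.Lib.CT.FrobRec.frobenius_reciprocity K _ _
      (char_isClassFunction (isCharacter_of_irr (Cfsg.Agent.Lib.Helper3.TDBasic.infl K χ).2))]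
    unfold classInner
    have h1 : ∀ h : K, (1 : ℂ) * conj ((Cfsg.Agent.Lib.Helper3.TDBasic.infl K χ : G → ℂ) h)
        = ((p ^ c : ℕ) : ℂ) := by
      intro h
      have h2 : (Cfsg.Agent.Lib.Helper3.TDBasic.infl K χ : G → ℂ) h
          = (Cfsg.Agent.Lib.Helper3.TDBasic.infl K χ : G → ℂ) 1 := by
        rw [Cfsg.Agent.Lib.Helper3.TDBasic.infl_apply, Cfsg.Agent.Lib.Helper3.TDBasic.infl_apply]
        exact Cfsg.Agent.Lib.CT.Kernel.inflation_apply_of_mem K _ h.2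
      rw [h2, hβ1, one_mul, Complex.conj_natCast]
    rw [Finset.sum_congr rfl (fun h _ => h1 h), Finset.sum_const, Finset.card_univ,
      nsmul_eq_mul, ← Nat.card_eq_fintype_card, ← mul_assoc,
      inv_mul_cancel₀ (Nat.cast_ne_zero.mpr Nat.card_pos.ne'), one_mul]
    exact Nat.cast_ne_zero.mpr (pow_pos hp.pos c).ne'
  have hG := ((Cfsg.Agent.Lib.Helper78.Gallagher.gallagher_core K hKn (fun _ : K => (1 : ℂ))
    Cfsg.Agent.Lib.CT.Ops.isIrrCharacter_one (fun g n => rfl) (ψ : G → ℂ) ψ.2 hprod).1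
    (Cfsg.Agent.Lib.Helper3.TDBasic.infl K χ) hinner).1
  refine ⟨⟨_, hG⟩, ?_⟩
  have hval : ((Cfsg.Agent.Lib.Helper3.TDBasic.infl K χ : G → ℂ) * (ψ : G → ℂ)) 1
      = ((p ^ c * charDegree (ψ : G → ℂ) : ℕ) : ℂ) := by
    rw [Pi.mul_apply, hβ1, apply_one_eq_charDegree (isCharacter_of_irr ψ.2), ← Nat.cast_mul]
  change ⌊(((Cfsg.Agent.Lib.Helper3.TDBasic.infl K χ : G → ℂ) * (ψ : G → ℂ)) 1).re⌋₊ = _
  rw [hval, Complex.natCast_re, Nat.floor_natCast]

end Cfsg.Agent.Lib.Helper17.TC3GALP
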